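import Cfsg.Agent.Lib.H21.BT4

/-!
The theorem of Brauer and Tuan.
-/

set_option autoImplicit false
set_option linter.unusedSectionVars false

namespace H21.BT

open Cfsg H18.CharBasic H18.CharOrtho H18.CharInd H21.PLat H21.BK

universe u

theorem not_comm_of_not_cyclic {G : Type u} [Group G] [IsSimpleGroup G] (hG : ¬ IsCyclic G) :
    ¬ IsMulCommutative G := by
  intro h
  apply hG
  let _ : CommGroup G := { (inferInstance : Group G) with
    mul_comm := fun a b => h.is_comm.comm a b }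
  exact IsSimpleGroup.isCyclic

theorem brauer_tuan {G : Type u} [Group G] [Finite G] [IsSimpleGroup G] (hG : ¬ IsMulCommutative G)
    {p q b g : ℕ} (hp : p.Prime) (hq : q.Prime) (hpq : p ≠ q) (hG' : Nat.card G = p * q ^ b * g)
    (hg : g < p - 1) :
    (∃ (m : ℕ) (F : Type) (_ : Field F) (_ : Fintype F), Fintype.card F = p ∧
      (p = 2 ^ m + 1 ∨ p = 2 ^ m - 1) ∧ 3 < p ∧
      Nonempty (G ≃* Matrix.ProjectiveSpecialLinearGroup (Fin 2) F)) ∨
    (∃ (m : ℕ) (F : Type) (_ : Field F) (_ : Fintype F), Fintype.card F = 2 ^ m ∧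
      p = 2 ^ m + 1 ∧ 3 < p ∧ Nonempty (G ≃* Matrix.ProjectiveSpecialLinearGroup (Fin 2) F)) := by
  classical
  have : Fact p.Prime := ⟨hp⟩
  let _ : Fintype G := Fintype.ofFinite G
  let _ : Fintype (IrrCharacter G) := Fintype.ofFinite _
  have hp1 := hp.one_lt
  have hdvd : p ∣ Nat.card G := by rw [hG', mul_assoc]; exact dvd_mul_right _ _
  have hgpos : 0 < g := by
    rcases Nat.eq_zero_or_pos g with h0 | h0
    · rw [h0, mul_zero] at hG'
      have : 0 < Nat.card G := Nat.card_pos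
      omega
    · exact h0
  have hnd : ¬ p ∣ q ^ b * g := by
    intro h
    rcases (Nat.Prime.dvd_mul hp).1 h with h1 | h1
    · exact hpq ((Nat.prime_dvd_prime_iff_eq hp hq).1 (hp.dvd_of_dvd_pow h1))
    · have := Nat.le_of_dvd hgpos h1
      omega
  obtain ⟨x0, hx0⟩ := exists_prime_orderOf_dvd_card' p hdvd
  have hidx : (Subgroup.zpowers x0).index = q ^ b * g := by
    have h1 := (Subgroup.zpowers x0).card_mul_index
    rw [card_zp hx0, hG', mul_assoc] at h1
    exact Nat.eq_of_mul_eq_mul_left hp.pos h1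
  obtain ⟨a, Y, ε, e, n, c, h⟩ := exists_BD hx0 (by rw [hidx]; exact hnd)
  have hcard : c * e * (1 + n * p) = q ^ b * g := by
    have h1 := h.hcard
    rw [hG'] at h1
    have h2 : p * (c * e * (1 + n * p)) = p * (q ^ b * g) := by
      calc _ = p * c * e * (1 + n * p) := by ring
        _ = p * q ^ b * g := h1.symm
        _ = _ := by ring
    exact Nat.eq_of_mul_eq_mul_left hp.pos h2
  obtain ⟨θ, hθ⟩ := h.exists_Y
  obtain ⟨hc, -, -, -, hDlt⟩ := setup h hG hq hcard hg hθ
  have hDgt := degree_gt_one hG (h.triv_notin hθ)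
  have hp3 : 3 < p := by omega
  rcases h.hε with hε | hε
  · left
    obtain ⟨f⟩ := pos_case h hG hθ hDlt hε
    have hodd : ¬ 2 ∣ p := by
      intro hd
      rcases (Nat.dvd_prime hp).1 hd with h1 | h1 <;> omega
    have hcardPSL := card_psl_two (F := ZMod p) (ZMod.card p) hodd hp1
    rw [← Nat.card_congr f.toEquiv, hG'] at hcardPSL
    obtain ⟨m, hm⟩ := psl_arith hp hq hp3 hcardPSL.symm hg
    exact ⟨m, ZMod p, inferInstance, inferInstance, ZMod.card p, hm, hp3, ⟨f⟩⟩
  · obtain ⟨hlt, m, hm⟩ := neg_case h hG hq hcard hg hε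
    rcases cube hG hdvd hlt with ⟨F, i1, i2, h1, h2, h3⟩ | h1
    · left
      exact ⟨m, F, i1, i2, h1, Or.inl hm, h2, h3⟩
    · right
      exact h1

end H21.BT
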