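import Cfsg.Agent.Lib.H21.BT5
import Cfsg.Agent.S0494
import Cfsg.Agent.Lib.H21.PrimeAct

/-!
Simple groups of order `p r q ^ b`.
-/

set_option autoImplicit false
set_option linter.unusedSectionVars false

namespace H21.BT

open Cfsg H18.CharBasic H18.CharOrtho H18.CharInd H21.PLat H21.BK

universe u

theorem four_dvd_simple {S : Type u} [Group S] [Finite S] [IsSimpleGroup S]
    (hS : ¬ IsMulCommutative S) (h2 : 2 ∣ Nat.card S) : 4 ∣ Nat.card S := by
  have : Fact (Nat.Prime 2) := ⟨Nat.prime_two⟩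
  obtain ⟨x, hx⟩ := exists_prime_orderOf_dvd_card' 2 h2
  have h3 := H21.PrimeAct.four_dvd_moved hS S x (by rw [← hx, pow_orderOf_eq_one])
  have h4 : Nat.card (MulAction.fixedBy S x) = 0 := by
    have : IsEmpty (MulAction.fixedBy S x) := by
      constructor
      rintro ⟨y, hy⟩
      have h5 : x * y = y := hy
      have h6 : x = 1 := by simpa using h5
      rw [h6, orderOf_one] at hx
      omega
    exact Nat.card_of_isEmpty
  rwa [h4, Nat.sub_zero] at h3

theorem three_dvd_odd {m : ℕ} (hm : m % 2 = 1) : 3 ∣ 2 ^ m + 1 := by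
  have h := Odd.nat_add_dvd_pow_add_pow 2 1 (Nat.odd_iff.2 hm)
  simpa using h

theorem three_dvd_even {m : ℕ} (hm : m % 2 = 0) : 3 ∣ 2 ^ m - 1 := by
  obtain ⟨t, rfl⟩ : ∃ t, m = 2 * t := ⟨m / 2, by omega⟩
  have h := Nat.sub_dvd_pow_sub_pow (2 ^ 2) 1 t
  rw [one_pow, ← pow_mul] at h
  simpa using h

/-- `2 ^ m k = r q ^ b` with `k` odd and `m ≥ 2` -/
theorem two_part {m k r q b : ℕ} (hr : r.Prime) (hq : q.Prime) (hqr : q ≠ r) (hm : 2 ≤ m)
    (hk : k % 2 = 1) (h : 2 ^ m * k = r * q ^ b) : q = 2 ∧ k = r := by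
  have hq2 : q = 2 := by
    by_contra hne
    have hcop : Nat.Coprime (2 ^ m) (q ^ b) :=
      Nat.Coprime.pow _ _ ((Nat.coprime_primes Nat.prime_two hq).2 (Ne.symm hne))
    have h1 : 2 ^ m ∣ r * q ^ b := by rw [← h]; exact dvd_mul_right _ _
    have h2 : 2 ^ m ∣ r := hcop.dvd_of_dvd_mul_right h1
    have h3 : 2 ^ 2 ∣ r := (pow_dvd_pow 2 hm).trans h2
    have h4 : 2 ∣ r := (Dvd.intro 2 rfl : 2 ∣ 2 ^ 2).trans h3
    rcases (Nat.dvd_prime hr).1 h4 with h5 | h5
    · omega
    · rw [← h5] at h3; omega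
  subst hq2
  refine ⟨rfl, ?_⟩
  have hcop1 : Nat.Coprime k (2 ^ b) := Nat.Coprime.pow_right _ (Nat.coprime_two_right.2 (Nat.odd_iff.2 hk))
  have hrodd : r % 2 = 1 := by
    rcases hr.eq_two_or_odd with h1 | h1
    · exact absurd h1.symm hqr
    · exact h1
  have hcop2 : Nat.Coprime r (2 ^ m) := Nat.Coprime.pow_right _ (Nat.coprime_two_right.2 (Nat.odd_iff.2 hrodd))
  apply Nat.dvd_antisymm
  · have h1 : k ∣ r * 2 ^ b := by rw [← h]; exact dvd_mul_left _ _
    exact hcop1.dvd_of_dvd_mul_right h1
  · have h1 : r ∣ 2 ^ m * k := by rw [h]; exact dvd_mul_right _ _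
    exact hcop2.dvd_of_dvd_mul_left h1

theorem three_prime {r : ℕ} (hr : r.Prime) (h : 3 ∣ r) : r = 3 :=
  ((Nat.prime_dvd_prime_iff_eq Nat.prime_three hr).1 h).symm

theorem prq {G : Type u} [Group G] [Finite G] [IsSimpleGroup G] (hG : ¬ IsMulCommutative G)
    {p q r b : ℕ} (hp : p.Prime) (hq : q.Prime) (hr : r.Prime) (hpq : p ≠ q)
    (hqr : q ≠ r) (hrp : r < p) (hG' : Nat.card G = p * r * q ^ b) :
    (∃ (F : Type) (_ : Field F) (_ : Fintype F), Fintype.card F = 5 ∧
      Nonempty (G ≃* Matrix.ProjectiveSpecialLinearGroup (Fin 2) F)) ∨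
    (∃ (F : Type) (_ : Field F) (_ : Fintype F), Fintype.card F = 7 ∧
      Nonempty (G ≃* Matrix.ProjectiveSpecialLinearGroup (Fin 2) F)) := by
  classical
  have hr2 := hr.two_le
  -- the case `p = 3`
  rcases Nat.lt_or_ge r (p - 1) with hlt | hge
  · have h60 : Nat.card G = 60 → (∃ (F : Type) (_ : Field F) (_ : Fintype F), Fintype.card F = 5 ∧
        Nonempty (G ≃* Matrix.ProjectiveSpecialLinearGroup (Fin 2) F)) := by
      intro h
      obtain ⟨f⟩ := Cfsg.Agent.S0494.result h
      have : Fact (Nat.Prime 5) := ⟨Nat.prime_five⟩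
      have hs : IsSimpleGroup (Matrix.ProjectiveSpecialLinearGroup (Fin 2) (ZMod 5)) :=
        Matrix.ProjectiveSpecialLinearGroup.rank_two_simple (by rw [Nat.card_zmod]; norm_num)
      have hc := card_psl_two (F := ZMod 5) (ZMod.card 5) (by norm_num) (by norm_num)
      obtain ⟨f'⟩ := Cfsg.Agent.S0494.result (G := Matrix.ProjectiveSpecialLinearGroup (Fin 2) (ZMod 5))
        (by omega)
      exact ⟨ZMod 5, inferInstance, inferInstance, ZMod.card 5, ⟨f.trans f'.symm⟩⟩
    rcases brauer_tuan hG hp hq hpq (g := r) (b := b) (by rw [hG']; ring) hlt with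
      ⟨m, F, i1, i2, h1, h2, h3, ⟨f⟩⟩ | ⟨m, F, i1, i2, h1, h2, h3, ⟨f⟩⟩
    · have hodd : ¬ 2 ∣ p := by
        intro hd
        rcases (Nat.dvd_prime hp).1 hd with h1 | h1 <;> omega
      have hc := card_psl_two h1 hodd hp.one_lt
      rw [← Nat.card_congr f.toEquiv, hG'] at hc
      have hm2 : 2 ≤ m := by
        by_contra hcon
        have : m = 0 ∨ m = 1 := by omega
        rcases this with h4 | h4
        · rw [h4] at h2; omega
        · rw [h4] at h2; omega
      obtain ⟨m', rfl⟩ : ∃ m', m = m' + 1 := ⟨m - 1, by omega⟩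
      have hpow1 : 1 ≤ 2 ^ m' := Nat.one_le_two_pow
      have hpow2 : 2 ∣ 2 ^ m' := dvd_pow_self 2 (by omega)
      rcases h2 with h2 | h2
      · have h4 : 2 ^ (m' + 1) * (2 ^ m' + 1) = r * q ^ b := by
          have h5 : p ^ 2 - 1 = 2 * (2 ^ (m' + 1) * (2 ^ m' + 1)) := by
            have : p ^ 2 = 2 * (2 ^ (m' + 1) * (2 ^ m' + 1)) + 1 := by rw [h2, pow_succ]; ring
            omega
          rw [h5] at hc
          have h6 : (2 * p) * (r * q ^ b) = (2 * p) * (2 ^ (m' + 1) * (2 ^ m' + 1)) := by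
            calc _ = 2 * (p * r * q ^ b) := by ring
              _ = _ := hc
              _ = _ := by ring
          exact (Nat.eq_of_mul_eq_mul_left (by omega) h6).symm
        obtain ⟨hq2, hkr⟩ := two_part hr hq hqr hm2 (by omega) h4
        left
        apply h60
        have hmo : m' % 2 = 1 := by
          by_contra hcon
          have h5 := three_dvd_odd (m := m' + 1) (by omega)
          rw [← h2] at h5
          have := three_prime hp h5
          omega
        have h5 := three_dvd_odd hmo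
        rw [hkr] at h5
        have h6 := three_prime hr h5
        have h7 : 2 ^ m' = 2 := by omega
        have h8 : 2 ^ (m' + 1) = 4 := by rw [pow_succ, h7]; norm_num
        have h9 : p = 5 := by omega
        rw [hG', mul_assoc, ← h4, h9, h8, h7]; norm_num
      · have h4 : 2 ^ (m' + 1) * (2 ^ m' - 1) = r * q ^ b := by
          obtain ⟨v, hv⟩ : ∃ v, 2 ^ m' = v + 1 := ⟨2 ^ m' - 1, by omega⟩
          have h5 : p ^ 2 - 1 = 2 * (2 ^ (m' + 1) * (2 ^ m' - 1)) := by
            have h6 : p = 2 * v + 1 := by rw [h2, pow_succ, hv]; omega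
            have : p ^ 2 = 2 * (2 ^ (m' + 1) * (2 ^ m' - 1)) + 1 := by
              rw [h6, show 2 ^ (m' + 1) = 2 ^ m' * 2 from pow_succ 2 m', hv, Nat.add_sub_cancel]; ring
            omega
          rw [h5] at hc
          have h6 : (2 * p) * (r * q ^ b) = (2 * p) * (2 ^ (m' + 1) * (2 ^ m' - 1)) := by
            calc _ = 2 * (p * r * q ^ b) := by ring
              _ = _ := hc
              _ = _ := by ring
          exact (Nat.eq_of_mul_eq_mul_left (by omega) h6).symm
        obtain ⟨hq2, hkr⟩ := two_part hr hq hqr hm2 (by omega) h4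
        right
        have hme : m' % 2 = 0 := by
          by_contra hcon
          have h5 := three_dvd_even (m := m' + 1) (by omega)
          rw [← h2] at h5
          have := three_prime hp h5
          omega
        have h5 := three_dvd_even hme
        rw [hkr] at h5
        have h6 := three_prime hr h5
        have h7 : 2 ^ m' = 4 := by omega
        have h8 : 2 ^ (m' + 1) = 8 := by rw [pow_succ, h7]; norm_num
        have h9 : p = 7 := by omega
        exact ⟨F, i1, i2, by rw [h1, h9], ⟨f⟩⟩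
    · left
      apply h60
      have hm2 : 2 ≤ m := by
        by_contra hcon
        have : m = 0 ∨ m = 1 := by omega
        rcases this with h4 | h4
        · rw [h4] at h2; omega
        · rw [h4] at h2; omega
      have hpow1 : 1 ≤ 2 ^ m := Nat.one_le_two_pow
      have hpow2 : 2 ∣ 2 ^ m := dvd_pow_self 2 (by omega)
      have : Fact (Nat.Prime 2) := ⟨Nat.prime_two⟩
      have hch : CharP F 2 := charP_of_card_eq_prime_pow (f := m) h1
      have hc := H25.SL2Card.card_PSL2_char_two (K := F)
      rw [← Nat.card_congr f.toEquiv, hG', h1] at hc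
      have h4 : 2 ^ m * (2 ^ m - 1) = r * q ^ b := by
        have h5 : (2 ^ m) ^ 2 - 1 = p * (2 ^ m - 1) := by
          obtain ⟨v, hv⟩ : ∃ v, 2 ^ m = v + 1 := ⟨2 ^ m - 1, by omega⟩
          have : (2 ^ m) ^ 2 = p * (2 ^ m - 1) + 1 := by
            rw [h2, hv, Nat.add_sub_cancel]; ring
          omega
        rw [h5] at hc
        have h6 : p * (r * q ^ b) = p * (2 ^ m * (2 ^ m - 1)) := by
          calc _ = p * r * q ^ b := by ring
            _ = _ := hc
            _ = _ := by ring
        exact (Nat.eq_of_mul_eq_mul_left hp.pos h6).symm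
      obtain ⟨hq2, hkr⟩ := two_part hr hq hqr hm2 (by omega) h4
      have hme : m % 2 = 0 := by
        by_contra hcon
        have h5 := three_dvd_odd (m := m) (by omega)
        rw [← h2] at h5
        have := three_prime hp h5
        omega
      have h5 := three_dvd_even hme
      rw [hkr] at h5
      have h6 := three_prime hr h5
      have h7 : 2 ^ m = 4 := by omega
      have h9 : p = 5 := by omega
      rw [hG', mul_assoc, ← h4, h9, h7]; norm_num
  · -- `p = 3`, `r = 2`
    exfalso
    have h1 : p = r + 1 := by omega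
    have h2 : r = 2 := by
      rcases hr.eq_two_or_odd with h3 | h3
      · exact h3
      · exfalso
        rcases hp.eq_two_or_odd with h4 | h4 <;> omega
    have hp3 : p = 3 := by omega
    have hodd : q % 2 = 1 := by
      rcases hq.eq_two_or_odd with h3 | h3
      · exact absurd (h3.trans h2.symm) hqr
      · exact h3
    have h4 := four_dvd_simple hG (by rw [hG', hp3, h2]; omega)
    rw [hG', hp3, h2] at h4
    have h5 : 2 ∣ q ^ b := by omega
    have := Nat.prime_two.dvd_of_dvd_pow h5
    omega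

end H21.BT
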