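import Cfsg.Agent.Lib.H67.DefOne5
import Cfsg.Agent.Lib.H67.Mod13
import Cfsg.Agent.Lib.H77.Cong
import Cfsg.Agent.Lib.H81.CharAvg
import Cfsg.Agent.Lib.H4.Integral
import Cfsg.Agent.Lib.H4.CharCount

/-!
Groups with a Sylow subgroup of prime order `p`: the characters of the `p'`-part of the centralizer
which occur in an irreducible character with a non-zero contribution are conjugate.
-/

set_option autoImplicit false
set_option linter.unusedSectionVars false

namespace H21.FD

open Finset Cfsg H18.CharBasic H18.CharOrtho H18.CharInd H67.Lat H67.DefOne H77.Cong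
open scoped ComplexConjugate

variable {p : ℕ} [hp : Fact p.Prime] {G : Type*} [Group G] [Fintype G]

open Classical in
/-- the class sum acts as a scalar -/
theorem class_sum {χ : G → ℂ} (hχ : IsIrrCharacter G χ) (u y : G) :
    ∑ k : G, (if IsConj u k then χ (k * y) else 0) =
      (((Subgroup.centralizer ({u} : Set G)).index : ℂ) * χ u / χ 1) * χ y := by
  have h1 := H81.CharAvg.sum_conj_mul hχ u y
  have h2 := H4.CharCount.sum_conj_eq (fun k => χ (k * y)) u
  have h3 : (Nat.card (Subgroup.centralizer ({u} : Set G)) : ℂ) ≠ 0 := by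
    exact_mod_cast Nat.card_pos.ne'
  have h4 : (Nat.card G : ℂ) = (Nat.card (Subgroup.centralizer ({u} : Set G)) : ℂ) *
      ((Subgroup.centralizer ({u} : Set G)).index : ℂ) := by
    rw [← Nat.cast_mul, Subgroup.card_mul_index]
  have h5 := h2.symm.trans h1
  rw [nsmul_eq_mul, h4] at h5
  apply mul_left_cancel₀ h3
  rw [h5]
  ring

section main

variable (D : Dat p G)

theorem comm_pow (i : ZMod p) (w : D.W) : Commute (w : G) (D.σ ^ i.val) := by
  have : Commute (w : G) D.σ := D.W_comm w.2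
  exact this.pow_right _

/-- `p`-regular elements centralizing `σ` lie in `W` -/
theorem mem_W_of_comm {k : G} (hk : ¬ p ∣ orderOf k) (hc : k * D.σ = D.σ * k) : k ∈ D.W := by
  obtain ⟨u, hu, y, hy, rfl⟩ := D.cent hc
  have hcomm : Commute u y := D.W_comm' hu hy
  have hyp : y ^ p = 1 := by
    obtain ⟨j, rfl⟩ := Subgroup.mem_zpowers_iff.1 hy
    have h0 : D.σ ^ p = 1 := orderOf_dvd_iff_pow_eq_one.1 (by rw [D.hσ])
    rw [← zpow_natCast, ← zpow_mul, mul_comm, zpow_mul, zpow_natCast, h0, one_zpow]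
  by_cases hy1 : y = 1
  · rw [hy1, mul_one]; exact hu
  · exfalso
    apply hk
    have h1 : orderOf y = p := orderOf_eq_prime hyp hy1
    have hup : ¬ p ∣ orderOf u := by
      intro h
      apply D.hNp
      have h2 := orderOf_dvd_natCard (⟨u, D.W_le hu⟩ : D.N₀)
      rw [← Subgroup.orderOf_coe] at h2
      exact h.trans h2
    have hcop : (orderOf u).Coprime (orderOf y) := by
      rw [h1]; exact ((hp.out.coprime_iff_not_dvd).2 hup).symm
    rw [hcomm.orderOf_mul_eq_mul_orderOf_of_coprime hcop, h1]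
    exact dvd_mul_left _ _

theorem not_dvd_of_mem_W {k : G} (hk : k ∈ D.W) : ¬ p ∣ orderOf k := by
  intro h
  apply D.hNp
  have h2 := orderOf_dvd_natCard (⟨k, D.W_le hk⟩ : D.N₀)
  rw [← Subgroup.orderOf_coe] at h2
  exact h.trans h2

theorem orderOf_isConj {u k : G} (h : IsConj u k) : orderOf u = orderOf k := by
  obtain ⟨c, rfl⟩ := isConj_iff.1 h
  rw [← MulAut.conj_apply, MulEquiv.orderOf_eq]

open Classical in
/-- the congruence of the scalars of class sums -/
theorem congr1 {χ : G → ℂ} (hχ : IsIrrCharacter G χ) {u : G} (hu : u ∈ D.W) (i : ZMod p)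
    (w : D.W) [Fintype D.W] :
    CongP p ((((Subgroup.centralizer ({u} : Set G)).index : ℂ) * χ u / χ 1) * χ (D.σ ^ i.val * w))
      (∑ k : D.W, (if IsConj u (k : G) then χ (k * (D.σ ^ i.val * w)) else 0)) := by
  have hcl := isClassFunction_of_isIrr hχ
  have hch := isCharacter_of_isIrr hχ
  rw [← class_sum hχ]
  -- the action of `P` by conjugation
  let act : MulAction (Subgroup.zpowers D.σ) G :=
    MulAction.compHom G ((MulAut.conj : G →* MulAut G).comp (Subgroup.zpowers D.σ).subtype)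
  have hact : ∀ (s : Subgroup.zpowers D.σ) (x : G), s • x = (s : G) * x * (s : G)⁻¹ := fun s x => rfl
  have hS : IsPGroup p (Subgroup.zpowers D.σ) := by
    rw [IsPGroup.iff_card]
    exact ⟨1, by rw [Nat.card_zpowers, D.hσ, pow_one]⟩
  have hinv : ∀ (s : Subgroup.zpowers D.σ) (x : G),
      (if IsConj u (s • x) then χ ((s • x) * (D.σ ^ i.val * w)) else 0) =
        (if IsConj u x then χ (x * (D.σ ^ i.val * w)) else 0) := by
    intro s x
    have h1 : IsConj u (s • x) ↔ IsConj u x := by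
      rw [hact]
      exact ⟨fun h => h.trans (isConj_iff.2 ⟨(s : G)⁻¹, by group⟩),
        fun h => h.trans (isConj_iff.2 ⟨(s : G), rfl⟩)⟩
    have hsc : Commute (s : G) (D.σ ^ i.val * w) := by
      obtain ⟨j, hj⟩ := Subgroup.mem_zpowers_iff.1 s.2
      rw [← hj]
      apply Commute.mul_right
      · exact ((Commute.refl D.σ).zpow_left j).pow_right _
      · have : Commute (w : G) D.σ := D.W_comm w.2
        exact (this.zpow_right j).symm
    have h2 : χ ((s • x) * (D.σ ^ i.val * w)) = χ (x * (D.σ ^ i.val * w)) := by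
      rw [hact]
      have h3 : (s : G) * x * (s : G)⁻¹ * (D.σ ^ i.val * w) =
          (s : G) * (x * (D.σ ^ i.val * w)) * (s : G)⁻¹ := by
        have h4 : (s : G)⁻¹ * (D.σ ^ i.val * w) = (D.σ ^ i.val * w) * (s : G)⁻¹ := hsc.inv_left.eq
        calc _ = (s : G) * x * ((s : G)⁻¹ * (D.σ ^ i.val * w)) := by group
          _ = (s : G) * x * ((D.σ ^ i.val * w) * (s : G)⁻¹) := by rw [h4]
          _ = _ := by group
      rw [h3]
      exact hcl _ _
    simp only [h1, h2]
  have hint : ∀ x : G, IsIntegral ℤ (if IsConj u x then χ (x * (D.σ ^ i.val * w)) else 0 : ℂ) := by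
    intro x
    split_ifs
    · exact char_isIntegral hch _
    · exact isIntegral_zero
  have h1 := sum_fixedPoints (p := p) hS
    (fun x : G => (if IsConj u x then χ (x * (D.σ ^ i.val * w)) else 0 : ℂ)) hinv hint
  refine H77.Cong.trans h1 (of_eq ?_)
  -- fixed points
  have h2 : ∀ x : G, (∀ s : Subgroup.zpowers D.σ, s • x = x) ↔ x * D.σ = D.σ * x := by
    intro x
    constructor
    · intro h
      have h3 := h ⟨D.σ, Subgroup.mem_zpowers _⟩
      rw [hact, mul_inv_eq_iff_eq_mul] at h3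
      exact h3.symm
    · intro h s
      obtain ⟨j, hj⟩ := Subgroup.mem_zpowers_iff.1 s.2
      have : Commute x D.σ := h
      rw [hact, ← hj, mul_inv_eq_iff_eq_mul]
      exact (this.zpow_right j).symm.eq
  rw [← Finset.sum_filter_add_sum_filter_not _ (fun x : G => IsConj u x)]
  have h3 : ∑ x ∈ ((univ : Finset G).filter (fun x => ∀ s : Subgroup.zpowers D.σ, s • x = x)).filter
      (fun x => ¬ IsConj u x), (if IsConj u x then χ (x * (D.σ ^ i.val * w)) else 0 : ℂ) = 0 :=
    Finset.sum_eq_zero fun x hx => if_neg (mem_filter.1 hx).2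
  rw [h3, add_zero]
  rw [← Finset.sum_filter (s := (univ : Finset D.W)) (p := fun k : D.W => IsConj u (k : G))]
  symm
  refine Finset.sum_bij (fun (k : D.W) _ => (k : G)) ?_ ?_ ?_ ?_
  · intro k hk
    rw [mem_filter, mem_filter]
    exact ⟨⟨mem_univ _, (h2 _).2 (D.W_comm k.2)⟩, (mem_filter.1 hk).2⟩
  · intro a _ b _ h
    exact Subtype.ext h
  · intro k hk
    rw [mem_filter, mem_filter] at hk
    obtain ⟨⟨-, h4⟩, h5⟩ := hk
    have h6 : k ∈ D.W := by
      apply mem_W_of_comm D _ ((h2 k).1 h4)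
      rw [← orderOf_isConj h5]
      exact not_dvd_of_mem_W D hu
    exact ⟨⟨k, h6⟩, mem_filter.2 ⟨mem_univ _, h5⟩, rfl⟩
  · intro k hk
    rw [if_pos (mem_filter.1 hk).2]

open Classical in
/-- sums over the elements of `W` in a class of `G` -/
theorem sum_conj_W [Fintype D.W] {θ : D.W → ℂ} (hθ : IsIrrCharacter D.W θ) (u : G) (w : D.W) :
    θ 1 * ∑ k : D.W, (if IsConj u (k : G) then conj (θ (k⁻¹ * w)) else 0) =
      (∑ k : D.W, (if IsConj u (k : G) then θ k else 0)) * conj (θ w) := by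
  have hcl := isClassFunction_of_isIrr hθ
  have hch := isCharacter_of_isIrr hθ
  have hW0 : (Nat.card D.W : ℂ) ≠ 0 := by exact_mod_cast Nat.card_pos.ne'
  have h10 : θ 1 ≠ 0 := irr_one_ne_zero hθ
  have h1 : ∀ v : D.W, ∑ k : D.W, (if IsConj u (k : G) then conj (θ (v * k⁻¹ * v⁻¹ * w)) else 0) =
      ∑ k : D.W, (if IsConj u (k : G) then conj (θ (k⁻¹ * w)) else 0) := by
    intro v
    refine Fintype.sum_equiv (MulAut.conj v).toEquiv _ _ (fun k => ?_)
    have e1 : (MulAut.conj v).toEquiv k = v * k * v⁻¹ := rfl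
    have e2 : (v * k * v⁻¹)⁻¹ = v * k⁻¹ * v⁻¹ := by group
    have e3 : IsConj u ((v * k * v⁻¹ : D.W) : G) ↔ IsConj u (k : G) := by
      push_cast
      exact ⟨fun h => h.trans (isConj_iff.2 ⟨(v : G)⁻¹, by group⟩),
        fun h => h.trans (isConj_iff.2 ⟨(v : G), rfl⟩)⟩
    rw [e1, e2]
    simp only [e3]
  have h2 : ∑ v : D.W, ∑ k : D.W, (if IsConj u (k : G) then conj (θ (v * k⁻¹ * v⁻¹ * w)) else 0) =
      (Nat.card D.W : ℂ) * ∑ k : D.W, (if IsConj u (k : G) then conj (θ (k⁻¹ * w)) else 0) := by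
    rw [Finset.sum_congr rfl (fun v _ => h1 v), Finset.sum_const, Finset.card_univ,
      ← Nat.card_eq_fintype_card, nsmul_eq_mul]
  have h3 : ∑ v : D.W, ∑ k : D.W, (if IsConj u (k : G) then conj (θ (v * k⁻¹ * v⁻¹ * w)) else 0) =
      ∑ k : D.W, (if IsConj u (k : G) then (Nat.card D.W : ℂ) * θ k * conj (θ w) / θ 1 else 0) := by
    rw [Finset.sum_comm]
    refine Finset.sum_congr rfl (fun k _ => ?_)
    by_cases hk : IsConj u (k : G)
    · simp only [if_pos hk]
      have h4 := H81.CharAvg.sum_conj_mul hθ k⁻¹ w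
      have h5 := congrArg conj h4
      rw [map_sum] at h5
      rw [h5, map_div₀, map_mul, map_mul, char_inv hch k, Complex.conj_conj, Complex.conj_natCast]
      obtain ⟨n, hn⟩ := exists_degree hch
      rw [hn, Complex.conj_natCast]
    · simp only [if_neg hk, Finset.sum_const_zero]
  rw [h3] at h2
  apply mul_left_cancel₀ hW0
  calc _ = θ 1 * ((Nat.card D.W : ℂ) *
        ∑ k : D.W, (if IsConj u (k : G) then conj (θ (k⁻¹ * w)) else 0)) := by ring
    _ = θ 1 * ∑ k : D.W, (if IsConj u (k : G) then (Nat.card D.W : ℂ) * θ k * conj (θ w) / θ 1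
        else 0) := by rw [h2]
    _ = _ := by
        rw [Finset.mul_sum, Finset.sum_mul, Finset.mul_sum]
        refine Finset.sum_congr rfl (fun k _ => ?_)
        split_ifs
        · field_simp
        · ring

/-- the sum defining the multiplicities -/
noncomputable def F (χ : G → ℂ) [Fintype D.W] (θ : D.W → ℂ) (i : ZMod p) : ℂ :=
  ∑ w : D.W, χ (D.σ ^ i.val * w) * conj (θ w)

theorem F_eq (χ : G → ℂ) [Fintype D.W] (θ : D.W → ℂ) (i : ZMod p) :
    F D χ θ i = (Nat.card D.W : ℂ) * FF D.W χ θ (D.σ ^ i.val) := by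
  have hW0 : (Nat.card D.W : ℂ) ≠ 0 := by exact_mod_cast Nat.card_pos.ne'
  rw [F, FF, ← mul_assoc, mul_inv_cancel₀ hW0, one_mul]

open Classical in
theorem congr2 [Fintype D.W] {χ : G → ℂ} (hχ : IsIrrCharacter G χ) {θ : D.W → ℂ}
    (hθ : IsIrrCharacter D.W θ) {u : G} (hu : u ∈ D.W) (i : ZMod p) :
    CongP p (θ 1 * (((Subgroup.centralizer ({u} : Set G)).index : ℂ) * χ u / χ 1) * F D χ θ i)
      ((∑ k : D.W, (if IsConj u (k : G) then θ k else 0)) * F D χ θ i) := by
  have hchθ := isCharacter_of_isIrr hθ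
  obtain ⟨n, hn⟩ := exists_degree hchθ
  have hconj : ∀ w, IsIntegral ℤ (conj (θ w)) := by
    intro w
    rw [← char_inv hchθ]
    exact char_isIntegral hchθ _
  have h1 := H77.Cong.sum (p := p) (univ : Finset D.W) (fun w _ =>
    H77.Cong.mul_right (hconj w) (congr1 D hχ hu i w))
  have h2 := H77.Cong.mul_left (char_isIntegral hchθ 1) h1
  have e1 : θ 1 * ∑ w : D.W, (((Subgroup.centralizer ({u} : Set G)).index : ℂ) * χ u / χ 1) *
      χ (D.σ ^ i.val * w) * conj (θ w) =
      θ 1 * (((Subgroup.centralizer ({u} : Set G)).index : ℂ) * χ u / χ 1) * F D χ θ i := by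
    rw [F, Finset.mul_sum, Finset.mul_sum]
    exact Finset.sum_congr rfl fun w _ => by ring
  have e2 : θ 1 * ∑ w : D.W, (∑ k : D.W, (if IsConj u (k : G) then χ (k * (D.σ ^ i.val * w))
      else 0)) * conj (θ w) =
      (∑ k : D.W, (if IsConj u (k : G) then θ k else 0)) * F D χ θ i := by
    have h3 : ∀ k : D.W, ∑ w : D.W, (if IsConj u (k : G) then χ (k * (D.σ ^ i.val * w))
        else 0) * conj (θ w) =
        ∑ w : D.W, χ (D.σ ^ i.val * w) * (if IsConj u (k : G) then conj (θ (k⁻¹ * w)) else 0) := by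
      intro k
      refine Fintype.sum_equiv (Equiv.mulLeft k) _ _ (fun w => ?_)
      have e3 : k * (D.σ ^ i.val * w) = D.σ ^ i.val * ((k * w : D.W) : G) := by
        rw [Subgroup.coe_mul, ← mul_assoc, (comm_pow D i k).eq, mul_assoc]
      have e4 : (Equiv.mulLeft k) w = k * w := rfl
      rw [e3, e4, inv_mul_cancel_left]
      split_ifs <;> ring
    have h4 : ∑ w : D.W, (∑ k : D.W, (if IsConj u (k : G) then χ (k * (D.σ ^ i.val * w))
        else 0)) * conj (θ w) = ∑ w : D.W, χ (D.σ ^ i.val * w) *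
          ∑ k : D.W, (if IsConj u (k : G) then conj (θ (k⁻¹ * w)) else 0) := by
      rw [Finset.sum_congr rfl (fun w _ => Finset.sum_mul _ _ _), Finset.sum_comm,
        Finset.sum_congr rfl (fun k _ => h3 k), Finset.sum_comm]
      exact Finset.sum_congr rfl fun w _ => (Finset.mul_sum _ _ _).symm
    rw [h4, F, Finset.mul_sum, Finset.mul_sum]
    refine Finset.sum_congr rfl fun w _ => ?_
    calc _ = χ (D.σ ^ i.val * w) * (θ 1 *
          ∑ k : D.W, (if IsConj u (k : G) then conj (θ (k⁻¹ * w)) else 0)) := by ring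
      _ = _ := by rw [sum_conj_W D hθ]; ring
  rw [e1, e2] at h2
  exact h2

/-- the sum of the contributions over the nontrivial elements of `P` -/
theorem sum_F [Fintype D.W] {χ : G → ℂ} (hχ : IsCharacter G χ) {θ : D.W → ℂ}
    (hθ : IsCharacter D.W θ) :
    ∃ N : ℤ, (N : ℂ) = ∑ b : (ZMod p)ˣ, (mu D χ θ 0 - mu D χ θ b) ∧
      ∑ i ∈ Ico 1 p, F D χ θ (i : ZMod p) = (Nat.card D.W : ℂ) * N := by
  have hA : ∀ (b : (ZMod p)ˣ), ∃ a : ℤ, (a : ℂ) = mu D χ θ 0 - mu D χ θ b := by
    intro b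
    obtain ⟨k, hk⟩ := mu_nat D hχ hθ 0
    obtain ⟨l, hl⟩ := mu_nat D hχ hθ (b : ZMod p)
    exact ⟨(k : ℤ) - l, by rw [hk, hl]; push_cast; ring⟩
  choose A hA using hA
  refine ⟨∑ b, A b, ?_, ?_⟩
  · push_cast
    exact Finset.sum_congr rfl fun b _ => hA b
  · have h1 := sum_nonzero_FF D χ θ
    push_cast
    rw [Finset.sum_congr rfl (fun b _ => hA b), ← h1, Finset.mul_sum]
    refine Finset.sum_congr rfl fun i hi => ?_
    rw [F_eq]
    congr 3
    rw [ZMod.val_natCast, Nat.mod_eq_of_lt (mem_Ico.1 hi).2]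

/-- fusion in `W` -/
theorem fusion (hp2 : ¬ p ^ 2 ∣ Nat.card G) {u k : G} (hu : u ∈ D.W) (hk : k ∈ D.W)
    (h : IsConj u k) : ∃ n : D.N₀, k = n * u * (n : G)⁻¹ := by
  let _ : Fintype D.W := Fintype.ofFinite _
  obtain ⟨g, hkdef'⟩ := isConj_iff.1 h
  have hkdef : k = g * u * g⁻¹ := hkdef'.symm
  have hs : D.σ ∈ Subgroup.centralizer ({k} : Set G) := by
    rw [Subgroup.mem_centralizer_singleton_iff]
    exact (D.W_comm hk).symm
  have ht : g * D.σ * g⁻¹ ∈ Subgroup.centralizer ({k} : Set G) := by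
    rw [Subgroup.mem_centralizer_singleton_iff]
    have := D.W_comm hu
    calc g * D.σ * g⁻¹ * k = g * (D.σ * u) * g⁻¹ := by rw [hkdef]; group
      _ = g * (u * D.σ) * g⁻¹ := by rw [this]
      _ = _ := by rw [hkdef]; group
  have hC : ¬ p ^ 2 ∣ Nat.card (Subgroup.centralizer ({k} : Set G)) := fun h =>
    hp2 (h.trans (Subgroup.card_subgroup_dvd_card _))
  obtain ⟨c, hc⟩ := H67.Mod.conj_of_order (G := Subgroup.centralizer ({k} : Set G)) hC
    (s := ⟨g * D.σ * g⁻¹, ht⟩) (t := ⟨D.σ, hs⟩) (by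
      rw [Subgroup.orderOf_mk, ← MulAut.conj_apply, MulEquiv.orderOf_eq, D.hσ])
    (by rw [Subgroup.orderOf_mk, D.hσ])
  obtain ⟨j, hj⟩ := Subgroup.mem_zpowers_iff.1 hc
  have hj' := congrArg Subtype.val hj
  simp only [Subgroup.coe_mul, Subgroup.coe_inv, Subgroup.coe_zpow] at hj'
  have hN : (c : G) * g ∈ Subgroup.normalizer (Subgroup.zpowers D.σ : Set G) := by
    apply H67.DefOne.mem_normalizer_of_conj D (a := 1) one_ne_zero
    have h1 : D.σ ^ (1 : ZMod p).val = D.σ := by
      rw [ZMod.val_one_eq_one_mod, Nat.mod_eq_of_lt hp.out.one_lt, pow_one]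
    rw [h1]
    refine Subgroup.mem_zpowers_iff.2 ⟨j, ?_⟩
    rw [hj']
    group
  obtain ⟨n, hn, y, hy, hny⟩ := D.hsup _ hN
  refine ⟨⟨n, hn⟩, ?_⟩
  have h2 : (c : G) * k = k * c := (Subgroup.mem_centralizer_singleton_iff.1 c.2)
  clear hj hc hj' hN
  obtain ⟨c, hcm⟩ := c
  simp only at h2 hny
  clear hcm
  have h3 : y * u = u * y := (D.W_comm' hu hy).symm
  have h4 : n = c * g * y⁻¹ := by rw [hny]; group
  have h5 : y⁻¹ * u * y = u := by
    rw [mul_assoc, ← h3]; group
  change k = n * u * n⁻¹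
  calc k = c * k * c⁻¹ := by rw [h2]; group
    _ = c * (g * u * g⁻¹) * c⁻¹ := by rw [← hkdef]
    _ = c * g * y⁻¹ * u * (c * g * y⁻¹)⁻¹ := by
        have : u = y⁻¹ * u * y := h5.symm
        nth_rewrite 1 [this]
        group
    _ = _ := by rw [← h4]

theorem card_HH_not_dvd (θ : D.W → ℂ) : ¬ p ∣ Nat.card (HH D θ) := by
  intro h
  have h1 := h.trans (Subgroup.card_subgroup_dvd_card (HH D θ))
  rw [Nat.card_eq_fintype_card, ZMod.card_units p] at h1
  have h2 := Nat.le_of_dvd (by have := hp.out.two_le; omega) h1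
  have := hp.out.two_le
  omega

theorem card_W_not_dvd : ¬ p ∣ Nat.card D.W := fun h =>
  D.hNp (h.trans (Subgroup.card_dvd_of_le D.W_le))

open Classical in
/-- two characters of `W` with non-zero contributions are conjugate -/
theorem conj_of_contr (hp2 : ¬ p ^ 2 ∣ Nat.card G) [Fintype D.W] {χ : G → ℂ}
    (hχ : IsIrrCharacter G χ) {θ θ' : D.W → ℂ} (hθ : IsIrrCharacter D.W θ)
    (hθ' : IsIrrCharacter D.W θ') {N N' : ℤ}
    (hN : (N : ℂ) = ∑ b : (ZMod p)ˣ, (mu D χ θ 0 - mu D χ θ b))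
    (hN' : (N' : ℂ) = ∑ b : (ZMod p)ˣ, (mu D χ θ' 0 - mu D χ θ' b))
    (hNp : ¬ (p : ℤ) ∣ N) (hNp' : ¬ (p : ℤ) ∣ N') : ∃ n : D.N₀, θ' = cjW D n θ := by
  by_contra hcon
  push Not at hcon
  let _ : Fintype D.N₀ := Fintype.ofFinite _
  have hch := isCharacter_of_isIrr hχ
  have hchθ := isCharacter_of_isIrr hθ
  have hchθ' := isCharacter_of_isIrr hθ'
  have hp0 : p ≠ 0 := hp.out.ne_zero
  -- the congruence for one character
  have key : ∀ (ϑ : D.W → ℂ) (hϑ : IsIrrCharacter D.W ϑ) (K : ℤ)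
      (hK : (K : ℂ) = ∑ b : (ZMod p)ˣ, (mu D χ ϑ 0 - mu D χ ϑ b)) (u : G) (hu : u ∈ D.W),
      CongP p (ϑ 1 * (((Subgroup.centralizer ({u} : Set G)).index : ℂ) * χ u / χ 1) *
        ((Nat.card D.W : ℂ) * K))
      ((∑ k : D.W, (if IsConj u (k : G) then ϑ k else 0)) * ((Nat.card D.W : ℂ) * K)) := by
    intro ϑ hϑ K hK u hu
    obtain ⟨K', hK', hs⟩ := sum_F D hch (isCharacter_of_isIrr hϑ)
    have hKK : K = K' := by
      have : (K : ℂ) = K' := hK.trans hK'.symm
      exact_mod_cast this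
    rw [hKK, ← hs, Finset.mul_sum, Finset.mul_sum]
    exact H77.Cong.sum _ fun i _ => congr2 D hχ hϑ hu _
  set m : ℂ := (Nat.card D.W : ℂ) * N with hm
  set m' : ℂ := (Nat.card D.W : ℂ) * N' with hm'
  have hmi : IsIntegral ℤ m := (H77.Cong.isIntegral_natCast _).mul (H77.Cong.isIntegral_intCast _)
  have hmi' : IsIntegral ℤ m' := (H77.Cong.isIntegral_natCast _).mul (H77.Cong.isIntegral_intCast _)
  -- the difference
  let Df : D.W → ℂ := fun k => θ' 1 * θ k - θ 1 * θ' k
  have h1 : ∀ u : G, u ∈ D.W → CongP p (m * m' * ∑ k : D.W, (if IsConj u (k : G) then Df k else 0)) 0 := by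
    intro u hu
    have a1 := H77.Cong.mul_left (hmi'.mul (char_isIntegral hchθ' 1)) (key θ hθ N hN u hu)
    have a2 := H77.Cong.mul_left (hmi.mul (char_isIntegral hchθ 1)) (key θ' hθ' N' hN' u hu)
    have a3 := H77.Cong.sub a1 a2
    have e1 : m' * θ' 1 * (θ 1 * (((Subgroup.centralizer ({u} : Set G)).index : ℂ) * χ u / χ 1) *
        ((Nat.card D.W : ℂ) * N)) - m * θ 1 * (θ' 1 *
        (((Subgroup.centralizer ({u} : Set G)).index : ℂ) * χ u / χ 1) * ((Nat.card D.W : ℂ) * N')) = 0 := by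
      rw [hm, hm']; ring
    have e2 : m' * θ' 1 * ((∑ k : D.W, (if IsConj u (k : G) then θ k else 0)) *
        ((Nat.card D.W : ℂ) * N)) - m * θ 1 * ((∑ k : D.W, (if IsConj u (k : G) then θ' k else 0)) *
        ((Nat.card D.W : ℂ) * N')) = m * m' * ∑ k : D.W, (if IsConj u (k : G) then Df k else 0) := by
      have : ∑ k : D.W, (if IsConj u (k : G) then Df k else 0) =
          θ' 1 * (∑ k : D.W, (if IsConj u (k : G) then θ k else 0)) -
          θ 1 * (∑ k : D.W, (if IsConj u (k : G) then θ' k else 0)) := by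
        rw [Finset.mul_sum, Finset.mul_sum, ← Finset.sum_sub_distrib]
        refine Finset.sum_congr rfl fun k _ => ?_
        by_cases hk : IsConj u (k : G)
        · simp only [if_pos hk, Df]
        · simp only [if_neg hk]; ring
      rw [this, hm, hm']
      ring
    rw [e1, e2] at a3
    exact H77.Cong.symm a3
  -- the invariant function
  let Th : D.W → ℂ := fun k => conj (∑ n : D.N₀, cjW D n θ k)
  have hTh : ∀ u k : D.W, IsConj (u : G) (k : G) → Th k = Th u := by
    intro u k h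
    obtain ⟨n0, hn0⟩ := fusion D hp2 u.2 k.2 h
    simp only [Th]
    congr 1
    refine Fintype.sum_equiv (Equiv.mulRight n0) _ _ (fun n => ?_)
    have e1 : (Equiv.mulRight n0) n = n * n0 := rfl
    rw [e1, cjW_apply, cjW_apply]
    congr 1
    apply Subtype.ext
    simp only [Subgroup.coe_mul, mul_inv_rev]
    rw [hn0]
    group
  have hThi : ∀ k, IsIntegral ℤ (Th k) := by
    intro k
    simp only [Th]
    rw [map_sum]
    refine H77.Cong.isIntegral_sum' _ fun n _ => ?_
    have hc := isCharacter_of_isIrr (cjW_irr D hθ n)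
    rw [← char_inv hc]
    exact char_isIntegral hc _
  -- summation over the classes
  let _ : Fintype (ConjClasses G) := Fintype.ofFinite _
  have h2 : CongP p (∑ k : D.W, m * m' * (Df k * Th k)) 0 := by
    rw [← Finset.sum_fiberwise (s := univ) (g := fun k : D.W => ConjClasses.mk (k : G))]
    have : (0 : ℂ) = ∑ C : ConjClasses G, 0 := by rw [Finset.sum_const_zero]
    rw [this]
    refine H77.Cong.sum _ fun C _ => ?_
    by_cases hC : ∃ u : D.W, ConjClasses.mk (u : G) = C
    · obtain ⟨u, rfl⟩ := hC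
      have h3 : ∑ k ∈ (univ : Finset D.W).filter
          (fun k : D.W => ConjClasses.mk (k : G) = ConjClasses.mk (u : G)),
          m * m' * (Df k * Th k) = Th u * (m * m' *
            ∑ k : D.W, (if IsConj (u : G) (k : G) then Df k else 0)) := by
        rw [Finset.sum_filter, Finset.mul_sum, Finset.mul_sum]
        refine Finset.sum_congr rfl fun k _ => ?_
        by_cases hk : IsConj (u : G) (k : G)
        · rw [if_pos hk, if_pos (ConjClasses.mk_eq_mk_iff_isConj.2 hk.symm), hTh u k hk]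
          ring
        · rw [if_neg hk, if_neg (fun h => hk (ConjClasses.mk_eq_mk_iff_isConj.1 h).symm)]
          ring
      rw [h3]
      have h4 := H77.Cong.mul_left (hThi u) (h1 u u.2)
      rwa [mul_zero] at h4
    · have h3 : (univ : Finset D.W).filter (fun k : D.W => ConjClasses.mk (k : G) = C) = ∅ := by
        rw [Finset.filter_eq_empty_iff]
        intro k _ hk
        exact hC ⟨k, hk⟩
      rw [h3, Finset.sum_empty]
      exact H77.Cong.refl 0
  -- evaluation
  have hin : ∀ (ϑ : D.W → ℂ) (n : D.N₀), ∑ k : D.W, ϑ k * conj (cjW D n θ k) =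
      (Nat.card D.W : ℂ) * classInner ϑ (cjW D n θ) := by
    intro ϑ n
    have hW0 : (Nat.card D.W : ℂ) ≠ 0 := by exact_mod_cast Nat.card_pos.ne'
    rw [classInner, ← mul_assoc, mul_inv_cancel₀ hW0, one_mul]
  have h5 : ∑ k : D.W, θ k * Th k = (Nat.card D.W : ℂ) * (Nat.card (T₀ D θ) : ℂ) := by
    simp only [Th]
    have : ∀ k : D.W, θ k * conj (∑ n : D.N₀, cjW D n θ k) = ∑ n : D.N₀, θ k * conj (cjW D n θ k) := by
      intro k; rw [map_sum, Finset.mul_sum]
    rw [Finset.sum_congr rfl (fun k _ => this k), Finset.sum_comm,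
      Finset.sum_congr rfl (fun n _ => hin θ n), ← Finset.mul_sum]
    congr 1
    have h6 : ∀ n : D.N₀, classInner θ (cjW D n θ) = if n ∈ T₀ D θ then 1 else 0 := by
      intro n
      by_cases hn : n ∈ T₀ D θ
      · rw [if_pos hn, (mem_T₀ D).1 hn]
        exact inner_irr_self hθ
      · rw [if_neg hn]
        exact inner_irr_ne hθ (cjW_irr D hθ n) (fun h => hn ((mem_T₀ D).2 h.symm))
    rw [Finset.sum_congr rfl (fun n _ => h6 n), Finset.sum_boole]
    congr 1
    rw [Nat.card_eq_fintype_card, Fintype.card_subtype]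
  have h6 : ∑ k : D.W, θ' k * Th k = 0 := by
    simp only [Th]
    have : ∀ k : D.W, θ' k * conj (∑ n : D.N₀, cjW D n θ k) = ∑ n : D.N₀, θ' k * conj (cjW D n θ k) := by
      intro k; rw [map_sum, Finset.mul_sum]
    rw [Finset.sum_congr rfl (fun k _ => this k), Finset.sum_comm,
      Finset.sum_congr rfl (fun n _ => hin θ' n)]
    apply Finset.sum_eq_zero
    intro n _
    rw [inner_irr_ne hθ' (cjW_irr D hθ n) (hcon n), mul_zero]
  have h7 : ∑ k : D.W, m * m' * (Df k * Th k) = m * m' * (θ' 1 * ((Nat.card D.W : ℂ) *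
      (Nat.card (T₀ D θ) : ℂ))) := by
    rw [← Finset.mul_sum]
    congr 1
    have : ∀ k : D.W, Df k * Th k = θ' 1 * (θ k * Th k) - θ 1 * (θ' k * Th k) := by
      intro k; simp only [Df]; ring
    rw [Finset.sum_congr rfl (fun k _ => this k), Finset.sum_sub_distrib, ← Finset.mul_sum,
      ← Finset.mul_sum, h5, h6]
    ring
  obtain ⟨d, hd⟩ := exists_degree hchθ'
  have hdW : d ∣ Nat.card D.W := by
    obtain ⟨j, ρ, hρ, hρ'⟩ := hθ'
    have h8 := H4.Integral.degree_dvd_card ρ hρ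
    have h9 : (d : ℂ) = (j : ℂ) := by
      rw [← hd, ← hρ', Representation.char_one, Module.finrank_fin_fun]
    have h10 : d = j := by exact_mod_cast h9
    rw [Module.finrank_fin_fun] at h8
    rwa [h10]
  rw [h7, card_T₀ D (isClassFunction_of_isIrr hθ), hd] at h2
  have h8 : m * m' * ((d : ℂ) * ((Nat.card D.W : ℂ) * ((Nat.card (HH D θ) * Nat.card D.W : ℕ) : ℂ))) =
      (((Nat.card D.W : ℤ) * N * ((Nat.card D.W : ℤ) * N') * ((d : ℤ) * ((Nat.card D.W : ℤ) *
        ((Nat.card (HH D θ) : ℤ) * (Nat.card D.W : ℤ)))) : ℤ) : ℂ) := by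
    rw [hm, hm']; push_cast; ring
  rw [h8, show (0 : ℂ) = ((0 : ℤ) : ℂ) by norm_num, congP_int_iff hp0, sub_zero] at h2
  have hpi : Prime (p : ℤ) := Nat.prime_iff_prime_int.1 hp.out
  have hW : ¬ (p : ℤ) ∣ (Nat.card D.W : ℤ) := by
    intro h; exact card_W_not_dvd D (Int.natCast_dvd_natCast.1 h)
  have hHH : ¬ (p : ℤ) ∣ (Nat.card (HH D θ) : ℤ) := by
    intro h; exact card_HH_not_dvd D θ (Int.natCast_dvd_natCast.1 h)
  have hdd : ¬ (p : ℤ) ∣ (d : ℤ) := by
    intro h; exact card_W_not_dvd D ((Int.natCast_dvd_natCast.1 h).trans hdW)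
  rcases hpi.dvd_or_dvd h2 with h | h
  · rcases hpi.dvd_or_dvd h with h | h
    · rcases hpi.dvd_or_dvd h with h | h
      · exact hW h
      · exact hNp h
    · rcases hpi.dvd_or_dvd h with h | h
      · exact hW h
      · exact hNp' h
  · rcases hpi.dvd_or_dvd h with h | h
    · exact hdd h
    · rcases hpi.dvd_or_dvd h with h | h
      · exact hW h
      · rcases hpi.dvd_or_dvd h with h | h
        · exact hHH h
        · exact hW h

end main

end H21.FD
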