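import Cfsg.Agent.Lib.H21.FD9
import Cfsg.Agent.Lib.H21.CommAct
import Cfsg.Agent.Lib.H67.Mod13

/-!
Groups with a faithful irreducible character of degree `p - 2`: reduction to the perfect case.
-/

set_option autoImplicit false
set_option linter.unusedSectionVars false

namespace H21.FD

open Finset Cfsg H18.CharBasic H18.CharOrtho H18.CharInd H67.Lat H67.DefOne H77.Cong
open scoped ComplexConjugate MatrixGroups commutatorElement

section restr

variable {G : Type*} [Group G] [Finite G]

theorem isIrreducible_restrict_central {H : Subgroup G}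
    (hH : ∀ g : G, ∃ h ∈ H, ∃ z ∈ Subgroup.center G, g = h * z) {n : ℕ}
    (ρ : Representation ℂ G (Fin n → ℂ)) (hρ : ρ.IsIrreducible) :
    Representation.IsIrreducible (ρ.comp H.subtype : Representation ℂ H (Fin n → ℂ)) := by
  have hnt : Nontrivial (Subrepresentation (ρ.comp H.subtype : Representation ℂ H (Fin n → ℂ))) := by
    refine ⟨⊥, ⊤, ?_⟩
    intro h
    have h2 : (⊥ : Submodule ℂ (Fin n → ℂ)) = ⊤ := congrArg Subrepresentation.toSubmodule h
    have h3 : (⊥ : Subrepresentation ρ) = ⊤ := Subrepresentation.toSubmodule_injective h2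
    exact hρ.toNontrivial.exists_pair_ne.elim fun a ⟨b, hab⟩ => by
      rcases hρ.eq_bot_or_eq_top a with ha | ha <;> rcases hρ.eq_bot_or_eq_top b with hb | hb
      · exact hab (ha.trans hb.symm)
      · exact hab (by rw [ha, hb, h3])
      · exact hab (by rw [ha, hb, h3])
      · exact hab (ha.trans hb.symm)
  refine ⟨fun q => ?_⟩
  let p : Subrepresentation ρ := ⟨q.toSubmodule, fun g v hv => by
    obtain ⟨h, hh, z, hz, rfl⟩ := hH g
    obtain ⟨c, hc⟩ := H4.CenterIndex.exists_scalar_of_center ρ hρ hz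
    rw [map_mul, hc]
    change ρ h (c • v) ∈ q.toSubmodule
    rw [map_smul]
    exact q.toSubmodule.smul_mem c (q.apply_mem_toSubmodule (⟨h, hh⟩ : H) hv)⟩
  rcases hρ.eq_bot_or_eq_top p with h1 | h1
  · left
    apply Subrepresentation.toSubmodule_injective
    have h2 : p.toSubmodule = (⊥ : Subrepresentation ρ).toSubmodule := by rw [h1]
    exact h2
  · right
    apply Subrepresentation.toSubmodule_injective
    have h2 : p.toSubmodule = (⊤ : Subrepresentation ρ).toSubmodule := by rw [h1]
    exact h2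

theorem isIrr_restrict_central {H : Subgroup G}
    (hH : ∀ g : G, ∃ h ∈ H, ∃ z ∈ Subgroup.center G, g = h * z) {χ : G → ℂ}
    (hχ : IsIrrCharacter G χ) : IsIrrCharacter H (fun h : H => χ h) := by
  obtain ⟨n, ρ, hρ, rfl⟩ := hχ
  exact ⟨n, _, isIrreducible_restrict_central hH ρ hρ, rfl⟩

/-- a direct decomposition -/
theorem exists_prod {H : Subgroup G}
    (hH : ∀ g : G, ∃ h ∈ H, ∃ z ∈ Subgroup.center G, g = h * z) (hc : Subgroup.center H = ⊥) :
    Nonempty (G ≃* H × Subgroup.center G) := by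
  let f : H × Subgroup.center G →* G :=
    { toFun := fun x => (x.1 : G) * (x.2 : G)
      map_one' := by simp
      map_mul' := by
        rintro ⟨a, y⟩ ⟨b, z⟩
        change ((a : G) * b) * ((y : G) * z) = ((a : G) * y) * (b * z)
        have h1 := (Subgroup.mem_center_iff.1 y.2) (b : G)
        calc ((a : G) * b) * ((y : G) * z) = a * (b * y) * z := by group
          _ = a * (y * b) * z := by rw [h1]
          _ = _ := by group }
  have hinj : Function.Injective f := by
    rw [injective_iff_map_eq_one]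
    rintro ⟨a, y⟩ h
    have h1 : (a : G) * (y : G) = 1 := h
    have h2 : (a : G) = (y : G)⁻¹ := eq_inv_of_mul_eq_one_left h1
    have h3 : (a : G) ∈ Subgroup.center G := by rw [h2]; exact Subgroup.inv_mem _ y.2
    have h4 : a ∈ Subgroup.center H := by
      rw [Subgroup.mem_center_iff] at h3 ⊢
      intro b
      exact Subtype.ext (h3 b)
    rw [hc, Subgroup.mem_bot] at h4
    subst h4
    rw [Subgroup.coe_one, one_mul] at h1
    exact Prod.ext rfl (Subtype.ext h1)
  have hsur : Function.Surjective f := by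
    intro g
    obtain ⟨h, hh, z, hz, rfl⟩ := hH g
    exact ⟨(⟨h, hh⟩, ⟨z, hz⟩), rfl⟩
  exact ⟨(MulEquiv.ofBijective f ⟨hinj, hsur⟩).symm⟩

end restr

section main

variable {p : ℕ} [hp : Fact p.Prime] {G : Type*} [Group G] [Fintype G]
variable {D : Dat p G} {χ : IrrCharacter G} [Fintype D.W]

theorem mem_zpowers_of_conj {σ x : G} (hσ : orderOf σ = p) (hx : orderOf x = p)
    (h : x ∈ Subgroup.zpowers σ) : σ ∈ Subgroup.zpowers x := by
  have h1 : Subgroup.zpowers x = Subgroup.zpowers σ := by
    apply Subgroup.eq_of_le_of_card_ge (Subgroup.zpowers_le.2 h)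
    rw [Nat.card_zpowers, Nat.card_zpowers, hσ, hx]
  rw [h1]
  exact Subgroup.mem_zpowers _

theorem mem_of_dvd (hp2 : ¬ p ^ 2 ∣ Nat.card G) {σ : G} (hσ : orderOf σ = p) {N : Subgroup G}
    (hN : N.Normal) (h : p ∣ Nat.card N) : σ ∈ N := by
  obtain ⟨x, hx⟩ := exists_prime_orderOf_dvd_card' p h
  have hx' : orderOf (x : G) = p := by rw [← hx]; exact (Subgroup.orderOf_coe x)
  obtain ⟨c, hc⟩ := H67.Mod.conj_of_order hp2 hx' hσ
  have h1 : orderOf (c * (x : G) * c⁻¹) = p := by
    rw [← MulAut.conj_apply, MulEquiv.orderOf_eq, hx']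
  have h2 := mem_zpowers_of_conj hσ h1 hc
  exact (Subgroup.zpowers_le.2 (hN.conj_mem _ x.2 c)) h2

theorem orderOf_conj' (g x : G) : orderOf (g * x * g⁻¹) = orderOf x := by
  rw [← MulAut.conj_apply, MulEquiv.orderOf_eq]

/-- elements of order `p` commuting with `σ` are powers of `σ` -/
theorem mem_of_comm_of_order (D : Dat p G) {x : G} (hx : orderOf x = p)
    (hc : x * D.σ = D.σ * x) : x ∈ Subgroup.zpowers D.σ := by
  obtain ⟨u, hu, y, hy, rfl⟩ := D.cent hc
  have hcomm : Commute u y := D.W_comm' hu hy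
  have hu1 : u ^ p = 1 := by
    have h1 := pow_orderOf_eq_one (u * y)
    rw [hx, hcomm.mul_pow] at h1
    have h2 : y ^ p = 1 := by
      obtain ⟨k, rfl⟩ := Subgroup.mem_zpowers_iff.1 hy
      have h0 : D.σ ^ p = 1 := orderOf_dvd_iff_pow_eq_one.1 (by rw [D.hσ])
      rw [← zpow_natCast, ← zpow_mul, mul_comm, zpow_mul, zpow_natCast, h0, one_zpow]
    rwa [h2, mul_one] at h1
  have h3 := (Nat.dvd_prime hp.out).1 (orderOf_dvd_of_pow_eq_one hu1)
  rcases h3 with h3 | h3
  · rw [orderOf_eq_one_iff.1 h3, one_mul]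
    exact hy
  · exact absurd (dvd_of_eq h3.symm) (not_dvd_of_mem_W D hu)

/-- normal `p'`-subgroups are centralised by `σ` -/
theorem Sq.centralizes (h : Sq D χ) (hnn : ∀ H : Subgroup G, H.Normal → Nat.card H ≠ p)
    {N : Subgroup G} (hN : N.Normal) (hNp : ¬ p ∣ Nat.card N) {x : G} (hx : orderOf x = p) :
    ∀ m ∈ N, m * x = x * m := by
  have h5 := h.h5
  obtain ⟨n, ρ, hρ, hρχ⟩ := χ.2
  have hn : n = p - 2 := by
    have h1 : ((n : ℕ) : ℂ) = charDegree (χ : G → ℂ) := by
      rw [H82.Deg.coe_charDegree', ← hρχ, Representation.char_one, Module.finrank_fin_fun]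
    rw [h.hdeg] at h1
    exact_mod_cast h1
  have hρf : ∀ g, ρ g = 1 → g = 1 := by
    intro g hg
    apply h.hf
    rw [← hρχ, Representation.character, Representation.character, hg, map_one ρ]
  obtain ⟨k, i1, i2, i3, τ, hτ⟩ := H67.Mod.faithful_mod h.hp2 hnn ρ hρf
  have := hN
  exact H67.Mod.centralizes_of_small τ hτ (by rw [Module.finrank_fin_fun, hn]; omega) N
    ((hp.out.coprime_iff_not_dvd).2 hNp).symm hx

theorem Sq.perfect (h : Sq D χ) (hnn : ∀ H : Subgroup G, H.Normal → Nat.card H ≠ p) :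
    D.σ ∈ ⁅Subgroup.normalClosure {D.σ}, Subgroup.normalClosure {D.σ}⁆ := by
  set H := Subgroup.normalClosure {D.σ} with hH
  by_contra hcon
  have hHn : H.Normal := Subgroup.normalClosure_normal
  have hKn : (⁅H, H⁆).Normal := inferInstance
  have hKp : ¬ p ∣ Nat.card (⁅H, H⁆ : Subgroup G) := fun hd => hcon (mem_of_dvd h.hp2 D.hσ hKn hd)
  have hσH : D.σ ∈ H := Subgroup.subset_normalClosure (Set.mem_singleton _)
  have key : ∀ g : G, g * D.σ * g⁻¹ ∈ Subgroup.zpowers D.σ := by
    intro g
    set s := g * D.σ * g⁻¹ with hs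
    have hso : orderOf s = p := by rw [hs, orderOf_conj', D.hσ]
    have hsH : s ∈ H := hHn.conj_mem _ hσH g
    set c := ⁅D.σ, s⁆ with hc
    have hcK : c ∈ ⁅H, H⁆ := Subgroup.commutator_mem_commutator hσH hsH
    have h1 : c * s = s * c := h.centralizes hnn hKn hKp hso c hcK
    have h2 : D.σ * s * D.σ⁻¹ = c * s := by rw [hc, commutatorElement_def]; group
    have h3 : (c * s) ^ p = 1 := by
      rw [← h2]
      exact orderOf_dvd_iff_pow_eq_one.1 (by rw [orderOf_conj', hso])
    have hsp : s ^ p = 1 := orderOf_dvd_iff_pow_eq_one.1 (by rw [hso])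
    rw [(show Commute c s from h1).mul_pow, hsp, mul_one] at h3
    have h4 : orderOf c ∣ p := orderOf_dvd_of_pow_eq_one h3
    have h6 : c = 1 := by
      rcases (Nat.dvd_prime hp.out).1 h4 with h5 | h5
      · exact orderOf_eq_one_iff.1 h5
      · exfalso
        apply hKp
        rw [← h5]
        have := orderOf_dvd_natCard (⟨c, hcK⟩ : (⁅H, H⁆ : Subgroup G))
        rwa [← Subgroup.orderOf_coe] at this
    apply mem_of_comm_of_order D hso
    rw [hc, commutatorElement_eq_one_iff_mul_comm] at h6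
    exact h6.symm
  have hn : (Subgroup.zpowers D.σ).Normal := by
    refine ⟨fun x hx g => ?_⟩
    obtain ⟨k, rfl⟩ := Subgroup.mem_zpowers_iff.1 hx
    rw [← conj_zpow]
    exact Subgroup.zpow_mem _ (key g) k
  exact hnn _ hn (by rw [Nat.card_zpowers, D.hσ])

/-- Burnside: in a perfect group the Sylow subgroup is not in the centre of its normaliser -/
theorem exists_not_comm {H : Type*} [Group H] [Finite H] (hperf : commutator H = ⊤) {σ : H}
    (hσ : orderOf σ = p) (hp2 : ¬ p ^ 2 ∣ Nat.card H) :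
    ∃ h : H, h * σ * h⁻¹ ∈ Subgroup.zpowers σ ∧ h * σ ≠ σ * h := by
  by_contra hcon
  push Not at hcon
  have hpG : IsPGroup p (Subgroup.zpowers σ) := by
    apply IsPGroup.of_card (n := 1)
    rw [Nat.card_zpowers, hσ, pow_one]
  obtain ⟨P, hP⟩ := hpG.exists_le_sylow
  have hcP : Nat.card P = p := by
    obtain ⟨k, hk⟩ := IsPGroup.iff_card.1 P.2
    have h1 : p ∣ Nat.card P := by
      have := Subgroup.card_dvd_of_le hP
      rwa [Nat.card_zpowers, hσ] at this
    have h2 : k < 2 := by
      by_contra hk2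
      apply hp2
      refine (pow_dvd_pow p (by omega : 2 ≤ k)).trans ?_
      rw [← hk]
      exact Subgroup.card_subgroup_dvd_card _
    have h3 : k ≠ 0 := by
      rintro rfl
      rw [pow_zero] at hk
      rw [hk] at h1
      exact hp.out.one_lt.ne' (Nat.dvd_one.1 h1)
    have h4 : k = 1 := by omega
    rw [hk, h4, pow_one]
  have hPz : (P : Subgroup H) = Subgroup.zpowers σ := by
    symm
    apply Subgroup.eq_of_le_of_card_ge hP
    rw [Nat.card_zpowers, hσ]
    exact hcP.le
  have hNC : Subgroup.normalizer (P : Set H) ≤ Subgroup.centralizer (P : Set H) := by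
    intro h hh
    have e : (P : Set H) = (Subgroup.zpowers σ : Set H) :=
      congrArg (fun H' : Subgroup H => (H' : Set H)) hPz
    rw [e] at hh ⊢
    have h1 : h * σ = σ * h := hcon h ((Subgroup.mem_normalizer_iff.1 hh σ).1 (Subgroup.mem_zpowers σ))
    rw [Subgroup.mem_centralizer_iff]
    intro x hx
    obtain ⟨k, rfl⟩ := Subgroup.mem_zpowers_iff.1 hx
    exact ((show Commute h σ from h1).zpow_right k).eq.symm
  have hcomp := MonoidHom.ker_transferSylow_isComplement' P hNC
  have hker : (MonoidHom.transferSylow P hNC).ker = ⊤ := by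
    rw [eq_top_iff, ← hperf]
    rw [commutator_def, Subgroup.commutator_le]
    intro a _ b _
    rw [MonoidHom.mem_ker, map_commutatorElement, commutatorElement_eq_one_iff_mul_comm]
    have hcyc : IsCyclic P := isCyclic_of_prime_card hcP
    exact hcyc.isMulCommutative.is_comm.comm _ _
  rw [hker] at hcomp
  have h1 := hcomp.card_mul_card
  rw [Subgroup.card_top] at h1
  have h2 : Nat.card P = 1 := Nat.eq_of_mul_eq_mul_left (Nat.card_pos (α := H)) (by rw [mul_one]; exact h1)
  rw [hcP] at h2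
  exact hp.out.one_lt.ne' h2

end main

end H21.FD
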