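import Cfsg.Agent.Lib.H21.FD10

/-!
Groups with a faithful irreducible character of degree `p - 2`: the main theorem.
-/

set_option autoImplicit false
set_option linter.unusedSectionVars false

namespace H21.FD

open Finset Cfsg H18.CharBasic H18.CharOrtho H18.CharInd H67.Lat H67.DefOne H77.Cong
open scoped ComplexConjugate MatrixGroups commutatorElement

section cnj

variable {p : ℕ} [hp : Fact p.Prime] {G : Type*} [Group G] [Fintype G]

theorem mem_normalizer_of_conj {σ n : G} (h : n * σ * n⁻¹ ∈ Subgroup.zpowers σ) :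
    n ∈ Subgroup.normalizer (Subgroup.zpowers σ : Set G) := by
  have h1 : (Subgroup.zpowers σ).map (MulAut.conj n).toMonoidHom = Subgroup.zpowers σ := by
    apply Subgroup.eq_of_le_of_card_ge
    · rw [MonoidHom.map_zpowers]
      exact Subgroup.zpowers_le.2 h
    · rw [Subgroup.card_map_of_injective (MulAut.conj n).injective]
  rw [Subgroup.mem_normalizer_iff]
  intro x
  constructor
  · intro hx
    rw [← SetLike.mem_coe, ← h1] 
    exact ⟨x, hx, rfl⟩
  · intro hx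
    rw [← h1] at hx
    obtain ⟨y, hy, hyx⟩ := hx
    have h2 : y = x := (MulAut.conj n).injective hyx
    rwa [← h2]

theorem conj_cases (D : Dat p G) (hE : Nat.card (KK D).range = 2) {n : G}
    (h : n * D.σ * n⁻¹ ∈ Subgroup.zpowers D.σ) : n * D.σ * n⁻¹ = D.σ ∨ n * D.σ * n⁻¹ = D.σ⁻¹ := by
  obtain ⟨x, hx, y, hy, rfl⟩ := D.hsup n (mem_normalizer_of_conj h)
  have hone : (1 : ZMod p).val = 1 := ZMod.val_one p
  have h1 := KK_conj D ⟨x, hx⟩ 1
  rw [mul_one, hone, pow_one] at h1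
  change x * D.σ * x⁻¹ = _ at h1
  have hyc : y * D.σ * y⁻¹ = D.σ := by
    obtain ⟨k, rfl⟩ := Subgroup.mem_zpowers_iff.1 hy
    have h2 : D.σ ^ k * D.σ = D.σ * D.σ ^ k := ((Commute.refl D.σ).zpow_left k).eq
    rw [h2, mul_inv_cancel_right]
  have h2 : x * y * D.σ * (x * y)⁻¹ = x * D.σ * x⁻¹ := by
    calc x * y * D.σ * (x * y)⁻¹ = x * (y * D.σ * y⁻¹) * x⁻¹ := by group
      _ = _ := by rw [hyc]
  rw [h2, h1]
  have h3 := (mem_of_card_two hE (KK D ⟨x, hx⟩)).1 ⟨_, rfl⟩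
  rcases h3 with h3 | h3
  · left; rw [h3, Units.val_one, hone, pow_one]
  · right
    rw [h3, Units.val_neg, Units.val_one]
    apply eq_inv_of_mul_eq_one_left
    rw [← pow_succ, ← orderOf_dvd_iff_pow_eq_one, D.hσ, ← ZMod.natCast_eq_zero_iff]
    push_cast
    rw [ZMod.natCast_zmod_val, neg_add_cancel]

end cnj

theorem gen_main {G : Type*} [Group G] [Finite G] (p : ℕ) [hp : Fact p.Prime] (h5 : 5 < p)
    (P : Sylow p G) (hP : Nat.card P = p) (hnn : ¬ (P : Subgroup G).Normal) (ζ : G → ℂ)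
    (hζ : IsIrrCharacter G ζ) (hfaith : ∀ g : G, ζ g = ζ 1 → g = 1) (hdeg : charDegree ζ = p - 2) :
    ∃ (a : ℕ) (F : Type) (_ : Field F) (_ : Fintype F), p = 2 ^ a + 1 ∧ Fintype.card F = 2 ^ a ∧
      Nonempty (G ≃* Matrix.SpecialLinearGroup (Fin 2) F × Subgroup.center G) := by
  classical
  let _ : Fintype G := Fintype.ofFinite G
  obtain ⟨σ, hσP, hσ⟩ := H21.CommAct.exists_orderOf_eq_of_sylow P hP
  have hPz : Subgroup.zpowers σ = (P : Subgroup G) := by
    apply Subgroup.eq_of_le_of_card_ge (Subgroup.zpowers_le.2 hσP)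
    rw [hP, Nat.card_zpowers, hσ]
  have hp2 : ¬ p ^ 2 ∣ Nat.card G := by
    intro hd
    rw [← (P : Subgroup G).card_mul_index, hP, pow_two] at hd
    exact P.not_dvd_index (Nat.dvd_of_mul_dvd_mul_left hp.out.pos hd)
  obtain ⟨D, rfl⟩ := exists_dat hp.out hp2 hσ
  let _ : Fintype D.W := Fintype.ofFinite _
  have hnn' : ∀ H : Subgroup G, H.Normal → Nat.card H ≠ p := by
    intro H hHn hH
    apply hnn
    have h1 := mem_of_dvd hp2 D.hσ hHn (dvd_of_eq hH.symm)
    have h2 : Subgroup.zpowers D.σ = H := by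
      apply Subgroup.eq_of_le_of_card_ge (Subgroup.zpowers_le.2 h1)
      rw [hH, Nat.card_zpowers, D.hσ]
    rw [← hPz, h2]
    exact hHn
  have hσc : D.σ ∉ Subgroup.center G := by
    intro hc
    apply hnn
    rw [← hPz]
    refine ⟨fun x hx g => ?_⟩
    have hx' := (Subgroup.zpowers_le.2 hc) hx
    rw [(Subgroup.mem_center_iff.1 hx') g, mul_inv_cancel_right]
    exact hx
  let χ : IrrCharacter G := ⟨ζ, hζ⟩
  have hq : Sq D χ := { h5 := h5, hp2 := hp2, hf := hfaith, hdeg := hdeg, hσ := hσc }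
  obtain ⟨hE, -⟩ := hq.small
  have hWle := hq.W_le
  set H := Subgroup.normalClosure {D.σ} with hH
  have hHn : H.Normal := Subgroup.normalClosure_normal
  have hσH : D.σ ∈ H := Subgroup.subset_normalClosure (Set.mem_singleton _)
  have hzH : Subgroup.zpowers D.σ ≤ H := Subgroup.zpowers_le.2 hσH
  have hperf : commutator H = ⊤ := by
    have h1 : H ≤ ⁅H, H⁆ := by
      have : (⁅H, H⁆).Normal := inferInstance
      exact Subgroup.normalClosure_le_normal (Set.singleton_subset_iff.2 (hq.perfect hnn'))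
    rw [eq_top_iff]
    intro x _
    have h2 := h1 x.2
    rw [← Subgroup.map_subtype_commutator] at h2
    obtain ⟨y, hy, hyx⟩ := h2
    have h3 : y = x := Subtype.ext hyx
    rwa [← h3]
  let σH : H := ⟨D.σ, hσH⟩
  have hσHo : orderOf σH = p := by rw [← Subgroup.orderOf_coe]; exact D.hσ
  have hp2H : ¬ p ^ 2 ∣ Nat.card H := fun hd => hp2 (hd.trans (Subgroup.card_subgroup_dvd_card H))
  obtain ⟨t, ht1, ht2⟩ := exists_not_comm hperf hσHo hp2H
  have hcoe : ∀ {x : H}, x ∈ Subgroup.zpowers σH → (x : G) ∈ Subgroup.zpowers D.σ := by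
    intro x hx
    obtain ⟨k, rfl⟩ := Subgroup.mem_zpowers_iff.1 hx
    exact Subgroup.mem_zpowers_iff.2 ⟨k, rfl⟩
  have ht3 : (t : G) * D.σ * (t : G)⁻¹ = D.σ⁻¹ := by
    rcases conj_cases D hE (n := (t : G)) (hcoe ht1) with h1 | h1
    · exfalso
      apply ht2
      apply Subtype.ext
      exact mul_inv_eq_iff_eq_mul.1 h1
    · exact h1
  have hHZ : ∀ g : G, ∃ h ∈ H, ∃ z ∈ Subgroup.center G, g = h * z := by
    intro g
    have h1 : g * D.σ * g⁻¹ ∈ H := hHn.conj_mem _ hσH g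
    obtain ⟨c, hc⟩ := H67.Mod.conj_of_order hp2H (s := (⟨_, h1⟩ : H)) (t := σH) (by
      rw [← Subgroup.orderOf_coe]
      exact (orderOf_conj' g D.σ).trans D.hσ) hσHo
    have hc' : ((c : G) * g) * D.σ * ((c : G) * g)⁻¹ ∈ Subgroup.zpowers D.σ := by
      have h2 := hcoe hc
      have h3 : ((c : G) * g) * D.σ * ((c : G) * g)⁻¹ = (c : G) * (g * D.σ * g⁻¹) * (c : G)⁻¹ := by group
      rw [h3]
      exact h2
    have key : ∀ n : G, n * D.σ * n⁻¹ = D.σ → ∃ y ∈ H, ∃ z ∈ Subgroup.center G, n = y * z := by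
      intro n hn
      obtain ⟨u, hu, y, hy, huy⟩ := D.cent (mul_inv_eq_iff_eq_mul.1 hn)
      refine ⟨y, hzH hy, u, hWle hu, ?_⟩
      rw [huy]
      exact ((Subgroup.mem_center_iff.1 (hWle hu)) y).symm
    rcases conj_cases D hE hc' with h2 | h2
    · obtain ⟨y, hy, z, hz, hyz⟩ := key _ h2
      refine ⟨(c : G)⁻¹ * y, H.mul_mem (H.inv_mem c.2) hy, z, hz, ?_⟩
      rw [mul_assoc, ← hyz, inv_mul_cancel_left]
    · have h3 : ((t : G)⁻¹ * ((c : G) * g)) * D.σ * ((t : G)⁻¹ * ((c : G) * g))⁻¹ = D.σ := by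
        calc ((t : G)⁻¹ * ((c : G) * g)) * D.σ * ((t : G)⁻¹ * ((c : G) * g))⁻¹ =
            (t : G)⁻¹ * (((c : G) * g) * D.σ * ((c : G) * g)⁻¹) * t := by group
          _ = (t : G)⁻¹ * D.σ⁻¹ * t := by rw [h2]
          _ = (t : G)⁻¹ * ((t : G) * D.σ * (t : G)⁻¹) * t := by rw [ht3]
          _ = D.σ := by group
      obtain ⟨y, hy, z, hz, hyz⟩ := key _ h3
      refine ⟨(c : G)⁻¹ * ((t : G) * y), H.mul_mem (H.inv_mem c.2) (H.mul_mem t.2 hy), z, hz, ?_⟩
      rw [mul_assoc, mul_assoc, ← hyz, mul_inv_cancel_left, inv_mul_cancel_left]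
  let χH : IrrCharacter H := ⟨fun h => ζ h, isIrr_restrict_central hHZ hζ⟩
  let _ : Fintype H := Fintype.ofFinite _
  obtain ⟨DH, hDH⟩ := exists_dat hp.out hp2H hσHo
  let _ : Fintype DH.W := Fintype.ofFinite _
  have hsu : Su DH χH :=
    { h5 := h5
      hp2 := hp2H
      hf := fun g hg => Subtype.ext (hfaith g hg)
      hdeg := by
        have h1 := H82.Deg.coe_charDegree' χH
        have h2 := H82.Deg.coe_charDegree' χ
        have h3 : (charDegree (χH : H → ℂ) : ℂ) = (charDegree (χ : G → ℂ) : ℂ) := by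
          rw [h1, h2]
          rfl
        have h4 : charDegree (χH : H → ℂ) = charDegree (χ : G → ℂ) := by exact_mod_cast h3
        rw [h4]
        exact hdeg
      hσ := by
        intro hc
        rw [hDH] at hc
        exact ht2 ((Subgroup.mem_center_iff.1 hc) t)
      hperf := hperf }
  obtain ⟨θ, b0, m, hsd⟩ := hsu.exists_Sd
  obtain ⟨hcen, a, F, i1, i2, h1, h2, ⟨e⟩⟩ := hsd.perf_main
  obtain ⟨f⟩ := exists_prod hHZ hcen
  exact ⟨a, F, i1, i2, h1, h2, ⟨f.trans (MulEquiv.prodCongr e (MulEquiv.refl _))⟩⟩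

end H21.FD
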