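import Cfsg.Agent.Lib.H21.FD1
import Cfsg.Agent.Lib.H82.Deg

/-!
Irreducible characters of degree less than `p - 1` of a group with a Sylow subgroup of prime
order `p`: the restriction to the centralizer of the Sylow subgroup.
-/

set_option autoImplicit false
set_option linter.unusedSectionVars false

namespace H21.FD

open Finset Cfsg H18.CharBasic H18.CharOrtho H18.CharInd H67.Lat H67.DefOne H77.Cong
open scoped ComplexConjugate

variable {p : ℕ} [hp : Fact p.Prime] {G : Type*} [Group G] [Fintype G] (D : Dat p G) [Fintype D.W]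

theorem isClassFunction_slice {χ : G → ℂ} (hχ : IsClassFunction G χ) (i : ZMod p) :
    IsClassFunction D.W (fun w : D.W => χ (D.σ ^ i.val * w)) := by
  intro x y
  have h1 : D.σ ^ i.val * ((y * x * y⁻¹ : D.W) : G) = y * (D.σ ^ i.val * x) * (y : G)⁻¹ := by
    push_cast
    calc _ = (D.σ ^ i.val * y) * x * (y : G)⁻¹ := by group
      _ = (y * D.σ ^ i.val) * x * (y : G)⁻¹ := by rw [(comm_pow D i y).eq]
      _ = _ := by group
  change χ (D.σ ^ i.val * ((y * x * y⁻¹ : D.W) : G)) = χ (D.σ ^ i.val * x)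
  rw [h1]
  exact hχ _ _

theorem FF_eq_inner (χ : G → ℂ) (θ : D.W → ℂ) (i : ZMod p) :
    FF D.W χ θ (D.σ ^ i.val) = classInner (fun w : D.W => χ (D.σ ^ i.val * w)) θ := rfl

/-- the values on the centralizer of the Sylow subgroup -/
theorem val_expand [Fintype (IrrCharacter D.W)] {χ : G → ℂ} (hχ : IsClassFunction G χ) (i : ZMod p)
    (w : D.W) : χ (D.σ ^ i.val * w) =
      ∑ θ : IrrCharacter D.W, FF D.W χ θ (D.σ ^ i.val) * (θ : D.W → ℂ) w := by
  have h1 := congrFun (mem_classFun_expand (isClassFunction_slice D hχ i)) w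
  rw [Finset.sum_apply] at h1
  exact h1

theorem degree_expand [Fintype (IrrCharacter D.W)] {χ : G → ℂ} (hχ : IsClassFunction G χ) :
    χ 1 = ∑ θ : IrrCharacter D.W, (∑ b : ZMod p, mu D χ θ b) * (θ : D.W → ℂ) 1 := by
  have h1 := val_expand D hχ 0 1
  rw [ZMod.val_zero, pow_zero, one_mul] at h1
  rw [show ((1 : D.W) : G) = 1 from rfl] at h1
  rw [h1]
  refine Finset.sum_congr rfl fun θ _ => ?_
  rw [FF_zero_eq, ZMod.val_zero, pow_zero]

open Classical in
theorem mu_cases (hp2 : ¬ p ^ 2 ∣ Nat.card G) (χ : IrrCharacter G) {θ : D.W → ℂ}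
    (hθ : IsIrrCharacter D.W θ) :
    (∃ c : ℤ, (c = 0 ∨ c = 1 ∨ c = -1) ∧ ∀ b : (ZMod p)ˣ, mu D χ θ 0 - mu D χ θ b = c) ∨
    (∃ (s : ℤ) (q : (ZMod p)ˣ ⧸ HH D θ), (s = 1 ∨ s = -1) ∧
      ∀ b : (ZMod p)ˣ, mu D χ θ 0 - mu D χ θ b = if (QuotientGroup.mk b) = q then (s : ℂ) else 0) := by
  let _ : Fintype (IrrCharacter G) := Fintype.ofFinite _
  have hp0 : (p : ℂ) ≠ 0 := by exact_mod_cast hp.out.ne_zero
  obtain ⟨s, y, c, hs, hy, hc, hcy, hval, hval', -, -⟩ := defect_one D hp2 hθ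
  have hdiff : ∀ b : ZMod p, mu D χ θ 0 - mu D χ θ b =
      (p : ℂ)⁻¹ * ∑ i ∈ univ.erase (0 : ZMod p), FF D.W χ θ (D.σ ^ i.val) * (1 - conj (ee (b * i))) := by
    intro b
    rw [mu, mu, ← mul_sub, ← Finset.sum_sub_distrib]
    congr 1
    rw [← Finset.sum_erase (a := (0 : ZMod p)) univ]
    · refine Finset.sum_congr rfl fun i _ => ?_
      rw [zero_mul, ee_zero, map_one]
      ring
    · rw [mul_zero, mul_zero, sub_self]
  have hsum1 : ∀ b : ZMod p, ∑ i ∈ univ.erase (0 : ZMod p), ee (b * i) =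
      (if b = 0 then (p : ℂ) else 0) - 1 := by
    intro b
    rw [Finset.sum_erase_eq_sub (mem_univ _), sum_ee, mul_zero, ee_zero]
  have hcee : ∀ x : ZMod p, conj (ee x) = ee (-x) := fun x => (ee_neg x).symm
  by_cases h : ∃ q, χ = y q
  · obtain ⟨q, rfl⟩ := h
    right
    refine ⟨s, q, hs, fun b => ?_⟩
    rw [hdiff]
    have h1 : ∀ i ∈ univ.erase (0 : ZMod p), FF D.W (y q) θ (D.σ ^ i.val) *
        (1 - conj (ee ((b : ZMod p) * i))) =
        -(s : ℂ) * ∑ b' ∈ (univ : Finset (ZMod p)ˣ).filter (fun b => QuotientGroup.mk b = q),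
          (ee ((b' : ZMod p) * i) - ee (((b' : ZMod p) - (b : ZMod p)) * i)) := by
      intro i hi
      rw [hval q i (Finset.ne_of_mem_erase hi), mul_assoc, Finset.sum_mul]
      congr 1
      refine Finset.sum_congr rfl fun b' _ => ?_
      rw [hcee, mul_sub, mul_one, ← ee_add]
      congr 3
      ring
    rw [Finset.sum_congr rfl h1, ← Finset.mul_sum, Finset.sum_comm]
    have h2 : ∀ b' ∈ (univ : Finset (ZMod p)ˣ).filter (fun b => QuotientGroup.mk b = q),
        ∑ i ∈ univ.erase (0 : ZMod p), (ee ((b' : ZMod p) * i) - ee (((b' : ZMod p) - (b : ZMod p)) * i)) =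
        if b' = b then -(p : ℂ) else 0 := by
      intro b' _
      rw [Finset.sum_sub_distrib, hsum1, hsum1, if_neg b'.ne_zero]
      by_cases hb : b' = b
      · rw [if_pos hb, if_pos (by rw [hb, sub_self])]; ring
      · rw [if_neg hb, if_neg (fun h => hb (Units.ext (sub_eq_zero.1 h)))]; ring
    rw [Finset.sum_congr rfl h2, Finset.sum_ite_eq' ]
    simp only [mem_filter, mem_univ, true_and]
    split_ifs with hb
    · field_simp
    · ring
  · push Not at h
    left
    refine ⟨c χ, hc χ, fun b => ?_⟩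
    rw [hdiff]
    have h1 : ∀ i ∈ univ.erase (0 : ZMod p), FF D.W χ θ (D.σ ^ i.val) *
        (1 - conj (ee ((b : ZMod p) * i))) = (c χ : ℂ) * (1 - ee ((-(b : ZMod p)) * i)) := by
      intro i hi
      rw [hval' χ h i (Finset.ne_of_mem_erase hi), hcee, neg_mul]
    rw [Finset.sum_congr rfl h1, ← Finset.mul_sum, Finset.sum_sub_distrib, hsum1,
      if_neg (neg_ne_zero.2 b.ne_zero), Finset.sum_const, Finset.card_erase_of_mem (mem_univ _),
      Finset.card_univ, ZMod.card, nsmul_eq_mul, mul_one, Nat.cast_sub hp.out.one_le]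
    push_cast
    field_simp
    ring

/-- conjugation and multiplicities -/
theorem mu_cjW {χ : G → ℂ} (hχ : IsClassFunction G χ) (θ : D.W → ℂ) (n : D.N₀) (b : ZMod p) :
    mu D χ (cjW D n θ) b = mu D χ θ (b * ((KK D n)⁻¹ : (ZMod p)ˣ)) := by
  have h1 : ∀ i : ZMod p, FF D.W χ (cjW D n θ) (D.σ ^ i.val) =
      FF D.W χ θ (D.σ ^ ((KK D n : ZMod p) * i).val) := by
    intro i
    rw [FF, FF]
    congr 1
    refine Fintype.sum_equiv (cAut D n).toEquiv _ _ (fun w => ?_)
    have e1 : (cAut D n).toEquiv w = ⟨n * w * (n : G)⁻¹, conj_mem_W D n w⟩ := rfl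
    rw [e1, cjW_apply]
    congr 1
    change χ (D.σ ^ i.val * w) = χ (D.σ ^ ((KK D n : ZMod p) * i).val * (n * w * (n : G)⁻¹))
    rw [← KK_conj, ← hχ (D.σ ^ i.val * w) n]
    congr 1
    group
  rw [mu, mu]
  congr 1
  refine Fintype.sum_equiv (Units.mulLeft (KK D n)) _ _ (fun i => ?_)
  rw [h1, Units.mulLeft_apply]
  congr 3
  have : ((((KK D n)⁻¹ : (ZMod p)ˣ) : ZMod p)) * ((KK D n : ZMod p) * i) = i := by
    rw [← mul_assoc, Units.inv_mul, one_mul]
  rw [mul_assoc, this]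

end H21.FD
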