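import Cfsg.Agent.Lib.H21.FD2

/-!
Irreducible characters of degree less than `p - 1` of a group with a Sylow subgroup of prime
order `p`.
-/

set_option autoImplicit false
set_option linter.unusedSectionVars false

namespace H21.FD

open Finset Cfsg H18.CharBasic H18.CharOrtho H18.CharInd H67.Lat H67.DefOne H77.Cong
open scoped ComplexConjugate

variable {p : ℕ} [hp : Fact p.Prime] {G : Type*} [Group G] [Fintype G] (D : Dat p G) [Fintype D.W]

theorem HH_le_range (θ : D.W → ℂ) : HH D θ ≤ (KK D).range := by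
  rintro _ ⟨n, -, rfl⟩
  exact ⟨n, rfl⟩

theorem card_N₀ : Nat.card D.N₀ = Nat.card (KK D).range * Nat.card D.W := by
  rw [Subgroup.card_eq_card_quotient_mul_card_subgroup (KK D).ker,
    Nat.card_congr (QuotientGroup.quotientKerEquivRange (KK D)).toEquiv, KK_ker,
    Nat.card_congr (Subgroup.subgroupOfEquivOfLe D.W_le).toEquiv]

theorem card_range_dvd : Nat.card (KK D).range ∣ p - 1 := by
  have h1 := Subgroup.card_subgroup_dvd_card (KK D).range
  rwa [Nat.card_eq_fintype_card (α := (ZMod p)ˣ), ZMod.card_units p] at h1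

/-- the fibres of the orbit map -/
theorem card_orbit_fiber (θ : D.W → ℂ) (n0 : D.N₀) :
    Nat.card {n : D.N₀ // cjW D n θ = cjW D n0 θ} = Nat.card (T₀ D θ) := by
  symm
  refine Nat.card_congr (Equiv.ofBijective
    (fun t : T₀ D θ => (⟨(t : D.N₀) * n0, by rw [cjW_mul, (mem_T₀ D).1 t.2]⟩ :
      {n : D.N₀ // cjW D n θ = cjW D n0 θ})) ⟨?_, ?_⟩)
  · intro t t' h
    have h1 := congrArg Subtype.val h
    exact Subtype.ext (mul_right_cancel h1)
  · intro n
    refine ⟨⟨(n : D.N₀) * n0⁻¹, by rw [mem_T₀, cjW_mul, n.2, ← cjW_mul, mul_inv_cancel, cjW_one]⟩, ?_⟩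
    apply Subtype.ext
    change (n : D.N₀) * n0⁻¹ * n0 = n
    rw [inv_mul_cancel_right]

theorem num_small {p n e E d m : ℕ} (hE1 : E ∣ p - 1) (heE : e ∣ E) (he0 : 0 < e) (hd : 0 < d)
    (hp : 1 < p) (hn : n + 1 < p) (s : ℤ) (hs : s = 1 ∨ s = -1) (f : ℕ)
    (hf : (f : ℤ) = p * m - s * e) (hm : s = 1 → 1 ≤ m) (hne : s = 1 → e = p - 1 → 2 ≤ m)
    (heq : e * n = E * f * d) :
    (s = 1 ∧ E = e ∧ d = 1 ∧ m = 1 ∧ n + E = p ∧ 2 * E ≤ p - 1) ∨
    (s = -1 ∧ m = 0 ∧ n = E * d) := by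
  obtain ⟨k, rfl⟩ := heE
  have hE0 : 0 < e * k := by
    rcases Nat.eq_zero_or_pos (e * k) with h | h
    · rw [h] at hE1
      have := Nat.eq_zero_of_zero_dvd hE1
      omega
    · exact h
  have hk0 : 0 < k := Nat.pos_of_mul_pos_left hE0 |> fun h => by
    rcases Nat.eq_zero_or_pos k with h1 | h1
    · rw [h1, mul_zero] at hE0; omega
    · exact h1
  have heq' : n = k * f * d := by
    apply Nat.eq_of_mul_eq_mul_left he0
    rw [heq]; ring
  have hkd : 1 ≤ k * d := Nat.mul_pos hk0 hd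
  have hnf : n = k * d * f := by rw [heq']; ring
  have hfn : f ≤ n := by
    rw [hnf]
    exact Nat.le_mul_of_pos_left f hkd
  rcases hs with rfl | rfl
  · left
    have hm1 := hm rfl
    have he : e ≤ p - 1 := Nat.le_of_dvd (by omega) ((Dvd.intro k rfl).trans hE1)
    have he2 : 2 * e ≤ p - 1 := by
      obtain ⟨l, hl⟩ := (Dvd.intro k rfl : e ∣ e * k).trans hE1
      have hl1 : l ≠ 1 := by
        rintro rfl
        have hm2 := hne rfl (by omega)
        have : (f : ℤ) = p * m - 1 * e := hf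
        have h1 : (p : ℤ) * 2 ≤ p * m := by
          apply mul_le_mul_of_nonneg_left _ (by positivity)
          exact_mod_cast hm2
        omega
      have hl0 : l ≠ 0 := by
        rintro rfl
        rw [mul_zero] at hl; omega
      have : 2 ≤ l := by omega
      calc 2 * e = e * 2 := by ring
        _ ≤ e * l := Nat.mul_le_mul_left _ this
        _ = p - 1 := hl.symm
    have hfe : (f : ℤ) = p * m - e := by rw [hf]; ring
    have hm' : m = 1 := by
      by_contra hcon
      have hm2 : 2 ≤ m := by omega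
      have h1 : (p : ℤ) * 2 ≤ p * m := by
        apply mul_le_mul_of_nonneg_left _ (by positivity)
        exact_mod_cast hm2
      omega
    rw [hm'] at hfe
    have hfe' : f + e = p := by push_cast at hfe; omega
    have hkd1 : k * d = 1 := by
      by_contra hcon
      have h2 : 2 ≤ k * d := by omega
      have h3 : 2 * f ≤ n := by rw [hnf]; exact Nat.mul_le_mul_right _ h2
      omega
    have hk1 : k = 1 := Nat.eq_one_of_mul_eq_one_right hkd1
    have hd1 : d = 1 := Nat.eq_one_of_mul_eq_one_left hkd1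
    rw [hkd1, one_mul] at hnf
    refine ⟨rfl, by rw [hk1, mul_one], hd1, hm', ?_, ?_⟩
    · rw [hk1, mul_one, hnf]; exact hfe'
    · rw [hk1, mul_one]; exact he2
  · right
    have hfe : (f : ℤ) = p * m + e := by rw [hf]; ring
    have hm' : m = 0 := by
      by_contra hcon
      have hm2 : 1 ≤ m := by omega
      have h1 : (p : ℤ) * 1 ≤ p * m := by
        apply mul_le_mul_of_nonneg_left _ (by positivity)
        exact_mod_cast hm2
      omega
    rw [hm'] at hfe
    have hfe' : f = e := by push_cast at hfe; omega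
    refine ⟨rfl, hm', ?_⟩
    rw [hnf, hfe']
    ring

open Classical in
/-- irreducible characters of degree less than `p - 1` -/
theorem small_degree (hp2 : ¬ p ^ 2 ∣ Nat.card G) (χ : IrrCharacter G)
    (hn : charDegree (χ : G → ℂ) + 1 < p) (hσ : (χ : G → ℂ) D.σ ≠ (χ : G → ℂ) 1) :
    (charDegree (χ : G → ℂ) + Nat.card (KK D).range = p ∧ 2 * Nat.card (KK D).range ≤ p - 1 ∧
      ∃ (θ : IrrCharacter D.W) (b0 : (ZMod p)ˣ), (θ : D.W → ℂ) 1 = 1 ∧
        ∀ (i : ZMod p) (w : D.W), (χ : G → ℂ) (D.σ ^ i.val * w) =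
          ((if i = 0 then (p : ℂ) else 0) -
            ∑ b ∈ (univ : Finset (ZMod p)ˣ).filter (fun b => b0⁻¹ * b ∈ (KK D).range),
              ee ((b : ZMod p) * i)) * (θ : D.W → ℂ) w) ∨
    (Nat.card (KK D).range ∣ charDegree (χ : G → ℂ) ∧
      (Nat.card (KK D).range = 1 → ‖(χ : G → ℂ) D.σ‖ = charDegree (χ : G → ℂ))) := by
  let _ : Fintype (IrrCharacter D.W) := Fintype.ofFinite _
  let _ : Fintype D.N₀ := Fintype.ofFinite _
  have hp1 := hp.out.one_lt
  have hcl := isClassFunction_of_isIrr χ.2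
  have hch := isCharacter_of_isIrr χ.2
  -- multiplicities as natural numbers
  have hM : ∀ (θ : IrrCharacter D.W) (b : ZMod p), ∃ k : ℕ, mu D χ θ b = k := fun θ b =>
    mu_nat D hch (isCharacter_of_isIrr θ.2) b
  choose M hM using hM
  set n := charDegree (χ : G → ℂ) with hndef
  have hn1 : (χ : G → ℂ) 1 = n := (H82.Deg.coe_charDegree' χ).symm
  let dg : IrrCharacter D.W → ℕ := fun θ => charDegree (θ : D.W → ℂ)
  have hdg : ∀ θ : IrrCharacter D.W, (θ : D.W → ℂ) 1 = dg θ := fun θ =>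
    (H82.Deg.coe_charDegree' θ).symm
  have hdg0 : ∀ θ, 0 < dg θ := fun θ => H82.Deg.charDegree_pos θ
  have hdeg : n = ∑ θ : IrrCharacter D.W, (∑ b : ZMod p, M θ b) * dg θ := by
    have h1 := degree_expand D hcl
    rw [hn1] at h1
    have h2 : (n : ℂ) = ((∑ θ : IrrCharacter D.W, (∑ b : ZMod p, M θ b) * dg θ : ℕ) : ℂ) := by
      rw [h1]
      push_cast
      refine Finset.sum_congr rfl fun θ _ => ?_
      rw [hdg]
      congr 1
      exact Finset.sum_congr rfl fun b _ => hM θ b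
    exact_mod_cast h2
  have hFF : ∀ (θ : IrrCharacter D.W) (i : ZMod p), FF D.W χ θ (D.σ ^ i.val) =
      ∑ b : ZMod p, (M θ b : ℂ) * ee (b * i) := by
    intro θ i
    rw [FF_eq]
    exact Finset.sum_congr rfl fun b _ => by rw [hM]
  have hle : ∀ θ : IrrCharacter D.W, ∑ b : ZMod p, M θ b ≤ n := by
    intro θ
    calc ∑ b : ZMod p, M θ b ≤ (∑ b : ZMod p, M θ b) * dg θ := Nat.le_mul_of_pos_right _ (hdg0 θ)
      _ ≤ ∑ θ : IrrCharacter D.W, (∑ b : ZMod p, M θ b) * dg θ :=
        Finset.single_le_sum (f := fun θ : IrrCharacter D.W => (∑ b : ZMod p, M θ b) * dg θ)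
          (fun _ _ => Nat.zero_le _) (mem_univ θ)
      _ = n := hdeg.symm
  -- sums over all characters of `P`
  have hsplit : ∀ θ : IrrCharacter D.W, ∑ b : ZMod p, M θ b = M θ 0 + ∑ b : (ZMod p)ˣ, M θ b := by
    intro θ
    have h1 := sum_units_eq (fun b : ZMod p => (M θ b : ℂ))
    have h2 : ((∑ b : ZMod p, M θ b : ℕ) : ℂ) = ((M θ 0 + ∑ b : (ZMod p)ˣ, M θ b : ℕ) : ℂ) := by
      push_cast
      rw [h1]; ring
    exact_mod_cast h2
  have hcu : (univ : Finset (ZMod p)ˣ).card = p - 1 := by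
    rw [Finset.card_univ, ZMod.card_units p]
  -- a character with a nontrivial constituent
  obtain ⟨θ0, b1, hb1⟩ : ∃ (θ : IrrCharacter D.W) (b : (ZMod p)ˣ), M θ b ≠ 0 := by
    by_contra hcon
    push Not at hcon
    apply hσ
    have h1 := val_expand D hcl (1 : ZMod p) 1
    have h2 := val_expand D hcl (0 : ZMod p) 1
    have e1 : D.σ ^ (1 : ZMod p).val = D.σ := by
      rw [ZMod.val_one_eq_one_mod, Nat.mod_eq_of_lt hp1, pow_one]
    have e2 : ((1 : D.W) : G) = 1 := rfl
    have h3 : ∀ (θ : IrrCharacter D.W) (i : ZMod p), FF D.W χ θ (D.σ ^ i.val) = M θ 0 := by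
      intro θ i
      rw [hFF]
      rw [Finset.sum_eq_single (0 : ZMod p)]
      · rw [zero_mul, ee_zero, mul_one]
      · intro b _ hb
        have := hcon θ (Units.mk0 b hb)
        rw [Units.val_mk0] at this
        rw [this]; push_cast; ring
      · intro h; exact absurd (mem_univ _) h
    simp only [h3] at h1 h2
    rw [e1, e2, mul_one] at h1
    rw [ZMod.val_zero, pow_zero, e2, mul_one] at h2
    rw [h1, h2]
  have hcast : ∀ (θ : IrrCharacter D.W) (b : ZMod p) (z : ℤ), mu D χ θ 0 - mu D χ θ b = (z : ℂ) →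
      (M θ 0 : ℤ) - M θ b = z := by
    intro θ b z h
    rw [hM, hM] at h
    exact_mod_cast h
  -- the non-exceptional case
  have hNE : ∀ θ : IrrCharacter D.W, (∃ c : ℤ, (c = 0 ∨ c = 1 ∨ c = -1) ∧
      ∀ b : (ZMod p)ˣ, mu D χ θ 0 - mu D χ θ b = c) → ∀ b : (ZMod p)ˣ, M θ b = 0 := by
    rintro θ ⟨c, -, hc⟩ b
    by_contra hb
    have h1 : ∀ b' : (ZMod p)ˣ, M θ b' = M θ b := by
      intro b'
      have h2 := hcast θ b' c (hc b')
      have h3 := hcast θ b c (hc b)
      omega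
    have h2 := hle θ
    rw [hsplit, Finset.sum_congr rfl (fun b' _ => h1 b'), Finset.sum_const, hcu, smul_eq_mul] at h2
    have h3 : (p - 1) * 1 ≤ (p - 1) * M θ b := Nat.mul_le_mul_left _ (by omega)
    omega
  obtain ⟨s, q, hs, hsq⟩ : ∃ (s : ℤ) (q : (ZMod p)ˣ ⧸ HH D (θ0 : D.W → ℂ)), (s = 1 ∨ s = -1) ∧
      ∀ b : (ZMod p)ˣ, mu D χ θ0 0 - mu D χ θ0 b =
        if (QuotientGroup.mk b) = q then (s : ℂ) else 0 := by
    rcases mu_cases D hp2 χ θ0.2 with h | h
    · exact absurd (hNE θ0 h b1) hb1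
    · exact h
  have hcq : ((univ : Finset (ZMod p)ˣ).filter
      (fun b : (ZMod p)ˣ => (QuotientGroup.mk b : (ZMod p)ˣ ⧸ HH D (θ0 : D.W → ℂ)) = q)).card =
      Nat.card (HH D (θ0 : D.W → ℂ)) := card_coset _ q
  have hsum_gen : ∀ (θ : IrrCharacter D.W) (s : ℤ) (q : (ZMod p)ˣ ⧸ HH D (θ : D.W → ℂ)),
      (∀ b : (ZMod p)ˣ, mu D χ θ 0 - mu D χ θ b = if (QuotientGroup.mk b) = q then (s : ℂ) else 0) →
      ((s * (Nat.card (HH D (θ : D.W → ℂ)) : ℤ) : ℤ) : ℂ) =
        ∑ b : (ZMod p)ˣ, (mu D χ θ 0 - mu D χ θ b) := by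
    intro θ s q hsq
    have hcq := card_coset (HH D (θ : D.W → ℂ)) q
    rw [Finset.sum_congr rfl (fun b _ => hsq b), ← Finset.sum_filter, Finset.sum_const, hcq,
      nsmul_eq_mul]
    push_cast
    ring
  have hpe : ∀ (θ : IrrCharacter D.W) (s : ℤ), (s = 1 ∨ s = -1) →
      ¬ (p : ℤ) ∣ s * (Nat.card (HH D (θ : D.W → ℂ)) : ℤ) := by
    intro θ s hs h
    have h1 : (p : ℤ) ∣ (Nat.card (HH D (θ : D.W → ℂ)) : ℤ) := by
      rcases hs with rfl | rfl
      · rwa [one_mul] at h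
      · rwa [neg_one_mul, dvd_neg] at h
    exact card_HH_not_dvd D (θ : D.W → ℂ) (Int.natCast_dvd_natCast.1 h1)
  have hN0 := hsum_gen θ0 s q hsq
  -- transport of multiplicities
  have htr : ∀ (m : D.N₀) (θ : IrrCharacter D.W), (θ : D.W → ℂ) = cjW D m (θ0 : D.W → ℂ) →
      ∀ b, M θ b = M θ0 (b * ((KK D m)⁻¹ : (ZMod p)ˣ)) := by
    intro m θ h b
    have h1 := mu_cjW D hcl (θ0 : D.W → ℂ) m b
    rw [← h, hM, hM] at h1
    exact_mod_cast h1
  -- all nonzero characters are conjugate to `θ0`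
  have hall : ∀ θ : IrrCharacter D.W, (∀ b, M θ b = 0) ∨
      ∃ m : D.N₀, (θ : D.W → ℂ) = cjW D m (θ0 : D.W → ℂ) := by
    intro θ
    rcases mu_cases D hp2 χ θ.2 with h | ⟨s', q', hs', hsq'⟩
    · obtain ⟨c, hc, hcb⟩ := h
      have hz := hNE θ ⟨c, hc, hcb⟩
      by_cases hc0 : c = 0
      · left
        intro b
        have h0 : M θ 0 = 0 := by
          have h1 := hcast θ ((1 : (ZMod p)ˣ) : ZMod p) c (hcb 1)
          have h2 := hz 1
          omega
        by_cases hb : b = 0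
        · rw [hb]; exact h0
        · have := hz (Units.mk0 b hb)
          rwa [Units.val_mk0] at this
      · exfalso
        have hN' : (((p - 1 : ℕ) : ℤ) * c : ℤ) = ((((p - 1 : ℕ) : ℤ) * c : ℤ) : ℂ) := rfl
        have h1 : ((((p - 1 : ℕ) : ℤ) * c : ℤ) : ℂ) = ∑ b : (ZMod p)ˣ, (mu D χ θ 0 - mu D χ θ b) := by
          rw [Finset.sum_congr rfl (fun b _ => hcb b), Finset.sum_const, hcu, nsmul_eq_mul]
          push_cast
          ring
        have h2 : ¬ (p : ℤ) ∣ ((p - 1 : ℕ) : ℤ) * c := by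
          intro h
          have hpi : Prime (p : ℤ) := Nat.prime_iff_prime_int.1 hp.out
          rcases hpi.dvd_or_dvd h with h3 | h3
          · have := Nat.le_of_dvd (by omega) (Int.natCast_dvd_natCast.1 h3)
            omega
          · have h4 : (p : ℤ) ∣ 1 := by
              rcases hc with h5 | h5 | h5
              · exact absurd h5 hc0
              · rwa [h5] at h3
              · rw [h5, dvd_neg] at h3; exact h3
            exact hpi.not_isUnit (isUnit_of_dvd_one h4)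
        obtain ⟨m, hm⟩ := conj_of_contr D hp2 χ.2 θ0.2 θ.2 hN0 h1 (hpe θ0 s hs) h2
        have h3 := htr m θ hm (((b1 * KK D m : (ZMod p)ˣ)) : ZMod p)
        rw [hz (b1 * KK D m)] at h3
        apply hb1
        rw [h3]
        congr 1
        rw [← Units.val_mul, mul_inv_cancel_right]
    · right
      have h1 := hsum_gen θ s' q' hsq'
      exact conj_of_contr D hp2 χ.2 θ0.2 θ.2 hN0 h1 (hpe θ0 s hs) (hpe θ s' hs')
  -- the counting formula
  set f := ∑ b : ZMod p, M θ0 b with hf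
  have hfθ : ∀ (m : D.N₀) (θ : IrrCharacter D.W), (θ : D.W → ℂ) = cjW D m (θ0 : D.W → ℂ) →
      ∑ b : ZMod p, M θ b = f := by
    intro m θ h
    rw [Finset.sum_congr rfl (fun b _ => htr m θ h b)]
    exact Fintype.sum_equiv (Units.mulRight ((KK D m)⁻¹)) _ _ (fun b => by
      rw [Units.mulRight_apply])
  have hdθ : ∀ (m : D.N₀) (θ : IrrCharacter D.W), (θ : D.W → ℂ) = cjW D m (θ0 : D.W → ℂ) →
      dg θ = dg θ0 := by
    intro m θ h
    have h1 : (dg θ : ℂ) = dg θ0 := by
      rw [← hdg, ← hdg, h, cjW_apply]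
      have h2 : (⟨m * ((1 : D.W) : G) * (m : G)⁻¹, conj_mem_W D m 1⟩ : D.W) = 1 :=
        Subtype.ext (by simp)
      rw [h2]
    exact_mod_cast h1
  let cj : D.N₀ → IrrCharacter D.W := fun m => ⟨cjW D m (θ0 : D.W → ℂ), cjW_irr D θ0.2 m⟩
  have hcj : ∀ m, ((cj m : IrrCharacter D.W) : D.W → ℂ) = cjW D m (θ0 : D.W → ℂ) := fun m => rfl
  have hcount : Nat.card (T₀ D (θ0 : D.W → ℂ)) * n = Nat.card D.N₀ * (f * dg θ0) := by
    have h1 : ∑ m : D.N₀, (∑ b : ZMod p, M (cj m) b) * dg (cj m) = Nat.card D.N₀ * (f * dg θ0) := by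
      rw [Finset.sum_congr rfl (fun m _ => by rw [hfθ m (cj m) rfl, hdθ m (cj m) rfl]),
        Finset.sum_const, Finset.card_univ, ← Nat.card_eq_fintype_card, smul_eq_mul]
    rw [← h1, ← Finset.sum_fiberwise (s := (univ : Finset D.N₀)) (g := cj), hdeg, Finset.mul_sum]
    refine Finset.sum_congr rfl fun θ _ => ?_
    have h2 : ∑ m ∈ (univ : Finset D.N₀).filter (fun m => cj m = θ),
        (∑ b : ZMod p, M (cj m) b) * dg (cj m) =
        ((univ : Finset D.N₀).filter (fun m => cj m = θ)).card * ((∑ b : ZMod p, M θ b) * dg θ) := by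
      rw [Finset.sum_congr rfl (g := fun _ => (∑ b : ZMod p, M θ b) * dg θ)
        (fun m hm => by rw [(mem_filter.1 hm).2]), Finset.sum_const, smul_eq_mul]
    rw [h2]
    rcases hall θ with h3 | ⟨m0, hm0⟩
    · have h4 : ∑ b : ZMod p, M θ b = 0 := Finset.sum_eq_zero fun b _ => h3 b
      rw [h4, zero_mul, mul_zero, mul_zero]
    · congr 1
      have h4 := card_orbit_fiber D (θ0 : D.W → ℂ) m0
      rw [← h4, Nat.card_eq_fintype_card, Fintype.card_subtype]
      congr 1
      ext m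
      simp only [mem_filter, mem_univ, true_and]
      rw [Subtype.ext_iff, hcj, hm0]
  have hcount2 : Nat.card (HH D (θ0 : D.W → ℂ)) * n = Nat.card (KK D).range * f * dg θ0 := by
    rw [card_T₀ D (isClassFunction_of_isIrr θ0.2), card_N₀] at hcount
    have hW : 0 < Nat.card D.W := Nat.card_pos
    apply Nat.eq_of_mul_eq_mul_left hW
    calc Nat.card D.W * (Nat.card (HH D (θ0 : D.W → ℂ)) * n) =
        Nat.card (HH D (θ0 : D.W → ℂ)) * Nat.card D.W * n := by ring
      _ = _ := hcount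
      _ = _ := by ring
  -- the sum `f`
  set e := Nat.card (HH D (θ0 : D.W → ℂ)) with he
  set E := Nat.card (KK D).range with hE
  have hMb : ∀ b : (ZMod p)ˣ, (M θ0 b : ℤ) = M θ0 0 - if (QuotientGroup.mk b) = q then s else 0 := by
    intro b
    have h1 := hsq b
    have h2 : mu D χ θ0 0 - mu D χ θ0 b = (((if (QuotientGroup.mk b) = q then s else 0 : ℤ)) : ℂ) := by
      rw [h1]; split_ifs <;> simp
    have h3 := hcast θ0 b _ h2
    omega
  have hfe : (f : ℤ) = p * (M θ0 0) - s * e := by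
    rw [hf, hsplit]
    push_cast
    rw [Finset.sum_congr rfl (fun b _ => hMb b), Finset.sum_sub_distrib, Finset.sum_const, hcu,
      ← Finset.sum_filter, Finset.sum_const, hcq, nsmul_eq_mul, nsmul_eq_mul, Nat.cast_sub hp1.le]
    push_cast
    ring
  have heE : e ∣ E := Subgroup.card_dvd_of_le (HH_le_range D _)
  have he0 : 0 < e := Nat.card_pos
  have hm1 : s = 1 → 1 ≤ M θ0 0 := by
    intro h
    obtain ⟨b, hb⟩ := QuotientGroup.mk_surjective q
    have h1 := hMb b
    rw [if_pos hb, h] at h1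
    omega
  have hm2 : s = 1 → e = p - 1 → 2 ≤ M θ0 0 := by
    intro h h2
    have h3 : HH D (θ0 : D.W → ℂ) = ⊤ := by
      apply Subgroup.eq_top_of_card_eq
      rw [← he, h2, Nat.card_eq_fintype_card, ZMod.card_units p]
    have h4 : (QuotientGroup.mk b1 : (ZMod p)ˣ ⧸ HH D (θ0 : D.W → ℂ)) = q := by
      obtain ⟨b, hb⟩ := QuotientGroup.mk_surjective q
      rw [← hb, QuotientGroup.eq, h3]
      exact Subgroup.mem_top _
    have h5 := hMb b1
    rw [if_pos h4, h] at h5
    omega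
  have hnum := num_small (card_range_dvd D) heE he0 (hdg0 θ0) hp1 hn s hs f hfe hm1 hm2
    (by rw [hcount2])
  have hTtop : E = e → ∀ m : D.N₀, cjW D m (θ0 : D.W → ℂ) = (θ0 : D.W → ℂ) := by
    intro hEe m
    have h1 : T₀ D (θ0 : D.W → ℂ) = ⊤ := by
      apply Subgroup.eq_top_of_card_eq
      rw [card_T₀ D (isClassFunction_of_isIrr θ0.2), card_N₀, ← he, ← hE, hEe]
    rw [← mem_T₀, h1]
    exact Subgroup.mem_top _
  have honly : E = e → ∀ θ : IrrCharacter D.W, θ ≠ θ0 → ∀ b, M θ b = 0 := by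
    intro hEe θ hne
    rcases hall θ with h | ⟨m, hm⟩
    · exact h
    · exact absurd (Subtype.ext (hm.trans (hTtop hEe m))) hne
  have hvalθ : E = e → ∀ (i : ZMod p) (w : D.W), (χ : G → ℂ) (D.σ ^ i.val * w) =
      (∑ b : ZMod p, (M θ0 b : ℂ) * ee (b * i)) * (θ0 : D.W → ℂ) w := by
    intro hEe i w
    rw [val_expand D hcl, Finset.sum_eq_single θ0]
    · rw [hFF]
    · intro θ _ hne
      rw [hFF, Finset.sum_eq_zero (fun b _ => by rw [honly hEe θ hne b]; push_cast; ring), zero_mul]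
    · intro h; exact absurd (mem_univ _) h
  rcases hnum with ⟨hs1, hEe, hd1, hmm, hnE, h2E⟩ | ⟨hs1, hmm, hnE⟩
  · left
    refine ⟨hnE, h2E, θ0, ?_⟩
    obtain ⟨b0, hb0⟩ := QuotientGroup.mk_surjective q
    refine ⟨b0, by rw [hdg, hd1, Nat.cast_one], fun i w => ?_⟩
    rw [hvalθ hEe]
    congr 1
    have hHr : HH D (θ0 : D.W → ℂ) = (KK D).range :=
      Subgroup.eq_of_le_of_card_ge (HH_le_range D _) (le_of_eq hEe)
    have h1 : ∑ b : ZMod p, (M θ0 b : ℂ) * ee (b * i) =
        (M θ0 0 : ℂ) + ∑ b : (ZMod p)ˣ, (M θ0 b : ℂ) * ee ((b : ZMod p) * i) := by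
      rw [sum_units_eq (fun b : ZMod p => (M θ0 b : ℂ) * ee (b * i)), zero_mul, ee_zero, mul_one]
      ring
    have h2 : ∀ b : (ZMod p)ˣ, (M θ0 b : ℂ) * ee ((b : ZMod p) * i) =
        ee ((b : ZMod p) * i) - if b0⁻¹ * b ∈ (KK D).range then ee ((b : ZMod p) * i) else 0 := by
      intro b
      have h3 := hMb b
      rw [← hb0, hmm, hs1] at h3
      have h4 : ((QuotientGroup.mk b : (ZMod p)ˣ ⧸ HH D (θ0 : D.W → ℂ)) = QuotientGroup.mk b0) ↔
          b0⁻¹ * b ∈ (KK D).range := by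
        rw [eq_comm, QuotientGroup.eq, hHr]
      have h5 : (M θ0 b : ℂ) = (((1 : ℕ) : ℤ) - if (QuotientGroup.mk b :
          (ZMod p)ˣ ⧸ HH D (θ0 : D.W → ℂ)) = QuotientGroup.mk b0 then 1 else 0 : ℤ) := by
        exact_mod_cast congrArg (fun z : ℤ => (z : ℂ)) h3
      rw [h5]
      simp only [h4]
      split_ifs
      · push_cast; ring
      · push_cast; ring
    rw [h1, hmm, Finset.sum_congr rfl (fun b _ => h2 b), Finset.sum_sub_distrib, ← Finset.sum_filter,
      sum_units_eq (fun b : ZMod p => ee (b * i)), zero_mul, ee_zero]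
    have h6 : ∑ b : ZMod p, ee (b * i) = if i = 0 then (p : ℂ) else 0 := by
      rw [← sum_ee i]
      exact Finset.sum_congr rfl fun b _ => by rw [mul_comm]
    rw [h6]
    have h7 : ∀ (S T : ℂ), S = T → ((1 : ℕ) : ℂ) + ((if i = 0 then (p : ℂ) else 0) - 1 - S) =
        (if i = 0 then (p : ℂ) else 0) - T := by
      rintro S _ rfl
      push_cast
      ring
    apply h7
    refine Finset.sum_congr ?_ fun _ _ => rfl
    ext b
    simp only [mem_filter]
  · right
    refine ⟨⟨dg θ0, hnE⟩, fun hE1 => ?_⟩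
    have he1 : e = 1 := Nat.eq_one_of_dvd_one (hE1 ▸ heE)
    have hEe : E = e := by rw [hE1, he1]
    have h1 := hvalθ hEe 1 1
    have e1 : D.σ ^ (1 : ZMod p).val = D.σ := by
      rw [ZMod.val_one_eq_one_mod, Nat.mod_eq_of_lt hp1, pow_one]
    rw [e1, show ((1 : D.W) : G) = 1 from rfl, mul_one] at h1
    obtain ⟨b0, hb0⟩ := QuotientGroup.mk_surjective q
    have h2 : ∀ b : ZMod p, b ≠ b0 → M θ0 b = 0 := by
      intro b hb
      by_cases hb' : b = 0
      · rw [hb', hmm]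
      · have h3 := hMb (Units.mk0 b hb')
        rw [Units.val_mk0, hmm, if_neg] at h3
        · omega
        · rw [← hb0, eq_comm, QuotientGroup.eq]
          have h4 : HH D (θ0 : D.W → ℂ) = ⊥ := Subgroup.eq_bot_of_card_eq _ (by rw [← he, he1])
          rw [h4, Subgroup.mem_bot, inv_mul_eq_one]
          intro h5
          apply hb
          rw [h5, Units.val_mk0]
    have h3 : M θ0 b0 = 1 := by
      have h4 := hMb b0
      rw [hmm, if_pos hb0, hs1] at h4
      omega
    rw [Finset.sum_eq_single (b0 : ZMod p) (fun b _ hb => by rw [h2 b hb]; push_cast; ring)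
      (fun h => absurd (mem_univ _) h), h3] at h1
    rw [h1, Nat.cast_one, one_mul, norm_mul]
    have h5 : ‖ee ((b0 : ZMod p) * 1)‖ = 1 := by
      rw [ee, ZMod.stdAddChar_apply]
      exact Circle.norm_coe _
    have h6 : n = dg θ0 := by rw [hnE, show Nat.card (KK D).range = 1 from hE1, one_mul]
    rw [h5, one_mul, hdg, ← h6]
    exact Complex.norm_natCast _

end H21.FD
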