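import Cfsg.Agent.Lib.H21.FD3
import Cfsg.Agent.Lib.H20.CentD
import Cfsg.Agent.Lib.H82.Det
import Cfsg.Agent.Lib.H18.DetChar

/-!
Sums over the `p`-singular elements; central elements.
-/

set_option autoImplicit false
set_option linter.unusedSectionVars false

namespace H21.FD

open Finset Cfsg H18.CharBasic H18.CharOrtho H18.CharInd H67.Lat H67.DefOne H77.Cong
open scoped ComplexConjugate

section gen

variable {G : Type*} [Group G] [Finite G]

theorem central_of_norm {χ : G → ℂ} (hχ : IsIrrCharacter G χ) (hf : ∀ g, χ g = χ 1 → g = 1) {g : G}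
    (h : ‖χ g‖ = ‖χ 1‖) : g ∈ Subgroup.center G := by
  obtain ⟨n, ρ, hρ, rfl⟩ := hχ
  rw [Representation.char_one, Complex.norm_natCast, H4.Eigen.norm_char_eq_iff] at h
  obtain ⟨c, hc⟩ := h
  rw [Subgroup.mem_center_iff]
  intro x
  have h1 : ρ (g * x) = ρ (x * g) := by
    rw [map_mul, map_mul, hc]
    ext v
    simp
  have h2 : ρ ((x * g)⁻¹ * (g * x)) = 1 := by
    rw [map_mul, h1, ← map_mul, inv_mul_cancel, map_one]
  have h3 := hf ((x * g)⁻¹ * (g * x)) (by
    rw [Representation.character, Representation.character, h2, map_one ρ])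
  exact (inv_mul_eq_one.1 h3)

/-- in a perfect group the exponent of the centre divides the degree of a faithful irreducible
character -/
theorem pow_degree_eq_one (hperf : commutator G = ⊤) {χ : G → ℂ} (hχ : IsIrrCharacter G χ)
    (hf : ∀ g, χ g = χ 1 → g = 1) {z : G} (hz : z ∈ Subgroup.center G) {d : ℕ} (hd : χ 1 = d) :
    z ^ d = 1 := by
  obtain ⟨n, ρ, hρ, rfl⟩ := hχ
  obtain ⟨c, hc⟩ := H4.CenterIndex.exists_scalar_of_center ρ hρ hz
  have hn : n = d := by
    rw [Representation.char_one, Module.finrank_fin_fun] at hd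
    exact_mod_cast hd
  subst hn
  have h1 : LinearMap.det (ρ z) = 1 := by
    have h2 := H82.Det.hom_commutator (H18.DetChar.detHom ρ) (x := z) (by
      rw [hperf]; exact Subgroup.mem_top _)
    have h3 := congrArg Units.val h2
    rw [H18.DetChar.detHom_apply] at h3
    exact h3
  have h2 : c ^ n = 1 := by
    rw [hc, LinearMap.det_smul, LinearMap.det_id, Module.finrank_fin_fun, mul_one] at h1
    exact h1
  have h3 : ρ (z ^ n) = 1 := by
    rw [map_pow, hc]
    have : (c • (LinearMap.id : (Fin n → ℂ) →ₗ[ℂ] (Fin n → ℂ))) = c • (1 : Module.End ℂ (Fin n → ℂ)) := rfl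
    rw [this, smul_pow, one_pow, h2, one_smul]
  exact hf _ (by rw [Representation.character, Representation.character, h3, map_one ρ])

end gen

section sum

variable {p : ℕ} [hp : Fact p.Prime] {G : Type*} [Group G] [Fintype G] (D : Dat p G) [Fintype D.W]

open Classical in
/-- the elements `σ^i w` with `i ≠ 0` -/
noncomputable def AF : Finset G :=
  (((univ : Finset (ZMod p)).erase 0) ×ˢ (univ : Finset D.W)).image (fun q => D.σ ^ q.1.val * (q.2 : G))

theorem mem_AF {g : G} : g ∈ AF D ↔ ∃ (i : ZMod p) (w : D.W), i ≠ 0 ∧ g = D.σ ^ i.val * w := by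
  classical
  rw [AF, mem_image]
  constructor
  · rintro ⟨⟨i, w⟩, h1, h2⟩
    exact ⟨i, w, (mem_erase.1 (mem_product.1 h1).1).1, h2.symm⟩
  · rintro ⟨i, w, hi, rfl⟩
    exact ⟨(i, w), mem_product.2 ⟨mem_erase.2 ⟨hi, mem_univ _⟩, mem_univ _⟩, rfl⟩

theorem inj_pair {i j : ZMod p} {u w : D.W} (h : D.σ ^ i.val * (u : G) = D.σ ^ j.val * w) :
    i = j ∧ u = w := by
  have h1 : Phi D (Multiplicative.ofAdd i, u) = Phi D (Multiplicative.ofAdd j, w) := h
  have h2 := Phi_injective D h1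
  rw [Prod.mk.injEq] at h2
  exact ⟨Multiplicative.ofAdd.injective h2.1, h2.2⟩

theorem orderOf_pow_val {i : ZMod p} (hi : i ≠ 0) : orderOf (D.σ ^ i.val) = p := by
  apply orderOf_eq_prime
  · have h0 : D.σ ^ p = 1 := orderOf_dvd_iff_pow_eq_one.1 (by rw [D.hσ])
    rw [← pow_mul, mul_comm, pow_mul, h0, one_pow]
  · intro h
    have h1 := orderOf_dvd_of_pow_eq_one h
    rw [D.hσ] at h1
    have h2 := Nat.eq_zero_of_dvd_of_lt h1 (ZMod.val_lt i)
    exact hi ((ZMod.val_eq_zero i).1 h2)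

theorem dvd_orderOf_of_mem_AF {g : G} (h : g ∈ AF D) : p ∣ orderOf g := by
  obtain ⟨i, w, hi, rfl⟩ := (mem_AF D).1 h
  have hw := not_dvd_of_mem_W D w.2
  have h1 := orderOf_pow_val D hi
  have hc := comm_pow D i w
  rw [← hc.eq, hc.orderOf_mul_eq_mul_orderOf_of_coprime, h1]
  · exact dvd_mul_left _ _
  · rw [h1]; exact ((hp.out.coprime_iff_not_dvd).2 hw).symm

theorem exists_AF (hp2 : ¬ p ^ 2 ∣ Nat.card G) {g : G} (h : p ∣ orderOf g) :
    ∃ x : G, x⁻¹ * g * x ∈ AF D := by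
  obtain ⟨m, hm⟩ := h
  have hg0 : orderOf g ≠ 0 := (orderOf_pos g).ne'
  have hm0 : m ≠ 0 := by rintro rfl; rw [mul_zero] at hm; exact hg0 hm
  have h1 : orderOf (g ^ m) = p := by
    rw [orderOf_pow_of_dvd hm0 ⟨p, by rw [hm]; ring⟩, hm, Nat.mul_div_cancel _ (Nat.pos_of_ne_zero hm0)]
  obtain ⟨c, hc⟩ := H67.Mod.conj_of_order hp2 h1 D.hσ
  refine ⟨c⁻¹, ?_⟩
  rw [inv_inv]
  set k := c * g * c⁻¹ with hk
  have hkm : k ^ m ∈ Subgroup.zpowers D.σ := by rw [hk, conj_pow]; exact hc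
  have hkm1 : orderOf (k ^ m) = p := by
    rw [hk, conj_pow, ← MulAut.conj_apply, MulEquiv.orderOf_eq, h1]
  have hko : orderOf k = p * m := by rw [hk, ← MulAut.conj_apply, MulEquiv.orderOf_eq, hm]
  -- `σ` is a power of `k ^ m`
  have hz : Subgroup.zpowers (k ^ m) = Subgroup.zpowers D.σ := by
    apply Subgroup.eq_of_le_of_card_ge (Subgroup.zpowers_le.2 hkm)
    rw [Nat.card_zpowers, Nat.card_zpowers, hkm1, D.hσ]
  have hσk : D.σ ∈ Subgroup.zpowers (k ^ m) := by rw [hz]; exact Subgroup.mem_zpowers _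
  obtain ⟨j, hj⟩ := Subgroup.mem_zpowers_iff.1 hσk
  have hcomm : k * D.σ = D.σ * k := by
    rw [← hj]
    exact (((Commute.refl k).pow_right m).zpow_right j).eq
  obtain ⟨u, hu, y, hy, huy⟩ := D.cent hcomm
  obtain ⟨l, hl⟩ := mem_powers_iff_mem_zpowers.2 hy
  have hl : D.σ ^ l = y := hl
  have hl2 : D.σ ^ (l : ZMod p).val = y := by
    rw [← hl, ZMod.val_natCast, pow_eq_pow_iff_modEq, D.hσ]
    exact Nat.mod_modEq _ _
  rw [mem_AF]
  refine ⟨(l : ZMod p), ⟨u, hu⟩, ?_, ?_⟩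
  · intro h0
    rw [h0, ZMod.val_zero, pow_zero] at hl2
    rw [← hl2, mul_one] at huy
    have h2 := not_dvd_of_mem_W D hu
    rw [← huy, hko] at h2
    exact h2 (dvd_mul_right _ _)
  · rw [huy, hl2]
    exact D.W_comm' hu hy

open Classical in
theorem card_conj_AF (hp2 : ¬ p ^ 2 ∣ Nat.card G) {g : G} (h : p ∣ orderOf g) :
    ((univ : Finset G).filter (fun x => x⁻¹ * g * x ∈ AF D)).card = p * Nat.card D.N₀ := by
  let _ : Fintype D.N₀ := Fintype.ofFinite _
  obtain ⟨x0, hx0⟩ := exists_AF D hp2 h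
  set N := Subgroup.normalizer (Subgroup.zpowers D.σ : Set G) with hN
  have h1 : ∀ x : G, x⁻¹ * g * x ∈ AF D ↔ x0⁻¹ * x ∈ N := by
    intro x
    obtain ⟨i, w, hi, hiw⟩ := (mem_AF D).1 hx0
    constructor
    · intro hx
      obtain ⟨j, v, hj, hjv⟩ := (mem_AF D).1 hx
      have h2 : (x0⁻¹ * x)⁻¹ * Phi D (Multiplicative.ofAdd i, w) * (x0⁻¹ * x)⁻¹⁻¹ =
          Phi D (Multiplicative.ofAdd j, v) := by
        have e1 : Phi D (Multiplicative.ofAdd i, w) = x0⁻¹ * g * x0 := hiw.symm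
        have e2 : Phi D (Multiplicative.ofAdd j, v) = x⁻¹ * g * x := hjv.symm
        rw [e1, e2]; group
      have h3 := mem_normalizer_of_Phi D (q := (Multiplicative.ofAdd i, w)) hi h2
      exact (inv_mem_iff (H := N)).1 h3
    · intro hx
      have h2 : (x0⁻¹ * x)⁻¹ ∈ N := N.inv_mem hx
      have e0 : x⁻¹ * g * x = (x0⁻¹ * x)⁻¹ * (D.σ ^ i.val * w) * (x0⁻¹ * x) := by
        rw [← hiw]; group
      set y := x0⁻¹ * x with hy
      have e1 : y⁻¹ * (D.σ ^ i.val * w) * y = (y⁻¹ * D.σ ^ i.val * y) * (y⁻¹ * w * y) := by group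
      have h3 : y⁻¹ * D.σ ^ i.val * y ∈ Subgroup.zpowers D.σ := by
        have := (Subgroup.mem_normalizer_iff.1 h2 (D.σ ^ i.val)).1
          (Subgroup.pow_mem _ (Subgroup.mem_zpowers _) _)
        rwa [inv_inv] at this
      obtain ⟨l, hl⟩ := mem_powers_iff_mem_zpowers.2 h3
      have hl : D.σ ^ l = y⁻¹ * D.σ ^ i.val * y := hl
      have hl2 : D.σ ^ (l : ZMod p).val = y⁻¹ * D.σ ^ i.val * y := by
        rw [← hl, ZMod.val_natCast, pow_eq_pow_iff_modEq, D.hσ]
        exact Nat.mod_modEq _ _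
      have hord : orderOf (y⁻¹ * D.σ ^ i.val * y) = p := by
        have h5 : y⁻¹ * D.σ ^ i.val * y = MulAut.conj y⁻¹ (D.σ ^ i.val) := by
          rw [MulAut.conj_apply, inv_inv]
        rw [h5, MulEquiv.orderOf_eq, orderOf_pow_val D hi]
      have hw : y⁻¹ * w * y ∈ D.W := by
        apply mem_W_of_comm D
        · have h5 : y⁻¹ * w * y = MulAut.conj y⁻¹ w := by rw [MulAut.conj_apply, inv_inv]
          rw [h5, MulEquiv.orderOf_eq]
          exact not_dvd_of_mem_W D w.2
        · -- commutes with all of `P`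
          have h5 : y * D.σ * y⁻¹ ∈ Subgroup.zpowers D.σ :=
            (Subgroup.mem_normalizer_iff.1 hx D.σ).1 (Subgroup.mem_zpowers _)
          have h6 := D.W_comm' w.2 h5
          calc y⁻¹ * w * y * D.σ = y⁻¹ * (w * (y * D.σ * y⁻¹)) * y := by group
            _ = y⁻¹ * ((y * D.σ * y⁻¹) * w) * y := by rw [h6]
            _ = _ := by group
      rw [e0, mem_AF]
      refine ⟨(l : ZMod p), ⟨_, hw⟩, ?_, ?_⟩
      · intro h0
        rw [h0, ZMod.val_zero, pow_zero] at hl2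
        rw [← hl2, orderOf_one] at hord
        exact hp.out.one_lt.ne hord
      · rw [hl2, e1]
  have h2 : ((univ : Finset G).filter (fun x => x⁻¹ * g * x ∈ AF D)).card =
      ((univ : Finset G).filter (fun x => x ∈ N)).card := by
    refine Finset.card_bij (fun x _ => x0⁻¹ * x) ?_ ?_ ?_
    · intro x hx
      rw [mem_filter] at hx ⊢
      exact ⟨mem_univ _, (h1 x).1 hx.2⟩
    · intro a _ b _ hab
      exact mul_left_cancel hab
    · intro y hy
      refine ⟨x0 * y, ?_, by group⟩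
      rw [mem_filter] at hy ⊢
      refine ⟨mem_univ _, (h1 _).2 ?_⟩
      rw [inv_mul_cancel_left]
      exact hy.2
  have h3 := sum_normalizer D (fun x : G => if x ∈ N then (1 : ℂ) else 0) (fun x hx => if_neg hx)
  have h4 : ∀ (n : D.N₀) (j : ZMod p), (n : G) * D.σ ^ j.val ∈ N := fun n j =>
    N.mul_mem (D.hN₀ n.2) (Subgroup.le_normalizer (Subgroup.pow_mem _ (Subgroup.mem_zpowers _) _))
  have h5 : ∑ n : D.N₀, ∑ j : ZMod p, (if (n : G) * D.σ ^ j.val ∈ N then (1 : ℂ) else 0) =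
      (Nat.card D.N₀ : ℂ) * p := by
    rw [Finset.sum_congr rfl (fun n _ => Finset.sum_congr rfl (fun j _ => if_pos (h4 n j)))]
    rw [Finset.sum_const, Finset.sum_const, Finset.card_univ, Finset.card_univ, ZMod.card,
      nsmul_eq_mul, nsmul_eq_mul, mul_one, Nat.card_eq_fintype_card]
  rw [h5, Finset.sum_boole] at h3
  rw [h2]
  have h6 : (((univ : Finset G).filter (fun x => x ∈ N)).card : ℂ) = ((p * Nat.card D.N₀ : ℕ) : ℂ) := by
    rw [h3]; push_cast; ring
  exact_mod_cast h6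

open Classical in
/-- the sum of a class function over the `p`-singular elements -/
theorem psum (hp2 : ¬ p ^ 2 ∣ Nat.card G) {F : G → ℂ} (hF : IsClassFunction G F)
    {f : ZMod p → ℂ} (hf : ∀ i, i ≠ 0 → ∀ w : D.W, F (D.σ ^ i.val * w) = f i) :
    (p : ℂ) * (Nat.card (KK D).range : ℂ) * ∑ g ∈ (univ : Finset G).filter (fun g => p ∣ orderOf g), F g =
      (Nat.card G : ℂ) * ∑ i ∈ (univ : Finset (ZMod p)).erase 0, f i := by
  have hW0 : (Nat.card D.W : ℂ) ≠ 0 := by exact_mod_cast Nat.card_pos.ne'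
  have h1 : ∑ y ∈ AF D, F y = (Nat.card D.W : ℂ) * ∑ i ∈ (univ : Finset (ZMod p)).erase 0, f i := by
    rw [AF, Finset.sum_image, Finset.sum_product, Finset.mul_sum]
    · refine Finset.sum_congr rfl fun i hi => ?_
      rw [Finset.sum_congr rfl (fun w _ => hf i (mem_erase.1 hi).1 w), Finset.sum_const,
        Finset.card_univ, nsmul_eq_mul, Nat.card_eq_fintype_card]
    · rintro ⟨i, u⟩ _ ⟨j, w⟩ _ h
      obtain ⟨rfl, rfl⟩ := inj_pair D h
      rfl
  have h2 : ∀ x : G, ∑ g : G, (if x⁻¹ * g * x ∈ AF D then F g else 0) = ∑ y ∈ AF D, F y := by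
    intro x
    rw [← Finset.sum_filter]
    refine Finset.sum_bij (fun g _ => x⁻¹ * g * x) ?_ ?_ ?_ ?_
    · intro g hg; exact (mem_filter.1 hg).2
    · intro a _ b _ hab
      exact mul_left_cancel (mul_right_cancel hab)
    · intro y hy
      refine ⟨x * y * x⁻¹, ?_, by group⟩
      rw [mem_filter]
      refine ⟨mem_univ _, ?_⟩
      have : x⁻¹ * (x * y * x⁻¹) * x = y := by group
      rw [this]; exact hy
    · intro g _
      have := hF g x⁻¹
      rw [inv_inv] at this
      exact this.symm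
  have h3 : ∑ x : G, ∑ g : G, (if x⁻¹ * g * x ∈ AF D then F g else 0) =
      (Nat.card G : ℂ) * ((Nat.card D.W : ℂ) * ∑ i ∈ (univ : Finset (ZMod p)).erase 0, f i) := by
    rw [Finset.sum_congr rfl (fun x _ => h2 x), Finset.sum_const, Finset.card_univ, nsmul_eq_mul,
      h1, Nat.card_eq_fintype_card (α := G)]
  rw [Finset.sum_comm] at h3
  have h4 : ∀ g : G, ∑ x : G, (if x⁻¹ * g * x ∈ AF D then F g else 0) =
      if p ∣ orderOf g then (p : ℂ) * (Nat.card D.N₀ : ℂ) * F g else 0 := by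
    intro g
    rw [← Finset.sum_filter, Finset.sum_const, nsmul_eq_mul]
    split_ifs with hg
    · rw [card_conj_AF D hp2 hg]
      push_cast
      ring
    · have : (univ : Finset G).filter (fun x => x⁻¹ * g * x ∈ AF D) = ∅ := by
        rw [Finset.filter_eq_empty_iff]
        intro x _ hx
        apply hg
        have h5 := dvd_orderOf_of_mem_AF D hx
        have h6 : x⁻¹ * g * x = MulAut.conj x⁻¹ g := by rw [MulAut.conj_apply, inv_inv]
        rwa [h6, MulEquiv.orderOf_eq] at h5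
      rw [this]
      simp
  rw [Finset.sum_congr rfl (fun g _ => h4 g), ← Finset.sum_filter, ← Finset.mul_sum, card_N₀] at h3
  apply mul_left_cancel₀ hW0
  push_cast at h3
  linear_combination h3

end sum

end H21.FD
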