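import Cfsg.Agent.Lib.H21.FD4
import Cfsg.Agent.Lib.H59.SymAlt
import Cfsg.Agent.Lib.H78.Galois

/-!
Perfect groups with a faithful irreducible character of degree `p - 2`: values at `p`-singular
elements.
-/

set_option autoImplicit false
set_option linter.unusedSectionVars false

namespace H21.FD

open Finset Cfsg H18.CharBasic H18.CharOrtho H18.CharInd H67.Lat H67.DefOne H77.Cong
open scoped ComplexConjugate

section cc

variable {p : ℕ} [hp : Fact p.Prime]

/-- `ζ ^ k + ζ ^ (-k)` -/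
noncomputable def cc (k : ZMod p) : ℂ := ee k + ee (-k)

theorem cc_zero : cc (0 : ZMod p) = 2 := by
  rw [cc, neg_zero, ee_zero]; norm_num

theorem cc_neg (k : ZMod p) : cc (-k) = cc k := by
  rw [cc, cc, neg_neg, add_comm]

theorem conj_cc (k : ZMod p) : conj (cc k) = cc k := by
  rw [cc, map_add, ← ee_neg, ← ee_neg, neg_neg, add_comm]

theorem cc_mul (j k : ZMod p) : cc j * cc k = cc (j + k) + cc (j - k) := by
  rw [cc, cc, cc, cc, neg_add, sub_eq_add_neg, neg_add, neg_neg, ee_add, ee_add, ee_add, ee_add]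
  ring

theorem sum_cc {k : ZMod p} (hk : k ≠ 0) :
    ∑ i ∈ (univ : Finset (ZMod p)).erase 0, cc (k * i) = -2 := by
  have h1 : ∑ i : ZMod p, cc (k * i) = 0 := by
    have h2 : ∀ i : ZMod p, cc (k * i) = ee (k * i) + ee (-k * i) := by
      intro i; rw [cc, neg_mul]
    rw [Finset.sum_congr rfl (fun i _ => h2 i), Finset.sum_add_distrib, sum_ee, sum_ee,
      if_neg hk, if_neg (neg_ne_zero.2 hk), add_zero]
  rw [Finset.sum_erase_eq_sub (mem_univ _), h1, mul_zero, cc_zero]
  norm_num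

theorem sum_cc_zero :
    ∑ i ∈ (univ : Finset (ZMod p)).erase 0, cc ((0 : ZMod p) * i) = 2 * ((p : ℂ) - 1) := by
  have h1 : ∑ i : ZMod p, cc ((0 : ZMod p) * i) = 2 * p := by
    rw [Finset.sum_congr rfl (fun i _ => by rw [zero_mul, cc_zero]), Finset.sum_const,
      Finset.card_univ, ZMod.card, nsmul_eq_mul]
    ring
  rw [Finset.sum_erase_eq_sub (mem_univ _), h1, zero_mul, cc_zero]
  ring

theorem two_ne (h2 : 2 < p) : (2 : ZMod p) ≠ 0 := by
  intro h
  have h1 : ((2 : ℕ) : ZMod p) = 0 := by exact_mod_cast h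
  rw [ZMod.natCast_eq_zero_iff] at h1
  exact absurd (Nat.le_of_dvd (by norm_num) h1) (by omega)

open Classical in
theorem sum_cc_mul (h2 : 2 < p) {j k : ZMod p} (hj : j ≠ 0) :
    ∑ i ∈ (univ : Finset (ZMod p)).erase 0, cc (j * i) * cc (k * i) =
      (if j = k ∨ j = -k then 2 * (p : ℂ) - 4 else -4) := by
  have h1 : ∀ i : ZMod p, cc (j * i) * cc (k * i) = cc ((j + k) * i) + cc ((j - k) * i) := by
    intro i; rw [cc_mul, add_mul, sub_mul]
  rw [Finset.sum_congr rfl (fun i _ => h1 i), Finset.sum_add_distrib]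
  by_cases h3 : j = k
  · subst h3
    have h4 : j + j ≠ 0 := by
      rw [← two_mul]; exact mul_ne_zero (two_ne h2) hj
    rw [if_pos (Or.inl rfl), sub_self, sum_cc h4, sum_cc_zero]
    ring
  · by_cases h4 : j = -k
    · subst h4
      have h5 : -k - k ≠ 0 := by
        have : -k - k = 2 * (-k) := by ring
        rw [this]; exact mul_ne_zero (two_ne h2) hj
      rw [if_pos (Or.inr rfl), neg_add_cancel, sum_cc h5, sum_cc_zero]
      ring
    · rw [if_neg (by rintro (h | h); exacts [h3 h, h4 h]), sum_cc (sub_ne_zero.2 h3),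
        sum_cc (fun h => h4 (eq_neg_of_add_eq_zero_left h))]
      norm_num

theorem mem_of_card_two {H : Subgroup (ZMod p)ˣ} (hH : Nat.card H = 2) (x : (ZMod p)ˣ) :
    x ∈ H ↔ x = 1 ∨ x = -1 := by
  have h1 : (H : Set (ZMod p)ˣ) ⊆ {1, -1} := by
    intro x hx
    have h2 : x ^ 2 = 1 := by
      have h3 := pow_card_eq_one' (x := (⟨x, hx⟩ : H))
      rw [hH] at h3
      exact congrArg Subtype.val h3
    have h3 : ((x : ZMod p) - 1) * ((x : ZMod p) + 1) = 0 := by
      have h4 : ((x ^ 2 : (ZMod p)ˣ) : ZMod p) = 1 := by rw [h2]; rfl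
      rw [Units.val_pow_eq_pow_val] at h4
      linear_combination h4
    rcases mul_eq_zero.1 h3 with h | h
    · left; exact Units.ext (sub_eq_zero.1 h)
    · right
      exact Units.ext (eq_neg_of_add_eq_zero_left h)
  have h2 : (H : Set (ZMod p)ˣ) = {1, -1} := by
    apply Set.eq_of_subset_of_ncard_le h1
    have h3 : (H : Set (ZMod p)ˣ).ncard = 2 := by
      rw [← Nat.card_coe_set_eq]; exact hH
    rw [h3]
    exact Set.ncard_insert_le _ _ |>.trans (by rw [Set.ncard_singleton])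
  rw [← SetLike.mem_coe, h2]
  rfl

end cc

section perf

variable {p : ℕ} [hp : Fact p.Prime] {G : Type*} [Group G] [Fintype G]

/-- a group with a faithful irreducible character of degree `p - 2` -/
structure Sq (D : Dat p G) (χ : IrrCharacter G) : Prop where
  h5 : 5 < p
  hp2 : ¬ p ^ 2 ∣ Nat.card G
  hf : ∀ g, (χ : G → ℂ) g = (χ : G → ℂ) 1 → g = 1
  hdeg : charDegree (χ : G → ℂ) = p - 2
  hσ : D.σ ∉ Subgroup.center G

/-- a perfect group with a faithful irreducible character of degree `p - 2` -/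
structure Su (D : Dat p G) (χ : IrrCharacter G) : Prop extends Sq D χ where
  hperf : commutator G = ⊤

variable {D : Dat p G} {χ : IrrCharacter G}

theorem Sq.one (h : Sq D χ) : (χ : G → ℂ) 1 = p - 2 := by
  have h1 := H82.Deg.coe_charDegree' χ
  rw [h.hdeg, Nat.cast_sub (by have := h.h5; omega)] at h1
  rw [← h1]
  norm_num

theorem Sq.small (h : Sq D χ) [Fintype D.W] : Nat.card (KK D).range = 2 ∧
    ∃ (θ : D.W →* ℂˣ) (b0 : (ZMod p)ˣ),
        ∀ (i : ZMod p) (w : D.W), (χ : G → ℂ) (D.σ ^ i.val * w) =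
          ((if i = 0 then (p : ℂ) else 0) - cc ((b0 : ZMod p) * i)) * θ w := by
  classical
  have h5 := h.h5
  have hp1 := hp.out.one_lt
  have hσ1 : D.σ ≠ 1 := by
    intro h1
    exact h.hσ (by rw [h1]; exact Subgroup.one_mem _)
  have hE0 : 0 < Nat.card (KK D).range := Nat.card_pos
  rcases small_degree D h.hp2 χ (by rw [h.hdeg]; omega) (fun h1 => hσ1 (h.hf _ h1)) with
    ⟨h1, h2, θ, b0, h3, h4⟩ | ⟨h1, h2⟩
  · rw [h.hdeg] at h1
    have hE : Nat.card (KK D).range = 2 := by omega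
    obtain ⟨f, hf⟩ := H18.CharQuot.exists_hom_of_degree_one (isCharacter_of_isIrr θ.2) h3
    refine ⟨hE, f, b0, fun i w => ?_⟩
    rw [h4, hf]
    congr 2
    have h6 : (univ : Finset (ZMod p)ˣ).filter (fun b => b0⁻¹ * b ∈ (KK D).range) = {b0, -b0} := by
      ext b
      rw [mem_filter, mem_insert, mem_singleton, mem_of_card_two hE, inv_mul_eq_iff_eq_mul,
        inv_mul_eq_iff_eq_mul, mul_one, mul_neg, mul_one]
      simp
    have h7 : b0 ≠ -b0 := by
      intro h7
      have h8 : (b0 : ZMod p) = -(b0 : ZMod p) := by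
        have := congrArg Units.val h7
        rwa [Units.val_neg] at this
      have h9 : 2 * (b0 : ZMod p) = 0 := by linear_combination h8
      rcases mul_eq_zero.1 h9 with h | h
      · exact two_ne (by omega) h
      · exact b0.ne_zero h
    rw [h6, Finset.sum_pair h7, cc, Units.val_neg, neg_mul]
  · exfalso
    rw [h.hdeg] at h1
    have h3 := card_range_dvd D
    have hE : Nat.card (KK D).range = 1 := by
      have h4 : Nat.card (KK D).range ∣ (p - 1) - (p - 2) := Nat.dvd_sub h3 h1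
      have h6 : (p - 1) - (p - 2) = 1 := by omega
      rw [h6] at h4
      exact Nat.dvd_one.1 h4
    apply h.hσ
    refine central_of_norm χ.2 h.hf ?_
    rw [h2 hE, ← H82.Deg.coe_charDegree' χ, Complex.norm_natCast]

theorem Sq.W_le [Fintype D.W] (h : Sq D χ) : D.W ≤ Subgroup.center G := by
  obtain ⟨_, θ, b0, h2⟩ := h.small
  have h5 := h.h5
  intro w hw
  refine central_of_norm χ.2 h.hf ?_
  have h3 := h2 0 ⟨w, hw⟩
  rw [ZMod.val_zero, pow_zero, one_mul, if_pos rfl, mul_zero, cc_zero] at h3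
  rw [h3, h.one, norm_mul, hom_norm_one, mul_one]

theorem Sq.not_dvd [Fintype D.W] (h : Sq D χ) {z : G} (hz : z ∈ Subgroup.center G) : ¬ p ∣ orderOf z := by
  intro hd
  obtain ⟨x, hx⟩ := exists_AF D h.hp2 hd
  rw [Subgroup.mem_center_iff] at hz
  have h1 : x⁻¹ * z * x = z := by rw [mul_assoc, ← hz x, inv_mul_cancel_left]
  rw [h1] at hx
  obtain ⟨i, w, hi, hw⟩ := (mem_AF D).1 hx
  have h2 : D.σ ^ i.val ∈ Subgroup.center G := by
    have h3 : D.σ ^ i.val = z * ((w⁻¹ : D.W) : G) := by rw [hw]; simp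
    rw [h3]
    exact Subgroup.mul_mem _ (Subgroup.mem_center_iff.2 hz) (h.W_le (w⁻¹).2)
  apply h.hσ
  have h3 : D.σ ∈ Subgroup.zpowers (D.σ ^ i.val) := by
    have h4 : Subgroup.zpowers (D.σ ^ i.val) = Subgroup.zpowers D.σ := by
      apply Subgroup.eq_of_le_of_card_ge (Subgroup.zpowers_le.2
        (Subgroup.pow_mem _ (Subgroup.mem_zpowers _) _))
      rw [Nat.card_zpowers, Nat.card_zpowers, orderOf_pow_val D hi, D.hσ]
    rw [h4]
    exact Subgroup.mem_zpowers _
  exact (Subgroup.zpowers_le.2 h2) h3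

theorem Sq.W_eq [Fintype D.W] (h : Sq D χ) : D.W = Subgroup.center G := by
  refine le_antisymm h.W_le fun z hz => ?_
  exact mem_W_of_comm D (h.not_dvd hz) ((Subgroup.mem_center_iff.1 hz) D.σ).symm

theorem Su.pow (h : Su D χ) {z : G} (hz : z ∈ Subgroup.center G) : z ^ (p - 2) = 1 := by
  have h5 := h.h5
  exact pow_degree_eq_one h.hperf χ.2 h.hf hz (by rw [h.one, Nat.cast_sub (by omega)]; norm_num)

theorem Su.odd (h : Su D χ) {z : G} (hz : z ∈ Subgroup.center G) : Odd (orderOf z) := by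
  have h5 := h.h5
  have h1 := orderOf_dvd_of_pow_eq_one (h.pow hz)
  have h2 : Odd (p - 2) := by
    have h3 := hp.out.eq_two_or_odd'.resolve_left (by omega)
    obtain ⟨k, hk⟩ := h3
    exact ⟨k - 1, by omega⟩
  exact h2.of_dvd_nat h1

end perf

end H21.FD
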