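import Cfsg.Agent.Lib.H21.FD5

/-!
Perfect groups with a faithful irreducible character of degree `p - 2`: Galois conjugates and
the decomposition of the symmetric and alternating squares.
-/

set_option autoImplicit false
set_option linter.unusedSectionVars false

namespace H21.FD

open Finset Cfsg H18.CharBasic H18.CharOrtho H18.CharInd H67.Lat H67.DefOne H77.Cong
open scoped ComplexConjugate

section gen

variable {G : Type*} [Group G] [Fintype G]

theorem eq_sum_of_degree {F : G → ℂ} (hF : IsCharacter G F) (X : Finset (IrrCharacter G))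
    (hX : ∀ ψ ∈ X, classInner F (ψ : G → ℂ) ≠ 0) (hdeg : F 1 = ∑ ψ ∈ X, (ψ : G → ℂ) 1) (g : G) :
    F g = ∑ ψ ∈ X, (ψ : G → ℂ) g := by
  classical
  let _ : Fintype (IrrCharacter G) := Fintype.ofFinite _
  have hn : ∀ ψ : IrrCharacter G, ∃ n : ℕ, classInner F (ψ : G → ℂ) = n := fun ψ =>
    inner_char_natCast hF (isCharacter_of_isIrr ψ.2)
  choose n hn using hn
  have hexp : ∀ g, F g = ∑ ψ : IrrCharacter G, (n ψ : ℂ) * (ψ : G → ℂ) g := by
    intro g
    have h1 := congrFun (mem_classFun_expand (isClassFunction_of_isCharacter hF)) g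
    rw [Finset.sum_apply] at h1
    rw [h1]
    refine Finset.sum_congr rfl fun ψ _ => ?_
    rw [Pi.smul_apply, hn, smul_eq_mul]
  have h1 : ∑ ψ : IrrCharacter G, n ψ * charDegree (ψ : G → ℂ) =
      ∑ ψ : IrrCharacter G, (if ψ ∈ X then charDegree (ψ : G → ℂ) else 0) := by
    have h2 := hexp 1
    rw [hdeg] at h2
    rw [← Finset.sum_filter, Finset.filter_mem_eq_inter, Finset.univ_inter]
    have h3 : ((∑ ψ : IrrCharacter G, n ψ * charDegree (ψ : G → ℂ) : ℕ) : ℂ) =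
        ((∑ ψ ∈ X, charDegree (ψ : G → ℂ) : ℕ) : ℂ) := by
      push_cast
      rw [Finset.sum_congr rfl (fun ψ _ => by rw [H82.Deg.coe_charDegree']), ← h2]
      exact (Finset.sum_congr rfl (fun ψ _ => by rw [H82.Deg.coe_charDegree'])).symm
    exact_mod_cast h3
  have h2 : ∀ ψ : IrrCharacter G, (if ψ ∈ X then charDegree (ψ : G → ℂ) else 0) ≤
      n ψ * charDegree (ψ : G → ℂ) := by
    intro ψ
    split_ifs with h
    · have h3 := hX ψ h
      rw [hn] at h3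
      have h4 : n ψ ≠ 0 := by exact_mod_cast h3
      exact Nat.le_mul_of_pos_left _ (Nat.pos_of_ne_zero h4)
    · exact Nat.zero_le _
  have h3 := (Finset.sum_eq_sum_iff_of_le (fun ψ _ => h2 ψ)).1 h1.symm
  have h4 : ∀ ψ : IrrCharacter G, n ψ = if ψ ∈ X then 1 else 0 := by
    intro ψ
    have h5 := h3 ψ (mem_univ _)
    have h6 := H82.Deg.charDegree_pos ψ
    split_ifs at h5 ⊢ with h
    · exact Nat.eq_of_mul_eq_mul_right h6 (by rw [one_mul]; exact h5.symm)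
    · exact (Nat.mul_eq_zero.1 h5.symm).resolve_right h6.ne'
  rw [hexp]
  have h5 : ∀ ψ : IrrCharacter G, (n ψ : ℂ) * (ψ : G → ℂ) g = if ψ ∈ X then (ψ : G → ℂ) g else 0 := by
    intro ψ
    rw [h4 ψ]
    split_ifs <;> simp
  rw [Finset.sum_congr rfl (fun ψ _ => h5 ψ), ← Finset.sum_filter, Finset.filter_mem_eq_inter,
    Finset.univ_inter]

/-- exponents for the Galois conjugates -/
theorem exists_exp {p : ℕ} [hp : Fact p.Prime] (hp2 : 2 < p) (hpG : p ∣ Nat.card G)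
    (hpp : ¬ p ^ 2 ∣ Nat.card G) :
    ∃ m : (ZMod p)ˣ → ℕ, (∀ j, (m j).Coprime (Nat.card G)) ∧ (∀ j, ((m j : ℕ) : ZMod p) = j) ∧
      (∀ j l (g : G), ¬ p ∣ orderOf g → g ^ m j = g ^ m l) ∧
      (∀ j (g : G), ¬ p ∣ orderOf g → Odd (orderOf g) → g ^ m j = g ^ 2) ∧
      (∀ j (g : G) (k : ℕ), orderOf g = 2 ^ k → g ^ m j = g) := by
  obtain ⟨a, M, hM, hN⟩ := Nat.exists_eq_two_pow_mul_odd (n := Nat.card G) Nat.card_pos.ne'
  have hpo : Odd p := hp.out.odd_of_ne_two (by omega)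
  have hp2a : Nat.Coprime p (2 ^ a) := by
    apply Nat.Coprime.pow_right
    exact (Nat.coprime_primes hp.out Nat.prime_two).2 (by omega)
  have hpM : p ∣ M := by
    rw [hN] at hpG
    exact hp2a.dvd_of_dvd_mul_left hpG
  obtain ⟨M', rfl⟩ := hpM
  have hM' : Odd M' := Nat.Odd.of_mul_right hM
  have hpM' : ¬ p ∣ M' := by
    rintro ⟨c, rfl⟩
    apply hpp
    rw [hN]
    exact ⟨2 ^ a * c, by ring⟩
  have hc1 : Nat.Coprime (2 ^ a) M' := Nat.Coprime.pow_left _ (Nat.coprime_two_left.2 hM')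
  have hc2 : Nat.Coprime (2 ^ a * M') p :=
    Nat.Coprime.mul_left hp2a.symm ((hp.out.coprime_iff_not_dvd).2 hpM').symm
  obtain ⟨m0, h01, h02⟩ := Nat.chineseRemainder hc1 1 2
  have hm : ∀ j : (ZMod p)ˣ, ∃ m : ℕ, m ≡ m0 [MOD (2 ^ a * M')] ∧ m ≡ (j : ZMod p).val [MOD p] :=
    fun j => ⟨_, (Nat.chineseRemainder hc2 m0 (j : ZMod p).val).2⟩
  choose m hm1 hm2 using hm
  have hma : ∀ j, m j ≡ 1 [MOD 2 ^ a] := fun j => ((hm1 j).of_mul_right _).trans h01
  have hmM : ∀ j, m j ≡ 2 [MOD M'] := fun j => ((hm1 j).of_mul_left _).trans h02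
  have hmp : ∀ j, ((m j : ℕ) : ZMod p) = j := by
    intro j
    have h1 := (ZMod.natCast_eq_natCast_iff _ _ _).2 (hm2 j)
    rw [h1, ZMod.natCast_zmod_val]
  refine ⟨m, ?_, hmp, ?_, ?_, ?_⟩
  · intro j
    rw [hN]
    refine Nat.Coprime.mul_right ?_ (Nat.Coprime.mul_right ?_ ?_)
    · rw [Nat.Coprime, (hma j).gcd_eq, Nat.gcd_one_left]
    · rw [Nat.coprime_comm, hp.out.coprime_iff_not_dvd, ← ZMod.natCast_eq_zero_iff, hmp]
      exact j.ne_zero
    · rw [Nat.Coprime, (hmM j).gcd_eq]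
      exact Nat.coprime_two_left.2 hM'
  · intro j l g hg
    rw [pow_eq_pow_iff_modEq]
    have h1 : orderOf g ∣ 2 ^ a * M' := by
      have h2 := orderOf_dvd_natCard g
      rw [hN] at h2
      have h3 : Nat.Coprime (orderOf g) p := ((hp.out.coprime_iff_not_dvd).2 hg).symm
      apply h3.dvd_of_dvd_mul_left
      rwa [show p * (2 ^ a * M') = 2 ^ a * (p * M') by ring]
    exact ((hm1 j).trans (hm1 l).symm).of_dvd h1
  · intro j g hg hgo
    rw [pow_eq_pow_iff_modEq]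
    have h1 : orderOf g ∣ M' := by
      have h2 := orderOf_dvd_natCard g
      rw [hN] at h2
      have h3 : Nat.Coprime (orderOf g) p := ((hp.out.coprime_iff_not_dvd).2 hg).symm
      have h4 : Nat.Coprime (orderOf g) (2 ^ a) := (Nat.coprime_two_right.2 hgo).pow_right _
      exact h3.dvd_of_dvd_mul_left (h4.dvd_of_dvd_mul_left h2)
    exact (hmM j).of_dvd h1
  · intro j g k hg
    conv_rhs => rw [← pow_one g]
    rw [pow_eq_pow_iff_modEq]
    have h1 : orderOf g ∣ 2 ^ a := by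
      have h2 := orderOf_dvd_natCard g
      rw [hN] at h2
      have h4 : Nat.Coprime (orderOf g) (p * M') := by
        rw [hg]; exact Nat.Coprime.pow_left _ (Nat.coprime_two_left.2 hM)
      exact h4.dvd_of_dvd_mul_right h2
    exact (hma j).of_dvd h1

end gen

section perf

variable {p : ℕ} [hp : Fact p.Prime] {G : Type*} [Group G] [Fintype G]

/-- the data -/
structure Sd (D : Dat p G) (χ : IrrCharacter G) (θ : D.W →* ℂˣ) (b0 : (ZMod p)ˣ)
    (m : (ZMod p)ˣ → ℕ) : Prop extends Su D χ where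
  hE : Nat.card (KK D).range = 2
  hval : ∀ (i : ZMod p) (w : D.W), (χ : G → ℂ) (D.σ ^ i.val * w) =
    ((if i = 0 then (p : ℂ) else 0) - cc ((b0 : ZMod p) * i)) * θ w
  m1 : ∀ j, (m j).Coprime (Nat.card G)
  m2 : ∀ j, ((m j : ℕ) : ZMod p) = j
  m3 : ∀ j l (g : G), ¬ p ∣ orderOf g → g ^ m j = g ^ m l
  m4 : ∀ j (g : G), ¬ p ∣ orderOf g → Odd (orderOf g) → g ^ m j = g ^ 2
  m5 : ∀ j (g : G) (k : ℕ), orderOf g = 2 ^ k → g ^ m j = g

variable {D : Dat p G} {χ : IrrCharacter G} [Fintype D.W]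

theorem Su.exists_Sd (h : Su D χ) : ∃ (θ : D.W →* ℂˣ) (b0 : (ZMod p)ˣ) (m : (ZMod p)ˣ → ℕ),
    Sd D χ θ b0 m := by
  obtain ⟨hE, θ, b0, h1⟩ := h.small
  have hpG : p ∣ Nat.card G := by
    have := orderOf_dvd_natCard D.σ
    rwa [D.hσ] at this
  obtain ⟨m, m1, m2, m3, m4, m5⟩ := exists_exp (G := G) (by have := h.h5; omega) hpG h.hp2
  exact ⟨θ, b0, m, { h with hE := hE, hval := h1, m1 := m1, m2 := m2, m3 := m3, m4 := m4, m5 := m5 }⟩

variable {θ : D.W →* ℂˣ} {b0 : (ZMod p)ˣ} {m : (ZMod p)ˣ → ℕ}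

/-- the Galois conjugates -/
noncomputable def Sd.cj (h : Sd D χ θ b0 m) (j : (ZMod p)ˣ) : IrrCharacter G :=
  H78.Galois.powIrr (h.m1 j) χ

theorem Sd.cj_apply (h : Sd D χ θ b0 m) (j : (ZMod p)ˣ) (g : G) :
    (h.cj j : G → ℂ) g = (χ : G → ℂ) (g ^ m j) := rfl

theorem Sd.odd_W (h : Sd D χ θ b0 m) (w : D.W) : Odd (orderOf (w : G)) :=
  h.odd (h.W_le w.2)

theorem Sd.cj_val (h : Sd D χ θ b0 m) (j : (ZMod p)ˣ) (i : ZMod p) (w : D.W) :
    (h.cj j : G → ℂ) (D.σ ^ i.val * w) =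
      ((if i = 0 then (p : ℂ) else 0) - cc ((b0 : ZMod p) * (j : ZMod p) * i)) * (θ w : ℂ) ^ 2 := by
  rw [h.cj_apply, ((comm_pow D i w).symm).mul_pow, h.m4 j _ (not_dvd_of_mem_W D w.2) (h.odd_W w)]
  have h1 : (D.σ ^ i.val) ^ m j = D.σ ^ ((j : ZMod p) * i).val := by
    rw [← pow_mul, pow_eq_pow_iff_modEq, D.hσ, ← ZMod.natCast_eq_natCast_iff, ZMod.natCast_zmod_val,
      Nat.cast_mul, ZMod.natCast_zmod_val, h.m2, mul_comm]
  have h2 : ((w : G)) ^ 2 = ((w ^ 2 : D.W) : G) := rfl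
  rw [h1, h2, h.hval, map_pow, ← mul_assoc]
  have h3 : ((j : ZMod p) * i = 0) ↔ i = 0 := by
    constructor
    · intro h4; exact (mul_eq_zero.1 h4).resolve_left j.ne_zero
    · rintro rfl; rw [mul_zero]
  simp only [h3, Units.val_pow_eq_pow_val]

theorem Sd.norm_θ (w : D.W) : (θ w : ℂ) * conj (θ w : ℂ) = 1 := by
  rw [Complex.mul_conj, Complex.normSq_eq_norm_sq, hom_norm_one, one_pow, Complex.ofReal_one]

theorem Sd.inner_diff (h : Sd D χ θ b0 m) {F : G → ℂ} (hF : IsClassFunction G F)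
    {f : ZMod p → ℂ} (hf : ∀ i, i ≠ 0 → ∀ w : D.W, F (D.σ ^ i.val * w) = f i * (θ w : ℂ) ^ 2)
    (j l : (ZMod p)ˣ) :
    2 * (p : ℂ) * (classInner F (h.cj j : G → ℂ) - classInner F (h.cj l : G → ℂ)) =
      ∑ i ∈ (univ : Finset (ZMod p)).erase 0,
        f i * (cc ((b0 : ZMod p) * (l : ZMod p) * i) - cc ((b0 : ZMod p) * (j : ZMod p) * i)) := by
  classical
  have hG0 : (Nat.card G : ℂ) ≠ 0 := by exact_mod_cast Nat.card_pos.ne'
  set F' : G → ℂ := fun g => F g * (conj ((h.cj j : G → ℂ) g) - conj ((h.cj l : G → ℂ) g)) with hF'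
  have hcl : IsClassFunction G F' := by
    intro x y
    simp only [hF']
    rw [hF x y, isClassFunction_of_isIrr (h.cj j).2 x y, isClassFunction_of_isIrr (h.cj l).2 x y]
  have h1 := psum D h.hp2 hcl (f := fun i =>
    f i * (cc ((b0 : ZMod p) * (l : ZMod p) * i) - cc ((b0 : ZMod p) * (j : ZMod p) * i))) (by
      intro i hi w
      simp only [hF']
      rw [hf i hi w, h.cj_val, h.cj_val, if_neg hi, zero_sub, zero_sub, map_mul, map_mul, map_neg,
        map_neg, conj_cc, conj_cc, map_pow]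
      linear_combination (f i * (cc ((b0 : ZMod p) * (l : ZMod p) * i) - cc ((b0 : ZMod p) * (j : ZMod p) * i))) *
        ((θ w : ℂ) * conj (θ w : ℂ) + 1) * Sd.norm_θ w)
  have h2 : ∑ g ∈ (univ : Finset G).filter (fun g => p ∣ orderOf g), F' g = ∑ g : G, F' g := by
    rw [Finset.sum_filter]
    refine Finset.sum_congr rfl fun g _ => ?_
    split_ifs with hg
    · rfl
    · simp only [hF']
      rw [h.cj_apply, h.cj_apply, h.m3 j l g hg, sub_self, mul_zero]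
  have h3 : ∑ g : G, F' g = (Nat.card G : ℂ) *
      (classInner F (h.cj j : G → ℂ) - classInner F (h.cj l : G → ℂ)) := by
    rw [classInner, classInner, ← mul_sub, ← mul_assoc, mul_inv_cancel₀ hG0, one_mul,
      ← Finset.sum_sub_distrib]
    refine Finset.sum_congr rfl fun g _ => ?_
    simp only [hF']
    ring
  rw [h2, h3, h.hE] at h1
  apply mul_left_cancel₀ hG0
  rw [← h1]
  push_cast
  ring

theorem Sd.sq_val (h : Sd D χ θ b0 m) {i : ZMod p} (hi : i ≠ 0) (w : D.W) :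
    (χ : G → ℂ) ((D.σ ^ i.val * w) * (D.σ ^ i.val * w)) =
      (-cc ((b0 : ZMod p) * 2 * i)) * (θ w : ℂ) ^ 2 := by
  have h5 := h.h5
  have hc := (comm_pow D i w).eq
  have h0 : (D.σ ^ i.val * w) * (D.σ ^ i.val * w) =
      (D.σ ^ i.val * D.σ ^ i.val) * ((w : G) * (w : G)) := by
    calc (D.σ ^ i.val * w) * (D.σ ^ i.val * w) = D.σ ^ i.val * (w * D.σ ^ i.val) * w := by group
      _ = _ := by rw [hc]; group
  have h1 : D.σ ^ i.val * D.σ ^ i.val = D.σ ^ (2 * i).val := by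
    rw [← pow_add, pow_eq_pow_iff_modEq, D.hσ, ← ZMod.natCast_eq_natCast_iff, ZMod.natCast_zmod_val,
      Nat.cast_add, ZMod.natCast_zmod_val, two_mul]
  have h2 : ((w : G)) * w = ((w * w : D.W) : G) := rfl
  have h3 : (2 : ZMod p) * i ≠ 0 := mul_ne_zero (two_ne (by omega)) hi
  rw [h0, h1, h2, h.hval, if_neg h3, zero_sub, map_mul, Units.val_mul, ← mul_assoc, pow_two]
  ring_nf

theorem Sd.val_ne (h : Sd D χ θ b0 m) {i : ZMod p} (hi : i ≠ 0) (w : D.W) :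
    (χ : G → ℂ) (D.σ ^ i.val * w) = (-cc ((b0 : ZMod p) * i)) * (θ w : ℂ) := by
  rw [h.hval, if_neg hi, zero_sub]

theorem Sd.ne_zero (j : (ZMod p)ˣ) : (b0 : ZMod p) * (j : ZMod p) ≠ 0 := mul_ne_zero b0.ne_zero j.ne_zero

open Classical in
/-- multiplicities in the Galois conjugates -/
theorem Sd.diff_self (h : Sd D χ θ b0 m) (k j l : (ZMod p)ˣ) :
    classInner (h.cj k : G → ℂ) (h.cj j : G → ℂ) - classInner (h.cj k : G → ℂ) (h.cj l : G → ℂ) =
      (if k = j ∨ k = -j then 1 else 0) - (if k = l ∨ k = -l then 1 else 0) := by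
  have h5 := h.h5
  have hp0 : (p : ℂ) ≠ 0 := by exact_mod_cast hp.out.ne_zero
  have h1 := h.inner_diff (isClassFunction_of_isIrr (h.cj k).2)
    (f := fun i => -cc ((b0 : ZMod p) * (k : ZMod p) * i)) (by
      intro i hi w
      rw [h.cj_val, if_neg hi, zero_sub]) j l
  have h2 : ∀ i : ZMod p, -cc ((b0 : ZMod p) * (k : ZMod p) * i) *
      (cc ((b0 : ZMod p) * (l : ZMod p) * i) - cc ((b0 : ZMod p) * (j : ZMod p) * i)) =
      cc ((b0 : ZMod p) * (k : ZMod p) * i) * cc ((b0 : ZMod p) * (j : ZMod p) * i) -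
      cc ((b0 : ZMod p) * (k : ZMod p) * i) * cc ((b0 : ZMod p) * (l : ZMod p) * i) := by
    intro i; ring
  have h3 : ∀ x y : (ZMod p)ˣ, ((b0 : ZMod p) * (x : ZMod p) = (b0 : ZMod p) * (y : ZMod p) ∨
      (b0 : ZMod p) * (x : ZMod p) = -((b0 : ZMod p) * (y : ZMod p))) ↔ (x = y ∨ x = -y) := by
    intro x y
    rw [← mul_neg, mul_right_inj' b0.ne_zero, mul_right_inj' b0.ne_zero, ← Units.val_neg,
      Units.ext_iff, Units.ext_iff]
  rw [Finset.sum_congr rfl (fun i _ => h2 i), Finset.sum_sub_distrib,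
    sum_cc_mul (by omega) (Sd.ne_zero k), sum_cc_mul (by omega) (Sd.ne_zero k)] at h1
  simp only [h3] at h1
  have h4 : (2 * (p : ℂ)) ≠ 0 := mul_ne_zero two_ne_zero hp0
  apply mul_left_cancel₀ h4
  rw [h1]
  split_ifs <;> ring

theorem Sd.cj_ne (h : Sd D χ θ b0 m) {k j : (ZMod p)ˣ} (h1 : k ≠ j) (h2 : k ≠ -j) :
    h.cj k ≠ h.cj j := by
  classical
  intro h3
  have h4 := h.diff_self k k j
  rw [h3, sub_self, if_pos (Or.inl rfl), if_neg (by tauto)] at h4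
  norm_num at h4

/-- the alternating square -/
noncomputable def AA (χ : G → ℂ) : G → ℂ := fun g => (χ g ^ 2 - χ (g * g)) / 2

/-- the symmetric square -/
noncomputable def SS (χ : G → ℂ) : G → ℂ := fun g => (χ g ^ 2 + χ (g * g)) / 2

theorem Sd.AA_val (h : Sd D χ θ b0 m) {i : ZMod p} (hi : i ≠ 0) (w : D.W) :
    AA (χ : G → ℂ) (D.σ ^ i.val * w) = (1 + cc ((b0 : ZMod p) * 2 * i)) * (θ w : ℂ) ^ 2 := by
  have h1 : cc ((b0 : ZMod p) * i) * cc ((b0 : ZMod p) * i) = cc ((b0 : ZMod p) * 2 * i) + 2 := by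
    rw [cc_mul, sub_self, cc_zero]; congr 2; ring
  rw [AA, h.sq_val hi, h.val_ne hi]
  linear_combination ((θ w : ℂ) ^ 2 / 2) * h1

theorem Sd.SS_val (h : Sd D χ θ b0 m) {i : ZMod p} (hi : i ≠ 0) (w : D.W) :
    SS (χ : G → ℂ) (D.σ ^ i.val * w) = 1 * (θ w : ℂ) ^ 2 := by
  have h1 : cc ((b0 : ZMod p) * i) * cc ((b0 : ZMod p) * i) = cc ((b0 : ZMod p) * 2 * i) + 2 := by
    rw [cc_mul, sub_self, cc_zero]; congr 2; ring
  rw [SS, h.sq_val hi, h.val_ne hi]
  linear_combination ((θ w : ℂ) ^ 2 / 2) * h1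

theorem Sd.diff_SS (h : Sd D χ θ b0 m) (j l : (ZMod p)ˣ) :
    classInner (SS (χ : G → ℂ)) (h.cj j : G → ℂ) = classInner (SS (χ : G → ℂ)) (h.cj l : G → ℂ) := by
  have hp0 : (p : ℂ) ≠ 0 := by exact_mod_cast hp.out.ne_zero
  have h1 := h.inner_diff (isClassFunction_of_isCharacter (H59.SymAlt.isCharacter_sym
    (isCharacter_of_isIrr χ.2))) (f := fun _ => 1) (fun i hi w => h.SS_val hi w) j l
  simp only [one_mul] at h1
  rw [Finset.sum_sub_distrib, sum_cc (Sd.ne_zero l), sum_cc (Sd.ne_zero j), sub_self] at h1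
  have h4 : (2 * (p : ℂ)) ≠ 0 := mul_ne_zero two_ne_zero hp0
  exact sub_eq_zero.1 ((mul_eq_zero.1 h1).resolve_left h4)

open Classical in
theorem Sd.diff_AA (h : Sd D χ θ b0 m) {t : (ZMod p)ˣ} (ht : (t : ZMod p) = 2) (j l : (ZMod p)ˣ) :
    classInner (AA (χ : G → ℂ)) (h.cj j : G → ℂ) - classInner (AA (χ : G → ℂ)) (h.cj l : G → ℂ) =
      (if t = l ∨ t = -l then 1 else 0) - (if t = j ∨ t = -j then 1 else 0) := by
  have h5 := h.h5
  have hp0 : (p : ℂ) ≠ 0 := by exact_mod_cast hp.out.ne_zero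
  have h1 := h.inner_diff (isClassFunction_of_isCharacter (H59.SymAlt.isCharacter_alt
    (isCharacter_of_isIrr χ.2))) (f := fun i => 1 + cc ((b0 : ZMod p) * 2 * i))
    (fun i hi w => h.AA_val hi w) j l
  have h2 : ∀ i : ZMod p, (1 + cc ((b0 : ZMod p) * 2 * i)) *
      (cc ((b0 : ZMod p) * (l : ZMod p) * i) - cc ((b0 : ZMod p) * (j : ZMod p) * i)) =
      (cc ((b0 : ZMod p) * (l : ZMod p) * i) - cc ((b0 : ZMod p) * (j : ZMod p) * i)) +
      (cc ((b0 : ZMod p) * (t : ZMod p) * i) * cc ((b0 : ZMod p) * (l : ZMod p) * i) -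
      cc ((b0 : ZMod p) * (t : ZMod p) * i) * cc ((b0 : ZMod p) * (j : ZMod p) * i)) := by
    intro i; rw [ht]; ring
  have h3 : ∀ x y : (ZMod p)ˣ, ((b0 : ZMod p) * (x : ZMod p) = (b0 : ZMod p) * (y : ZMod p) ∨
      (b0 : ZMod p) * (x : ZMod p) = -((b0 : ZMod p) * (y : ZMod p))) ↔ (x = y ∨ x = -y) := by
    intro x y
    rw [← mul_neg, mul_right_inj' b0.ne_zero, mul_right_inj' b0.ne_zero, ← Units.val_neg,
      Units.ext_iff, Units.ext_iff]
  rw [Finset.sum_congr rfl (fun i _ => h2 i), Finset.sum_add_distrib, Finset.sum_sub_distrib,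
    Finset.sum_sub_distrib, sum_cc (Sd.ne_zero l), sum_cc (Sd.ne_zero j), sub_self, zero_add,
    sum_cc_mul (by omega) (Sd.ne_zero t), sum_cc_mul (by omega) (Sd.ne_zero t)] at h1
  simp only [h3] at h1
  have h4 : (2 * (p : ℂ)) ≠ 0 := mul_ne_zero two_ne_zero hp0
  apply mul_left_cancel₀ h4
  refine h1.trans ?_
  split_ifs <;> ring

/-- units from natural numbers -/
noncomputable def UU (p : ℕ) [hp : Fact p.Prime] (n : ℕ) : (ZMod p)ˣ := by
  classical
  exact if h : (n : ZMod p) ≠ 0 then Units.mk0 (n : ZMod p) h else 1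

theorem UU_val {n : ℕ} (h0 : 0 < n) (h1 : n < p) : ((UU p n : (ZMod p)ˣ) : ZMod p) = n := by
  have h : (n : ZMod p) ≠ 0 := by
    rw [Ne, ZMod.natCast_eq_zero_iff]
    exact fun h2 => absurd (Nat.le_of_dvd h0 h2) (by omega)
  rw [UU, dif_pos h, Units.val_mk0]

theorem UU_inj {k n : ℕ} (hk : k ∈ Icc 1 ((p - 1) / 2)) (hn : n ∈ Icc 1 ((p - 1) / 2)) (hkn : k ≠ n) :
    UU p k ≠ UU p n ∧ UU p k ≠ -UU p n := by
  have hp1 := hp.out.one_lt
  rw [mem_Icc] at hk hn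
  constructor
  · intro h
    apply hkn
    have h1 := congrArg Units.val h
    rw [UU_val (by omega) (by omega), UU_val (by omega) (by omega), ZMod.natCast_eq_natCast_iff] at h1
    exact Nat.ModEq.eq_of_lt_of_lt h1 (by omega) (by omega)
  · intro h
    have h1 := congrArg Units.val h
    rw [Units.val_neg, UU_val (by omega) (by omega), UU_val (by omega) (by omega)] at h1
    have h2 : ((k + n : ℕ) : ZMod p) = 0 := by push_cast; rw [h1]; ring
    rw [ZMod.natCast_eq_zero_iff] at h2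
    exact absurd (Nat.le_of_dvd (by omega) h2) (by omega)

theorem Sd.cj_UU_inj (h : Sd D χ θ b0 m) {k n : ℕ} (hk : k ∈ Icc 1 ((p - 1) / 2))
    (hn : n ∈ Icc 1 ((p - 1) / 2)) (he : h.cj (UU p k) = h.cj (UU p n)) : k = n := by
  by_contra hkn
  obtain ⟨h1, h2⟩ := UU_inj hk hn hkn
  exact h.cj_ne h1 h2 he

theorem Sd.cj_one (h : Sd D χ θ b0 m) (j : (ZMod p)ˣ) : (h.cj j : G → ℂ) 1 = p - 2 := by
  rw [h.cj_apply, one_pow, h.one]

theorem Sd.half (h : Sd D χ θ b0 m) : (((p - 1) / 2 : ℕ) : ℂ) = ((p : ℂ) - 1) / 2 := by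
  have h5 := h.h5
  obtain ⟨q, hq⟩ := hp.out.odd_of_ne_two (by omega)
  have h1 : (p - 1) / 2 = q := by omega
  rw [h1]
  have h2 : (p : ℂ) = 2 * q + 1 := by exact_mod_cast hq
  rw [h2]
  ring

/-- the alternating square -/
theorem Sd.AA_eq (h : Sd D χ θ b0 m) (g : G) :
    AA (χ : G → ℂ) g = ∑ n ∈ (Icc 1 ((p - 1) / 2)).erase 2, (h.cj (UU p n) : G → ℂ) g := by
  classical
  have h5 := h.h5
  have h2J : 2 ∈ Icc 1 ((p - 1) / 2) := by rw [mem_Icc]; omega
  have ht : ((UU p 2 : (ZMod p)ˣ) : ZMod p) = 2 := by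
    rw [UU_val (by omega) (by omega)]; norm_num
  have hA : IsCharacter G (AA (χ : G → ℂ)) := H59.SymAlt.isCharacter_alt (isCharacter_of_isIrr χ.2)
  have hinj : Set.InjOn (fun n => h.cj (UU p n)) ((Icc 1 ((p - 1) / 2)).erase 2 : Finset ℕ) := by
    intro k hk n hn hkn
    exact h.cj_UU_inj (mem_of_mem_erase hk) (mem_of_mem_erase hn) hkn
  have h1 := eq_sum_of_degree hA (((Icc 1 ((p - 1) / 2)).erase 2).image (fun n => h.cj (UU p n))) (by
    intro ψ hψ
    obtain ⟨n, hn, rfl⟩ := mem_image.1 hψ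
    have h3 := h.diff_AA ht (UU p n) (UU p 2)
    obtain ⟨k, hk⟩ := inner_char_natCast hA (isCharacter_of_isIrr (h.cj (UU p 2)).2)
    obtain ⟨h6, h7⟩ := UU_inj h2J (mem_of_mem_erase hn) (ne_of_mem_erase hn).symm
    rw [if_pos (Or.inl rfl), if_neg (by tauto), sub_zero, hk, sub_eq_iff_eq_add] at h3
    rw [h3]
    have h8 : ((1 + k : ℕ) : ℂ) ≠ 0 := by exact_mod_cast (by omega : 1 + k ≠ 0)
    push_cast at h8
    exact h8) (by
    rw [Finset.sum_image hinj, Finset.sum_congr rfl (fun n _ => h.cj_one _), Finset.sum_const,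
      card_erase_of_mem h2J, Nat.card_Icc, nsmul_eq_mul, AA, one_mul, h.one]
    have h9 : (((p - 1) / 2 + 1 - 1 - 1 : ℕ) : ℂ) = (((p - 1) / 2 : ℕ) : ℂ) - 1 := by
      rw [Nat.add_sub_cancel, Nat.cast_sub (by omega), Nat.cast_one]
    rw [h9, h.half]
    ring) g
  rw [h1, Finset.sum_image hinj]

theorem Sd.reg (h : Sd D χ θ b0 m) {g : G} (hg : ¬ p ∣ orderOf g) :
    (χ : G → ℂ) g ^ 2 - (χ : G → ℂ) (g * g) = ((p : ℂ) - 3) * (χ : G → ℂ) (g ^ m (UU p 2)) := by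
  have h5 := h.h5
  have h2J : 2 ∈ Icc 1 ((p - 1) / 2) := by rw [mem_Icc]; omega
  have h1 := h.AA_eq g
  have h2 : ∀ n ∈ (Icc 1 ((p - 1) / 2)).erase 2, (h.cj (UU p n) : G → ℂ) g =
      (χ : G → ℂ) (g ^ m (UU p 2)) := by
    intro n _
    rw [h.cj_apply, h.m3 _ (UU p 2) g hg]
  rw [Finset.sum_congr rfl h2, Finset.sum_const, card_erase_of_mem h2J, Nat.card_Icc,
    nsmul_eq_mul, AA] at h1
  have h9 : (((p - 1) / 2 + 1 - 1 - 1 : ℕ) : ℂ) = (((p - 1) / 2 : ℕ) : ℂ) - 1 := by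
    rw [Nat.add_sub_cancel, Nat.cast_sub (by omega), Nat.cast_one]
  rw [h9, h.half] at h1
  linear_combination 2 * h1

theorem Sd.inner_AA (h : Sd D χ θ b0 m) :
    classInner (AA (χ : G → ℂ)) (h.cj (UU p 2) : G → ℂ) = 0 := by
  classical
  have h5 := h.h5
  have h2J : 2 ∈ Icc 1 ((p - 1) / 2) := by rw [mem_Icc]; omega
  have h1 : AA (χ : G → ℂ) = ∑ n ∈ (Icc 1 ((p - 1) / 2)).erase 2, (h.cj (UU p n) : G → ℂ) := by
    ext g
    rw [h.AA_eq g, Finset.sum_apply]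
  rw [h1, inner_sum_left]
  refine Finset.sum_eq_zero fun n hn => ?_
  refine inner_irr_ne (h.cj _).2 (h.cj _).2 fun he => ?_
  exact ne_of_mem_erase hn (h.cj_UU_inj (mem_of_mem_erase hn) h2J (Subtype.ext he))

/-- the values on the involutions -/
theorem Sd.inv (h : Sd D χ θ b0 m) {s : G} (hs : orderOf s = 2) : (χ : G → ℂ) s = -1 := by
  have h5 := h.h5
  have h1 : ¬ p ∣ orderOf s := by
    rw [hs]; exact fun h1 => absurd (Nat.le_of_dvd (by norm_num) h1) (by omega)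
  have h2 := h.reg h1
  have h3 : s * s = 1 := by
    rw [← pow_two, ← hs, pow_orderOf_eq_one]
  rw [h.m5 _ s 1 (by rw [hs, pow_one]), h3, h.one] at h2
  have h4 : ((χ : G → ℂ) s - ((p : ℂ) - 2)) * ((χ : G → ℂ) s + 1) = 0 := by linear_combination h2
  rcases mul_eq_zero.1 h4 with h4 | h4
  · exfalso
    have h6 := h.hf s (by rw [h.one]; exact sub_eq_zero.1 h4)
    rw [h6, orderOf_one] at hs
    norm_num at hs
  · exact eq_neg_of_add_eq_zero_left h4

theorem Sd.exists_inv (h : Sd D χ θ b0 m) : ∃ s : G, orderOf s = 2 := by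
  have h1 : 2 ∣ Nat.card G := by
    have h2 := Subgroup.card_subgroup_dvd_card D.N₀
    rw [card_N₀, h.hE] at h2
    exact (dvd_mul_right _ _).trans h2
  exact exists_prime_orderOf_dvd_card' 2 h1

theorem Sd.inner_SS (h : Sd D χ θ b0 m) :
    classInner (SS (χ : G → ℂ)) (h.cj (UU p 2) : G → ℂ) = 0 := by
  classical
  have h5 := h.h5
  by_contra hne
  have hA : IsCharacter G (SS (χ : G → ℂ)) := H59.SymAlt.isCharacter_sym (isCharacter_of_isIrr χ.2)
  have hinj : Set.InjOn (fun n => h.cj (UU p n)) (Icc 1 ((p - 1) / 2) : Finset ℕ) := by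
    intro k hk n hn hkn
    exact h.cj_UU_inj hk hn hkn
  obtain ⟨s, hs⟩ := h.exists_inv
  have h1 := eq_sum_of_degree hA ((Icc 1 ((p - 1) / 2)).image (fun n => h.cj (UU p n))) (by
    intro ψ hψ
    obtain ⟨n, hn, rfl⟩ := mem_image.1 hψ
    rw [h.diff_SS (UU p n) (UU p 2)]
    exact hne) (by
    rw [Finset.sum_image hinj, Finset.sum_congr rfl (fun n _ => h.cj_one _), Finset.sum_const,
      Nat.card_Icc, nsmul_eq_mul, SS, one_mul, h.one, Nat.add_sub_cancel, h.half]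
    ring) s
  have h3 : s * s = 1 := by
    rw [← pow_two, ← hs, pow_orderOf_eq_one]
  have h4 : ∀ n ∈ Icc 1 ((p - 1) / 2), (h.cj (UU p n) : G → ℂ) s = -1 := by
    intro n _
    rw [h.cj_apply, h.m5 _ s 1 (by rw [hs, pow_one]), h.inv hs]
  rw [Finset.sum_image hinj, Finset.sum_congr rfl h4, Finset.sum_const, Nat.card_Icc, nsmul_eq_mul,
    SS, h3, h.one, h.inv hs, Nat.add_sub_cancel, h.half] at h1
  have h6 : (p : ℂ) = 1 := by linear_combination h1
  have h7 : p = 1 := by exact_mod_cast h6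
  omega

theorem Sd.inner_sq (h : Sd D χ θ b0 m) :
    ∑ g : G, (χ : G → ℂ) g ^ 2 * conj ((h.cj (UU p 2) : G → ℂ) g) = 0 := by
  have hG0 : (Nat.card G : ℂ) ≠ 0 := by exact_mod_cast Nat.card_pos.ne'
  have h1 : classInner (AA (χ : G → ℂ) + SS (χ : G → ℂ)) (h.cj (UU p 2) : G → ℂ) = 0 := by
    rw [H18.CharOrtho.inner_add_left, h.inner_AA, h.inner_SS, add_zero]
  rw [classInner, mul_eq_zero] at h1
  have h2 := h1.resolve_left (inv_ne_zero hG0)
  rw [← h2]
  refine Finset.sum_congr rfl fun g _ => ?_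
  rw [Pi.add_apply, AA, SS]
  ring

end perf

end H21.FD
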