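import Cfsg.Agent.Lib.H21.FD6

/-!
Perfect groups with a faithful irreducible character of degree `p - 2`: the values of the
character and the order of the group.
-/

set_option autoImplicit false
set_option linter.unusedSectionVars false

namespace H21.FD

open Finset Cfsg H18.CharBasic H18.CharOrtho H18.CharInd H67.Lat H67.DefOne H77.Cong
open scoped ComplexConjugate

section tools

variable {G : Type*} [Group G] [Finite G]

theorem exists_pow_two_pow {g : G} (hg : Odd (orderOf g)) : ∃ k, 0 < k ∧ g ^ 2 ^ k = g := by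
  have h1 : Nat.Coprime 2 (orderOf g) := Nat.coprime_two_left.2 hg
  refine ⟨(orderOf g).totient, Nat.totient_pos.2 (orderOf_pos g), ?_⟩
  conv_rhs => rw [← pow_one g]
  rw [pow_eq_pow_iff_modEq]
  exact Nat.ModEq.pow_totient h1

/-- iteration of `x_k ^ 2 = c * x_{k+1}` -/
theorem iter_norm {x : ℕ → ℂ} {c : ℝ} (hc : 0 < c) (hx : ∀ k, x k ^ 2 = c * x (k + 1)) {k : ℕ}
    (hk : 0 < k) (hper : x k = x 0) : x 0 = 0 ∨ ‖x 0‖ = c := by
  have h1 : ∀ n, ‖x n‖ / c = (‖x 0‖ / c) ^ 2 ^ n := by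
    intro n
    induction n with
    | zero => rw [pow_zero, pow_one]
    | succ n ih =>
      rw [pow_succ, pow_mul, ← ih]
      have h2 := congrArg norm (hx n)
      rw [norm_pow, norm_mul, Complex.norm_real, Real.norm_of_nonneg hc.le] at h2
      field_simp
      linarith
  have h2 := h1 k
  rw [hper] at h2
  set y := ‖x 0‖ / c with hy
  have hy0 : 0 ≤ y := by positivity
  by_cases h3 : y = 0
  · left
    rw [hy, div_eq_zero_iff] at h3
    exact norm_eq_zero.1 (h3.resolve_right hc.ne')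
  · right
    have h4 : 1 < 2 ^ k := Nat.one_lt_two_pow hk.ne'
    have h5 : y ^ (2 ^ k - 1) = 1 := by
      have h6 : y ^ (2 ^ k - 1) * y = 1 * y := by
        rw [← pow_succ, one_mul, Nat.sub_add_cancel h4.le, ← h2]
      exact mul_right_cancel₀ h3 h6
    have h6 := (pow_eq_one_iff_of_nonneg hy0 (by omega)).1 h5
    rw [hy, div_eq_one_iff_eq hc.ne'] at h6
    exact h6

theorem exists_eig {χ : G → ℂ} (hχ : IsCharacter G χ) (g : G) :
    ∃ S : Multiset ℂ, (∀ a ∈ S, a ^ orderOf g = 1) ∧ ∀ n : ℕ, χ (g ^ n) = (S.map (fun a => a ^ n)).sum := by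
  obtain ⟨s, hs⟩ := exists_eigen hχ g
  refine ⟨s.map (fun f => (f ⟨g, Subgroup.mem_zpowers g⟩ : ℂ)), ?_, ?_⟩
  · intro a ha
    obtain ⟨f, _, rfl⟩ := Multiset.mem_map.1 ha
    rw [← Units.val_pow_eq_pow_val, ← map_pow]
    have h1 : (⟨g, Subgroup.mem_zpowers g⟩ : Subgroup.zpowers g) ^ orderOf g = 1 :=
      Subtype.ext (pow_orderOf_eq_one g)
    rw [h1, map_one, Units.val_one]
  · intro n
    have h1 := hs (⟨g, Subgroup.mem_zpowers g⟩ ^ n)
    rw [Multiset.map_map]
    refine h1.trans ?_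
    congr 1
    refine Multiset.map_congr rfl fun f _ => ?_
    rw [map_pow, Units.val_pow_eq_pow_val]
    rfl

theorem multiset_mul (S : Multiset ℂ) (F : ℂ → ℂ) {c : ℂ} (h : ∀ a ∈ S, F a = 0 ∨ F a = c) :
    ∃ k : ℕ, (S.map F).sum = c * k := by
  induction S using Multiset.induction_on with
  | empty => exact ⟨0, by simp⟩
  | cons a S ih =>
    obtain ⟨k, hk⟩ := ih (fun b hb => h b (Multiset.mem_cons_of_mem hb))
    rw [Multiset.map_cons, Multiset.sum_cons, hk]
    rcases h a (Multiset.mem_cons_self a S) with h1 | h1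
    · exact ⟨k, by rw [h1, zero_add]⟩
    · exact ⟨k + 1, by rw [h1]; push_cast; ring⟩

theorem multiset_re (S : Multiset ℂ) (F : ℂ → ℂ) (h : ∀ a ∈ S, 0 ≤ (F a).re) :
    0 ≤ ((S.map F).sum).re := by
  induction S using Multiset.induction_on with
  | empty => simp
  | cons a S ih =>
    have h1 := ih (fun b hb => h b (Multiset.mem_cons_of_mem hb))
    have h2 := h a (Multiset.mem_cons_self a S)
    rw [Multiset.map_cons, Multiset.sum_cons, Complex.add_re]
    exact add_nonneg h2 h1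

/-- splitting off the `2`-part -/
theorem exists_split (g : G) : ∃ (s u : G) (j : ℕ), g = s * u ∧ Commute s u ∧ orderOf s = 2 ^ j ∧
    Odd (orderOf u) ∧ orderOf s ∣ orderOf g ∧ orderOf u ∣ orderOf g := by
  obtain ⟨k, r, hr, hg⟩ := Nat.exists_eq_two_pow_mul_odd (n := orderOf g) (orderOf_pos g).ne'
  have hc : Nat.Coprime (2 ^ k) r := Nat.Coprime.pow_left _ (Nat.coprime_two_left.2 hr)
  obtain ⟨n, h1, h2⟩ := Nat.chineseRemainder hc 1 0
  obtain ⟨l, h3, h4⟩ := Nat.chineseRemainder hc 0 1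
  have h5 : (g ^ n) ^ (2 ^ k) = 1 := by
    rw [← pow_mul, ← orderOf_dvd_iff_pow_eq_one, hg, mul_comm n]
    exact Nat.mul_dvd_mul_left _ ((Nat.modEq_zero_iff_dvd).1 h2)
  have h6 : (g ^ l) ^ r = 1 := by
    rw [← pow_mul, ← orderOf_dvd_iff_pow_eq_one, hg]
    exact Nat.mul_dvd_mul_right ((Nat.modEq_zero_iff_dvd).1 h3) _
  obtain ⟨j, _, hj⟩ := (Nat.dvd_prime_pow Nat.prime_two).1 (orderOf_dvd_of_pow_eq_one h5)
  refine ⟨g ^ n, g ^ l, j, ?_, (Commute.refl g).pow_pow _ _, hj,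
    hr.of_dvd_nat (orderOf_dvd_of_pow_eq_one h6), orderOf_pow_dvd _, orderOf_pow_dvd _⟩
  rw [← pow_add]
  conv_lhs => rw [← pow_one g]
  rw [pow_eq_pow_iff_modEq, hg]
  apply Nat.ModEq.symm
  rw [← Nat.modEq_and_modEq_iff_modEq_mul hc]
  exact ⟨(h1.add h3), (h2.add h4)⟩

end tools

section perf

variable {p : ℕ} [hp : Fact p.Prime] {G : Type*} [Group G] [Fintype G]
variable {D : Dat p G} {χ : IrrCharacter G} [Fintype D.W]
variable {θ : D.W →* ℂˣ} {b0 : (ZMod p)ˣ} {m : (ZMod p)ˣ → ℕ}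

theorem not_dvd_pow {g : G} (hg : ¬ p ∣ orderOf g) (n : ℕ) : ¬ p ∣ orderOf (g ^ n) := fun h =>
  hg (h.trans (orderOf_pow_dvd n))

theorem odd_pow {g : G} (hg : Odd (orderOf g)) (n : ℕ) : Odd (orderOf (g ^ n)) :=
  hg.of_dvd_nat (orderOf_pow_dvd n)

/-- elements of odd order outside the centre -/
theorem Sd.odd_zero (h : Sd D χ θ b0 m) {g : G} (hg : ¬ p ∣ orderOf g) (ho : Odd (orderOf g))
    (hz : g ∉ Subgroup.center G) : (χ : G → ℂ) g = 0 := by
  have h5 := h.h5
  have hpr : (5 : ℝ) < p := by exact_mod_cast h5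
  obtain ⟨k, hk, hk2⟩ := exists_pow_two_pow ho
  have h1 := iter_norm (x := fun k => (χ : G → ℂ) (g ^ 2 ^ k)) (c := (p : ℝ) - 2) (by linarith) (by
    intro n
    have h2 := h.reg (not_dvd_pow hg (2 ^ n))
    rw [h.m4 _ _ (not_dvd_pow hg (2 ^ n)) (odd_pow ho _), ← pow_two, ← pow_mul, ← pow_succ] at h2
    push_cast
    linear_combination h2) hk (by simp only [pow_zero, pow_one]; rw [hk2])
  simp only [pow_zero, pow_one] at h1
  refine h1.resolve_right fun h2 => hz (central_of_norm χ.2 h.hf ?_)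
  rw [h2, h.one]
  have h3 : ((p : ℂ) - 2) = (((p : ℝ) - 2 : ℝ) : ℂ) := by push_cast; ring
  rw [h3, Complex.norm_real, Real.norm_of_nonneg (by linarith)]

theorem Sd.no_four (h : Sd D χ θ b0 m) (g : G) : orderOf g ≠ 4 := by
  intro hg
  have h5 := h.h5
  have hpg : ¬ p ∣ orderOf g := by
    rw [hg]; exact fun h1 => absurd (Nat.le_of_dvd (by norm_num) h1) (by omega)
  have h2 : orderOf (g * g) = 2 := by
    rw [← pow_two, orderOf_pow' g (by norm_num), hg]
    norm_num
  have h1 := h.reg hpg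
  rw [h.m5 _ g 2 (by rw [hg]; norm_num), h.inv h2] at h1
  -- the value is real
  set x := (χ : G → ℂ) g with hx
  have hpr : (7 : ℝ) ≤ p := by
    have h3 : p ≠ 6 := by
      rintro rfl
      exact absurd hp.out (by norm_num)
    have h4 : 7 ≤ p := by omega
    exact_mod_cast h4
  have him : x.im = 0 := by
    have h3 := congrArg Complex.im h1
    have h4 := congrArg Complex.re h1
    simp [pow_two, Complex.mul_im, Complex.mul_re] at h3 h4
    by_contra h6
    have h7 : x.re = ((p : ℝ) - 3) / 2 := by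
      apply mul_right_cancel₀ h6
      linarith
    rw [h7] at h4
    have h8 : 0 ≤ x.im * x.im := mul_self_nonneg _
    nlinarith
  -- the multiplicity of the trivial character
  obtain ⟨S, hS1, hS2⟩ := exists_eig (isCharacter_of_isIrr χ.2) g
  obtain ⟨k, hk⟩ := multiset_mul S (fun a => a ^ 0 + a ^ 1 + a ^ 2 + a ^ 3) (c := 4) (by
    intro a ha
    have h3 := hS1 a ha
    rw [hg] at h3
    have h4 : (a - 1) * (a ^ 0 + a ^ 1 + a ^ 2 + a ^ 3) = 0 := by linear_combination h3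
    rcases mul_eq_zero.1 h4 with h4 | h4
    · right
      rw [sub_eq_zero.1 h4]; norm_num
    · left; exact h4)
  have h3 : (S.map (fun a => a ^ 0 + a ^ 1 + a ^ 2 + a ^ 3)).sum =
      (χ : G → ℂ) (g ^ 0) + (χ : G → ℂ) (g ^ 1) + (χ : G → ℂ) (g ^ 2) + (χ : G → ℂ) (g ^ 3) := by
    rw [hS2, hS2, hS2, hS2, Multiset.sum_map_add, Multiset.sum_map_add, Multiset.sum_map_add]
  have h4 : g ^ 3 = g⁻¹ := by
    have h6 : g ^ 3 * g = 1 := by
      have h7 := pow_orderOf_eq_one g
      rw [hg] at h7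
      rw [← pow_succ]
      exact h7
    exact eq_inv_of_mul_eq_one_left h6
  have h6 : (χ : G → ℂ) g⁻¹ = x := by
    rw [char_inv (isCharacter_of_isIrr χ.2)]
    exact Complex.conj_eq_iff_im.2 him
  rw [h3, pow_zero, pow_one, h4, h6, pow_two, h.inv h2, h.one, ← hx] at hk
  have hxr : x = (x.re : ℂ) := Complex.ext rfl (by rw [him, Complex.ofReal_im])
  obtain ⟨q, hq⟩ := hp.out.odd_of_ne_two (by omega)
  have hxk : x = 2 * k - (q - 1 : ℂ) := by
    have h7 : (p : ℂ) = 2 * q + 1 := by exact_mod_cast hq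
    rw [h7] at hk
    linear_combination hk / 2
  set u : ℤ := 2 * k - (q - 1) with hu
  have hxu : x = (u : ℂ) := by rw [hxk, hu]; push_cast; ring
  rw [hxu] at h1
  have h8 : u * (((p : ℤ) - 3) - u) = 1 := by
    have h9 : ((u * (((p : ℤ) - 3) - u) : ℤ) : ℂ) = ((1 : ℤ) : ℂ) := by
      push_cast
      linear_combination -h1
    exact_mod_cast h9
  have h10 : (7 : ℤ) ≤ p := by exact_mod_cast hpr
  rcases Int.eq_one_or_neg_one_of_mul_eq_one h8 with h9 | h9
  · rw [h9] at h8; omega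
  · rw [h9] at h8; omega

theorem mem_center_of_pow {u : G} (ho : Odd (orderOf u)) {k : ℕ}
    (h : u ^ 2 ^ k ∈ Subgroup.center G) : u ∈ Subgroup.center G := by
  have h1 : Nat.Coprime (2 ^ k) (orderOf u) := Nat.Coprime.pow_left _ (Nat.coprime_two_left.2 ho)
  obtain ⟨n, hn⟩ := exists_pow_eq_self_of_coprime h1
  rw [← hn]
  exact Subgroup.pow_mem _ h _

theorem Sd.inv_mul_zero (h : Sd D χ θ b0 m) {s u : G} (hs : orderOf s = 2) (hsu : Commute s u)
    (hu : ¬ p ∣ orderOf u) (ho : Odd (orderOf u)) (hz : u ∉ Subgroup.center G) :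
    (χ : G → ℂ) (s * u) = 0 := by
  have h5 := h.h5
  have hpr : (5 : ℝ) < p := by exact_mod_cast h5
  have hp3 : ((p : ℂ) - 3) ≠ 0 := by
    intro h1
    have h2 : (p : ℂ) = 3 := by linear_combination h1
    have h3 : p = 3 := by exact_mod_cast h2
    omega
  have hss : s * s = 1 := by rw [← pow_two, ← hs, pow_orderOf_eq_one]
  have hstep : ∀ k : ℕ, (χ : G → ℂ) (s * u ^ 2 ^ k) ^ 2 =
      ((p : ℂ) - 3) * (χ : G → ℂ) (s * u ^ 2 ^ (k + 1)) := by
    intro k
    set v := u ^ 2 ^ k with hv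
    have hvo : Odd (orderOf v) := odd_pow ho _
    have hvp : ¬ p ∣ orderOf v := not_dvd_pow hu _
    have hsv : Commute s v := hsu.pow_right _
    have h1 : ¬ p ∣ orderOf (s * v) := by
      rw [hsv.orderOf_mul_eq_mul_orderOf_of_coprime (by rw [hs]; exact Nat.coprime_two_left.2 hvo), hs,
        hp.out.dvd_mul]
      rintro (h2 | h2)
      · exact absurd (Nat.le_of_dvd (by norm_num) h2) (by omega)
      · exact hvp h2
    have h2 := h.reg h1
    have h3 : (s * v) * (s * v) = v ^ 2 := by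
      rw [mul_assoc, ← mul_assoc v, ← hsv.eq, mul_assoc s, ← mul_assoc s, hss, one_mul, pow_two]
    have h4 : (s * v) ^ m (UU p 2) = s * v ^ 2 := by
      rw [hsv.mul_pow, h.m5 _ s 1 (by rw [hs, pow_one]), h.m4 _ v hvp hvo]
    have h6 : v ^ 2 ∉ Subgroup.center G := by
      intro h7
      apply hz
      rw [hv, ← pow_mul, ← pow_succ] at h7
      exact mem_center_of_pow ho h7
    rw [h3, h4, h.odd_zero (not_dvd_pow hvp 2) (odd_pow hvo 2) h6, sub_zero] at h2
    rw [h2, hv, ← pow_mul, ← pow_succ]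
  obtain ⟨k, hk, hk2⟩ := exists_pow_two_pow ho
  have h1 := iter_norm (x := fun k => (χ : G → ℂ) (s * u ^ 2 ^ k)) (c := (p : ℝ) - 3) (by linarith) (by
    intro n
    push_cast
    exact hstep n) hk (by simp only [pow_zero, pow_one]; rw [hk2])
  simp only [pow_zero, pow_one] at h1
  refine h1.resolve_right fun h2 => ?_
  -- the operator of `u` would be scalar on an eigenspace of `s`
  set lam := (χ : G → ℂ) (s * u) / ((p : ℂ) - 3) with hlam
  have hp3' : ((p : ℂ) - 3) = (((p : ℝ) - 3 : ℝ) : ℂ) := by push_cast; ring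
  have hlamn : ‖lam‖ = 1 := by
    rw [hlam, norm_div, h2, hp3', Complex.norm_real, Real.norm_of_nonneg (by linarith), div_self]
    linarith
  have hlamc : conj lam * lam = 1 := by
    rw [mul_comm, Complex.mul_conj, Complex.normSq_eq_norm_sq, hlamn, one_pow, Complex.ofReal_one]
  have hx1 : (χ : G → ℂ) (s * u) = ((p : ℂ) - 3) * lam := by
    rw [hlam]; field_simp
  have hx2 : (χ : G → ℂ) (s * u ^ 2) = ((p : ℂ) - 3) * lam ^ 2 := by
    have h3 := hstep 0
    simp only [pow_zero, pow_one, zero_add] at h3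
    rw [hx1] at h3
    apply mul_left_cancel₀ hp3
    rw [← h3]; ring
  set r := orderOf u with hr
  have hgr : (s * u) ^ r = s := by
    rw [hsu.mul_pow, hr, pow_orderOf_eq_one, mul_one, ← hr]
    obtain ⟨t, ht⟩ := ho
    rw [ht, pow_succ, pow_mul, pow_two, hss, one_pow, one_mul]
  have hg2 : (s * u) ^ (r + 1) = u := by
    rw [pow_succ, hgr, ← mul_assoc, hss, one_mul]
  have hord : orderOf (s * u) = 2 * r := by
    rw [hsu.orderOf_mul_eq_mul_orderOf_of_coprime (by rw [hs]; exact Nat.coprime_two_left.2 ho), hs]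
  have hg3 : (s * u) ^ (2 * r) = 1 := by rw [← hord, pow_orderOf_eq_one]
  have hg4 : (s * u) ^ (2 * r + 1) = s * u := by rw [pow_succ, hg3, one_mul]
  have hg5 : (s * u) ^ (2 * r + 2) = u ^ 2 := by
    rw [show 2 * r + 2 = (r + 1) * 2 by ring, pow_mul, hg2]
  have hg6 : (s * u) ^ (3 * r + 2) = s * u ^ 2 := by
    rw [show 3 * r + 2 = r + (2 * r + 2) by ring, pow_add, hgr, hg5]
  obtain ⟨S, hS1, hS2⟩ := exists_eig (isCharacter_of_isIrr χ.2) (s * u)
  have hre := multiset_re S (fun a => 3 * (a ^ 0 - a ^ r) + 4 * conj lam * (a ^ (r + 1) - a ^ (2 * r + 1)) +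
    2 * conj lam ^ 2 * (a ^ (2 * r + 2) - a ^ (3 * r + 2))) (by
    intro a ha
    have h3 := hS1 a ha
    rw [hord] at h3
    have h4 : (a ^ r - 1) * (a ^ r + 1) = 0 := by
      linear_combination h3
    have han : ‖a‖ = 1 := Complex.norm_eq_one_of_pow_eq_one h3 (by
      have := orderOf_pos u
      omega)
    set μ := conj lam * a ^ (r + 1) with hμ
    have hμn : ‖μ‖ = 1 := by
      rw [hμ, norm_mul, RCLike.norm_conj, hlamn, norm_pow, han, one_pow, one_mul]
    have h6 : 3 * (a ^ 0 - a ^ r) + 4 * conj lam * (a ^ (r + 1) - a ^ (2 * r + 1)) +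
        2 * conj lam ^ 2 * (a ^ (2 * r + 2) - a ^ (3 * r + 2)) =
        (1 - a ^ r) * (3 + 4 * μ + 2 * μ ^ 2) := by
      rw [hμ]; ring
    rw [h6]
    rcases mul_eq_zero.1 h4 with h4 | h4
    · rw [sub_eq_zero.1 h4, sub_self, zero_mul, Complex.zero_re]
    · rw [eq_neg_of_add_eq_zero_left h4]
      have h7 : μ.re * μ.re + μ.im * μ.im = 1 := by
        have h8 := Complex.normSq_eq_norm_sq μ
        rw [hμn, one_pow, Complex.normSq_apply] at h8
        exact h8
      simp [pow_two, Complex.mul_re]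
      nlinarith [mul_self_nonneg (1 + 2 * μ.re)])
  have hsum : (S.map (fun a => 3 * (a ^ 0 - a ^ r) + 4 * conj lam * (a ^ (r + 1) - a ^ (2 * r + 1)) +
      2 * conj lam ^ 2 * (a ^ (2 * r + 2) - a ^ (3 * r + 2)))).sum = 15 - 3 * (p : ℂ) := by
    rw [Multiset.sum_map_add, Multiset.sum_map_add, Multiset.sum_map_mul_left,
      Multiset.sum_map_mul_left, Multiset.sum_map_mul_left, Multiset.sum_map_sub,
      Multiset.sum_map_sub, Multiset.sum_map_sub, ← hS2, ← hS2, ← hS2, ← hS2, ← hS2, ← hS2, hgr, hg2,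
      hg4, hg5, hg6, pow_zero, h.one, h.inv hs, h.odd_zero hu ho hz, h.odd_zero (not_dvd_pow hu 2)
      (odd_pow ho 2) (fun h7 => hz (mem_center_of_pow ho (k := 1) (by rw [pow_one]; exact h7))), hx1, hx2]
    linear_combination (-4 * ((p : ℂ) - 3) - 2 * ((p : ℂ) - 3) * (conj lam * lam + 1)) * hlamc
  rw [hsum] at hre
  have h8 : ((15 : ℂ) - 3 * (p : ℂ)).re = 15 - 3 * (p : ℝ) := by
    have : ((15 : ℂ) - 3 * (p : ℂ)) = ((15 - 3 * (p : ℝ) : ℝ) : ℂ) := by push_cast; ring
    rw [this, Complex.ofReal_re]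
  rw [h8] at hre
  linarith

theorem Sd.reg_cases (h : Sd D χ θ b0 m) {g : G} (hg : ¬ p ∣ orderOf g)
    (hz : g ∉ Subgroup.center G) : (χ : G → ℂ) g = 0 ∨
      ∃ s z : G, orderOf s = 2 ∧ z ∈ Subgroup.center G ∧ g = s * z := by
  obtain ⟨s, u, j, hsu, hc, hs, hu, hd1, hd2⟩ := exists_split g
  have hup : ¬ p ∣ orderOf u := fun h1 => hg (h1.trans hd2)
  rcases Nat.lt_or_ge j 2 with hj | hj
  · interval_cases j
    · left
      rw [pow_zero, orderOf_eq_one_iff] at hs
      rw [hs, one_mul] at hsu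
      subst hsu
      exact h.odd_zero hg hu hz
    · rw [pow_one] at hs
      by_cases hzu : u ∈ Subgroup.center G
      · exact Or.inr ⟨s, u, hs, hzu, hsu⟩
      · left
        rw [hsu]
        exact h.inv_mul_zero hs hc hup hu hzu
  · exfalso
    apply h.no_four (s ^ 2 ^ (j - 2))
    rw [orderOf_pow_of_dvd (by positivity) (by rw [hs]; exact pow_dvd_pow _ (by omega)), hs,
      Nat.pow_div (by omega) (by norm_num), show j - (j - 2) = 2 by omega]

end perf

end H21.FD
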