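import Cfsg.Agent.Lib.H21.FD7

/-!
Perfect groups with a faithful irreducible character of degree `p - 2`: the order of the group.
-/

set_option autoImplicit false
set_option linter.unusedSectionVars false

namespace H21.FD

open Finset Cfsg H18.CharBasic H18.CharOrtho H18.CharInd H67.Lat H67.DefOne H77.Cong
open scoped ComplexConjugate

section perf

variable {p : ℕ} [hp : Fact p.Prime] {G : Type*} [Group G] [Fintype G]
variable {D : Dat p G} {χ : IrrCharacter G} [Fintype D.W]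
variable {θ : D.W →* ℂˣ} {b0 : (ZMod p)ˣ} {m : (ZMod p)ˣ → ℕ}

theorem Sd.central (h : Sd D χ θ b0 m) {z : G} (hz : z ∈ Subgroup.center G) :
    ∃ μ : ℂ, μ * conj μ = 1 ∧ (χ : G → ℂ) z = ((p : ℂ) - 2) * μ ∧
      ∀ x, (χ : G → ℂ) (z * x) = μ * (χ : G → ℂ) x := by
  have h5 := h.h5
  have hpr : (5 : ℝ) < p := by exact_mod_cast h5
  have hp2' : ((p : ℂ) - 2) = (((p : ℝ) - 2 : ℝ) : ℂ) := by push_cast; ring
  have hp20 : ((p : ℂ) - 2) ≠ 0 := by
    rw [hp2']
    exact_mod_cast (by linarith : ((p : ℝ) - 2) ≠ 0)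
  refine ⟨(χ : G → ℂ) z / ((p : ℂ) - 2), ?_, by field_simp, fun x => ?_⟩
  · rw [Complex.mul_conj, Complex.normSq_eq_norm_sq, norm_div, H20.CentD.norm_central χ hz, h.one,
      div_self (norm_ne_zero_iff.2 hp20), one_pow, Complex.ofReal_one]
  · have h1 := H20.CentD.mul_central χ hz x
    rw [h.one] at h1
    field_simp
    linear_combination -h1

theorem Sd.cen_val (h : Sd D χ θ b0 m) {z : G} (hz : z ∈ Subgroup.center G) :
    (χ : G → ℂ) z * conj ((χ : G → ℂ) z) = ((p : ℂ) - 2) ^ 2 ∧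
      (χ : G → ℂ) z ^ 2 * conj ((h.cj (UU p 2) : G → ℂ) z) = ((p : ℂ) - 2) ^ 3 := by
  obtain ⟨μ, h1, h2, h3⟩ := h.central hz
  have h4 : (h.cj (UU p 2) : G → ℂ) z = ((p : ℂ) - 2) * μ ^ 2 := by
    rw [h.cj_apply, h.m4 _ z (h.not_dvd hz) (h.odd hz), pow_two, h3, h2]
    ring
  have h5 : conj ((p : ℂ) - 2) = (p : ℂ) - 2 := by
    rw [map_sub, Complex.conj_natCast]
    congr 1
    exact Complex.conj_natCast 2
  constructor
  · rw [h2, map_mul, h5]
    linear_combination ((p : ℂ) - 2) ^ 2 * h1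
  · rw [h4, h2, map_mul, h5, map_pow]
    linear_combination ((p : ℂ) - 2) ^ 3 * (μ * conj μ + 1) * h1

theorem Sd.reg_val (h : Sd D χ θ b0 m) {g : G} (hg : ¬ p ∣ orderOf g)
    (hz : g ∉ Subgroup.center G) (h0 : (χ : G → ℂ) g ≠ 0) :
    (χ : G → ℂ) g * conj ((χ : G → ℂ) g) = 1 ∧
      (χ : G → ℂ) g ^ 2 * conj ((h.cj (UU p 2) : G → ℂ) g) = -1 := by
  obtain ⟨s, z, hs, hzz, rfl⟩ := (h.reg_cases hg hz).resolve_left h0
  obtain ⟨μ, h1, h2, h3⟩ := h.central hzz
  have hc : Commute s z := (Subgroup.mem_center_iff.1 hzz s)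
  have h4 : (χ : G → ℂ) (s * z) = -μ := by
    rw [hc.eq, h3, h.inv hs]; ring
  have h6 : (h.cj (UU p 2) : G → ℂ) (s * z) = -μ ^ 2 := by
    rw [h.cj_apply, hc.mul_pow, h.m4 _ z (h.not_dvd hzz) (h.odd hzz),
      h.m5 _ s 1 (by rw [hs, pow_one]), (hc.pow_right 2).eq, pow_two, mul_assoc, h3, h3, h.inv hs]
    ring
  constructor
  · rw [h4, map_neg]
    linear_combination h1
  · rw [h4, h6, map_neg, map_pow]
    linear_combination -(μ * conj μ + 1) * h1

open Classical in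
theorem Sd.split_sum (h : Sd D χ θ b0 m) {F : G → ℂ} {c1 c2 : ℂ}
    (hF0 : ∀ g, (χ : G → ℂ) g = 0 → F g = 0)
    (hF1 : ∀ g, g ∈ Subgroup.center G → F g = c1)
    (hF2 : ∀ g, ¬ p ∣ orderOf g → g ∉ Subgroup.center G → (χ : G → ℂ) g ≠ 0 → F g = c2) :
    ∑ g : G, F g = ∑ g ∈ (univ : Finset G).filter (fun g => p ∣ orderOf g), F g +
      c1 * Nat.card (Subgroup.center G) + c2 * (((univ : Finset G).filter
        (fun g => ¬ p ∣ orderOf g ∧ g ∉ Subgroup.center G ∧ (χ : G → ℂ) g ≠ 0)).card : ℂ) := by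
  have h1 : ∀ g : G, F g = (if p ∣ orderOf g then F g else 0) +
      c1 * (if g ∈ Subgroup.center G then 1 else 0) +
      c2 * (if ¬ p ∣ orderOf g ∧ g ∉ Subgroup.center G ∧ (χ : G → ℂ) g ≠ 0 then 1 else 0) := by
    intro g
    by_cases hg : p ∣ orderOf g
    · have hz : g ∉ Subgroup.center G := fun hz => h.not_dvd hz hg
      rw [if_pos hg, if_neg hz, if_neg (fun h2 => h2.1 hg)]
      ring
    · by_cases hz : g ∈ Subgroup.center G
      · rw [if_neg hg, if_pos hz, if_neg (fun h2 => h2.2.1 hz), hF1 g hz]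
        ring
      · by_cases h0 : (χ : G → ℂ) g = 0
        · rw [if_neg hg, if_neg hz, if_neg (fun h2 => h2.2.2 h0), hF0 g h0]
          ring
        · rw [if_neg hg, if_neg hz, if_pos ⟨hg, hz, h0⟩, hF2 g hg hz h0]
          ring
  rw [Finset.sum_congr rfl (fun g _ => h1 g), Finset.sum_add_distrib, Finset.sum_add_distrib,
    ← Finset.mul_sum, ← Finset.mul_sum, Finset.sum_boole, Finset.sum_boole, ← Finset.sum_filter]
  congr 3
  rw [Nat.card_eq_fintype_card, Fintype.card_subtype]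

/-- the order of the group -/
theorem Sd.card (h : Sd D χ θ b0 m) :
    Nat.card G = Nat.card (Subgroup.center G) * (p * (p - 1) * (p - 2)) := by
  classical
  have h5 := h.h5
  have hp0 : (p : ℂ) ≠ 0 := by exact_mod_cast hp.out.ne_zero
  have hG0 : (Nat.card G : ℂ) ≠ 0 := by exact_mod_cast Nat.card_pos.ne'
  have ht : ((UU p 2 : (ZMod p)ˣ) : ZMod p) = 2 := by
    rw [UU_val (by omega) (by omega)]; norm_num
  have hb0 : (b0 : ZMod p) * 2 ≠ 0 := by rw [← ht]; exact Sd.ne_zero _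
  have hcl := isClassFunction_of_isIrr χ.2
  -- first sum
  have e1 := h.split_sum (F := fun g => (χ : G → ℂ) g * conj ((χ : G → ℂ) g))
    (c1 := ((p : ℂ) - 2) ^ 2) (c2 := 1) (fun g hg => by simp only [hg, zero_mul])
    (fun g hg => (h.cen_val hg).1) (fun g hg hz h0 => (h.reg_val hg hz h0).1)
  have s1 := psum D h.hp2 (F := fun g => (χ : G → ℂ) g * conj ((χ : G → ℂ) g))
    (by intro x y; simp only [hcl x y])
    (f := fun i => cc ((b0 : ZMod p) * i) * cc ((b0 : ZMod p) * i)) (by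
      intro i hi w
      rw [h.val_ne hi, map_mul, map_neg, conj_cc]
      linear_combination (cc ((b0 : ZMod p) * i) * cc ((b0 : ZMod p) * i)) * Sd.norm_θ w)
  rw [sum_cc_mul (by omega) b0.ne_zero, if_pos (Or.inl rfl), h.hE] at s1
  have t1 : ∑ g : G, (χ : G → ℂ) g * conj ((χ : G → ℂ) g) = Nat.card G := by
    have h6 := inner_irr_self χ.2
    rw [classInner] at h6
    field_simp at h6
    exact h6
  -- second sum
  have e2 := h.split_sum (F := fun g => (χ : G → ℂ) g ^ 2 * conj ((h.cj (UU p 2) : G → ℂ) g))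
    (c1 := ((p : ℂ) - 2) ^ 3) (c2 := -1) (fun g hg => by simp only [hg]; ring)
    (fun g hg => (h.cen_val hg).2) (fun g hg hz h0 => (h.reg_val hg hz h0).2)
  have s2 := psum D h.hp2 (F := fun g => (χ : G → ℂ) g ^ 2 * conj ((h.cj (UU p 2) : G → ℂ) g))
    (by intro x y; simp only [hcl x y, isClassFunction_of_isIrr (h.cj (UU p 2)).2 x y])
    (f := fun i => -(cc ((b0 : ZMod p) * 2 * i) * cc ((b0 : ZMod p) * 2 * i)) -
      2 * cc ((b0 : ZMod p) * 2 * i)) (by
      intro i hi w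
      have h1 : cc ((b0 : ZMod p) * i) * cc ((b0 : ZMod p) * i) = cc ((b0 : ZMod p) * 2 * i) + 2 := by
        rw [cc_mul, sub_self, cc_zero]; congr 2; ring
      rw [h.val_ne hi, h.cj_val, if_neg hi, ht, zero_sub, map_mul, map_neg, conj_cc, map_pow]
      have h2 := Sd.norm_θ (θ := θ) w
      linear_combination (-(cc ((b0 : ZMod p) * 2 * i)) * (θ w : ℂ) ^ 2 * conj (θ w : ℂ) ^ 2) * h1 -
        (cc ((b0 : ZMod p) * 2 * i) + 2) * cc ((b0 : ZMod p) * 2 * i) *
          ((θ w : ℂ) * conj (θ w : ℂ) + 1) * h2)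
  rw [Finset.sum_sub_distrib, Finset.sum_neg_distrib, ← Finset.mul_sum,
    sum_cc_mul (by omega) hb0, if_pos (Or.inl rfl), sum_cc hb0, h.hE] at s2
  rw [t1] at e1
  rw [h.inner_sq] at e2
  set R : ℂ := (((univ : Finset G).filter
        (fun g => ¬ p ∣ orderOf g ∧ g ∉ Subgroup.center G ∧ (χ : G → ℂ) g ≠ 0)).card : ℂ) with hR
  have h8 : (Nat.card G : ℂ) * (2 * ((p : ℂ) - 2)) =
      (Nat.card (Subgroup.center G) * (p * (p - 1) * (p - 2))) * (2 * ((p : ℂ) - 2)) := by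
    push_cast at s1 s2
    linear_combination (2 * (p : ℂ)) * e1 + (2 * (p : ℂ)) * e2 + s1 + s2
  have h9 : (2 * ((p : ℂ) - 2)) ≠ 0 := by
    apply mul_ne_zero two_ne_zero
    intro h1
    have h2 : (p : ℂ) = 2 := by linear_combination h1
    have h3 : p = 2 := by exact_mod_cast h2
    omega
  have h10 := mul_right_cancel₀ h9 h8
  have h11 : ((Nat.card G : ℕ) : ℂ) = ((Nat.card (Subgroup.center G) * (p * (p - 1) * (p - 2)) : ℕ) : ℂ) := by
    rw [h10, Nat.cast_mul, Nat.cast_mul, Nat.cast_mul, Nat.cast_sub (by omega), Nat.cast_sub (by omega)]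
    push_cast
    ring
  exact_mod_cast h11

end perf

end H21.FD
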