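import Cfsg.Agent.Lib.H21.FD8
import Cfsg.Agent.Lib.H21.BK4
import Cfsg.Agent.Lib.H40.Stem
import Cfsg.Agent.Lib.H67.BlkOne4

/-!
Perfect groups with a faithful irreducible character of degree `p - 2` are `SL(2, p - 1)`.
-/

set_option autoImplicit false
set_option linter.unusedSectionVars false

namespace H21.FD

open Finset Cfsg H18.CharBasic H18.CharOrtho H18.CharInd H67.Lat H67.DefOne H77.Cong
open scoped ComplexConjugate MatrixGroups

section torus

variable {F : Type*} [Field F]

/-- diagonal matrices -/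
def dg (F : Type*) [Field F] : Fˣ →* Matrix.SpecialLinearGroup (Fin 2) F where
  toFun t := ⟨!![(t : F), 0; 0, ((t⁻¹ : Fˣ) : F)], by rw [Matrix.det_fin_two_of]; simp⟩
  map_one' := by
    apply Subtype.ext
    simp [Matrix.one_fin_two]
  map_mul' a b := by
    apply Subtype.ext
    change !![((a * b : Fˣ) : F), 0; 0, (((a * b)⁻¹ : Fˣ) : F)] =
      !![(a : F), 0; 0, ((a⁻¹ : Fˣ) : F)] * !![(b : F), 0; 0, ((b⁻¹ : Fˣ) : F)]
    simp [mul_comm]

theorem dg_injective : Function.Injective (dg F) := by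
  intro a b h
  have h1 := congrArg (fun x : Matrix.SpecialLinearGroup (Fin 2) F => (x : Matrix (Fin 2) (Fin 2) F) 0 0) h
  exact Units.ext h1

theorem torus_cyclic [Fintype F] : IsCyclic (dg F).range :=
  isCyclic_of_surjective (dg F).rangeRestrict (dg F).rangeRestrict_surjective

theorem torus_index [Fintype F] : (dg F).range.index = Fintype.card F * (Fintype.card F + 1) := by
  classical
  have h1 := (dg F).range.card_mul_index
  rw [H25.SL2Card.card_SL2] at h1
  have h2 : Nat.card (dg F).range = Fintype.card F - 1 := by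
    rw [← Nat.card_congr (MonoidHom.ofInjective dg_injective).toEquiv, Nat.card_eq_fintype_card,
      Fintype.card_units]
  have hq : 1 < Fintype.card F := Fintype.one_lt_card
  rw [h2] at h1
  obtain ⟨r, hr⟩ := Nat.exists_eq_add_of_lt hq
  rw [hr] at h1 ⊢
  have h3 : (1 + r + 1) ^ 2 - 1 = (r + 1) * (r + 3) := by
    have : (1 + r + 1) ^ 2 = (r + 1) * (r + 3) + 1 := by ring
    rw [this, Nat.add_sub_cancel]
  rw [h3, show 1 + r + 1 - 1 = r + 1 by omega] at h1
  have h4 : (r + 1) * (dg F).range.index = (r + 1) * ((1 + r + 1) * (1 + r + 1 + 1)) := by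
    rw [h1]; ring
  exact Nat.eq_of_mul_eq_mul_left (by omega) h4

end torus

/-- a perfect central extension of `SL(2, q)`, `q` even, by a group of exponent dividing `q - 1` -/
theorem central_ext_sl {G : Type*} [Group G] [Finite G] (hperf : commutator G = ⊤)
    {F : Type*} [Field F] [Fintype F] (heven : Even (Fintype.card F))
    (f : G →* Matrix.SpecialLinearGroup (Fin 2) F) (hf : Function.Surjective f)
    (hker : f.ker = Subgroup.center G) (hz : ∀ z ∈ Subgroup.center G, z ^ (Fintype.card F - 1) = 1) :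
    Subgroup.center G = ⊥ := by
  set q := Fintype.card F with hq
  have hq1 : 1 < q := Fintype.one_lt_card
  set H := (dg F).range.comap f with hH
  have hidx : H.index = q * (q + 1) := by
    rw [hH, Subgroup.index_comap_of_surjective _ hf, torus_index]
  have hcomm : ∀ a b : H, a * b = b * a := by
    let g : H →* (dg F).range := (f.comp H.subtype).codRestrict (dg F).range (fun x => x.2)
    have hg : g.ker ≤ Subgroup.center H := by
      intro x hx
      have h1 : f x = 1 := congrArg Subtype.val ((MonoidHom.mem_ker).1 hx)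
      have h2 : (x : G) ∈ Subgroup.center G := by rw [← hker]; exact (MonoidHom.mem_ker).2 h1
      rw [Subgroup.mem_center_iff] at h2 ⊢
      intro y
      exact Subtype.ext (h2 y)
    have := torus_cyclic (F := F)
    exact commutative_of_cyclic_center_quotient g hg
  have hbot : ⁅H, H⁆ = ⊥ := by
    rw [eq_bot_iff, Subgroup.commutator_le]
    intro a ha b hb
    rw [Subgroup.mem_bot, commutatorElement_eq_one_iff_mul_comm]
    exact congrArg Subtype.val (hcomm ⟨a, ha⟩ ⟨b, hb⟩)
  rw [eq_bot_iff]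
  intro z hzz
  rw [Subgroup.mem_bot]
  have h1 := H40.Stem.pow_index_mem_commutator H hzz (by rw [hperf]; exact Subgroup.mem_top _)
  rw [hbot, Subgroup.mem_bot, hidx] at h1
  have h2 := hz z hzz
  have h3 : Nat.Coprime (q * (q + 1)) (q - 1) := by
    have ho : Nat.Coprime 2 (q - 1) := by
      rw [Nat.coprime_two_left]
      obtain ⟨k, hk⟩ := heven
      exact ⟨k - 1, by omega⟩
    obtain ⟨r, hr⟩ := Nat.exists_eq_add_of_lt hq1
    rw [hr] at ho ⊢
    rw [show 1 + r + 1 - 1 = r + 1 by omega] at ho ⊢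
    apply Nat.Coprime.mul_left
    · rw [show 1 + r + 1 = 1 + (r + 1) by ring]
      rw [Nat.coprime_add_self_left]
      exact Nat.coprime_one_left _
    · rw [show 1 + r + 1 + 1 = 2 + (r + 1) by ring, Nat.coprime_add_self_left]
      exact ho
  exact (pow_eq_one_iff_of_coprime (m := q * (q + 1)) (n := q - 1) h3).1 ⟨h1, h2⟩

section perf

variable {p : ℕ} [hp : Fact p.Prime] {G : Type*} [Group G] [Fintype G]
variable {D : Dat p G} {χ : IrrCharacter G} [Fintype D.W]
variable {θ : D.W →* ℂˣ} {b0 : (ZMod p)ˣ} {m : (ZMod p)ˣ → ℕ}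

theorem Sd.card_syl (h : Sd D χ θ b0 m) : ∃ P : Sylow p G, (P : Subgroup G) = Subgroup.zpowers D.σ ∧
    Nat.card P = p ∧ Nat.card (Sylow p G) = 1 + (p - 3) / 2 * p := by
  have h5 := h.h5
  have hpG : IsPGroup p (Subgroup.zpowers D.σ) := by
    apply IsPGroup.of_card (n := 1)
    rw [Nat.card_zpowers, D.hσ, pow_one]
  obtain ⟨P, hP⟩ := hpG.exists_le_sylow
  have hcP : Nat.card P = p := by
    obtain ⟨k, hk⟩ := IsPGroup.iff_card.1 P.2
    have h1 : p ∣ Nat.card P := by
      have := Subgroup.card_dvd_of_le hP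
      rwa [Nat.card_zpowers, D.hσ] at this
    have h2 : k < 2 := by
      by_contra hk2
      apply h.hp2
      refine (pow_dvd_pow p (by omega : 2 ≤ k)).trans ?_
      rw [← hk]
      exact Subgroup.card_subgroup_dvd_card _
    have h3 : k ≠ 0 := by
      rintro rfl
      rw [pow_zero] at hk
      rw [hk] at h1
      exact hp.out.one_lt.ne' (Nat.dvd_one.1 h1)
    have h4 : k = 1 := by omega
    rw [hk, h4, pow_one]
  have hPz : (P : Subgroup G) = Subgroup.zpowers D.σ := by
    symm
    apply Subgroup.eq_of_le_of_card_ge hP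
    rw [Nat.card_zpowers, D.hσ]
    exact hcP.le
  refine ⟨P, hPz, hcP, ?_⟩
  have h1 := (Subgroup.normalizer (Subgroup.zpowers D.σ : Set G)).card_mul_index
  rw [H67.BlkOne.card_normalizer, card_N₀, h.hE, h.W_eq, h.card] at h1
  have e : (P : Set G) = (Subgroup.zpowers D.σ : Set G) :=
    congrArg (fun H : Subgroup G => (H : Set G)) hPz
  rw [P.card_eq_index_normalizer, e]
  set i := (Subgroup.normalizer (Subgroup.zpowers D.σ : Set G)).index
  have hz : 0 < Nat.card (Subgroup.center G) := Nat.card_pos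
  have h2 : (p * Nat.card (Subgroup.center G)) * (2 * i) =
      (p * Nat.card (Subgroup.center G)) * ((p - 1) * (p - 2)) := by
    calc _ = p * (2 * Nat.card (Subgroup.center G)) * i := by ring
      _ = _ := h1
      _ = _ := by ring
  have h3 := Nat.eq_of_mul_eq_mul_left (by positivity) h2
  obtain ⟨q, hq⟩ := hp.out.odd_of_ne_two (by omega)
  obtain ⟨r, rfl⟩ : ∃ r, q = r + 1 := ⟨q - 1, by omega⟩
  have h4 : p - 1 = 2 * r + 2 := by omega
  have h6 : p - 2 = 2 * r + 1 := by omega
  have h7 : (p - 3) / 2 = r := by omega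
  rw [h4, h6] at h3
  rw [h7, hq]
  nlinarith

theorem Sd.perf_main (h : Sd D χ θ b0 m) : Subgroup.center G = ⊥ ∧
    ∃ (a : ℕ) (F : Type) (_ : Field F) (_ : Fintype F), p = 2 ^ a + 1 ∧ Fintype.card F = 2 ^ a ∧
      Nonempty (G ≃* Matrix.SpecialLinearGroup (Fin 2) F) := by
  have h5 := h.h5
  obtain ⟨P, hPz, hcP, hsyl⟩ := h.card_syl
  have hNF : H21.SCNum.NF (p : ℤ) (((p - 3) / 2 : ℕ) : ℤ) := by
    apply H21.SCNum.NF_of_le (by exact_mod_cast hp.out.one_lt)
    have h1 : 2 * ((p - 3) / 2) ≤ p + 2 := by omega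
    exact_mod_cast h1
  obtain ⟨-, hres⟩ := H21.BK.quot_case h.hperf P hcP hsyl hNF
  set K := pPrimeCore p G with hK
  have hcard := Subgroup.card_eq_card_quotient_mul_card_subgroup K
  have hZK : Subgroup.center G ≤ K := by
    apply H1.Cores.le_pPrimeCore inferInstance
    rw [← h.W_eq]
    exact ((hp.out.coprime_iff_not_dvd).2 (card_W_not_dvd D)).symm
  have hz : 0 < Nat.card (Subgroup.center G) := Nat.card_pos
  obtain ⟨k, hk⟩ := Subgroup.card_dvd_of_le hZK
  rw [h.card, hk] at hcard
  rcases hres with ⟨F, i1, i2, h3, h4, ⟨f⟩⟩ | ⟨a, F, i1, i2, h3, h4, h6, ⟨f⟩⟩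
  · exfalso
    have hodd : ¬ 2 ∣ p := by
      intro hd
      rcases (Nat.dvd_prime hp.out).1 hd with h6 | h6 <;> omega
    have h7 := H21.BK.card_psl_two h3 hodd (by omega)
    rw [← Nat.card_congr f.toEquiv] at h7
    obtain ⟨r, hr⟩ : ∃ r, p = r + 3 := ⟨p - 3, by omega⟩
    have h8 : p - 1 = r + 2 := by omega
    have h9 : p - 2 = r + 1 := by omega
    have h10 : p ^ 2 - 1 = (r + 2) * (r + 4) := by
      have : p ^ 2 = (r + 2) * (r + 4) + 1 := by rw [hr]; ring
      omega
    rw [h8, h9] at hcard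
    rw [h10] at h7
    have h11 : (Nat.card (Subgroup.center G) * (p * (r + 2))) * (2 * (r + 1)) =
        (Nat.card (Subgroup.center G) * (p * (r + 2))) * ((r + 4) * k) := by
      calc _ = 2 * (Nat.card (Subgroup.center G) * (p * (r + 2) * (r + 1))) := by ring
        _ = 2 * (Nat.card (G ⧸ K) * (Nat.card (Subgroup.center G) * k)) := by rw [hcard]
        _ = (2 * Nat.card (G ⧸ K)) * (Nat.card (Subgroup.center G) * k) := by ring
        _ = _ := by rw [h7]; ring
    have h12 := Nat.eq_of_mul_eq_mul_left (by positivity) h11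
    have h13 : (r + 4) ∣ 6 := by
      have h14 : (r + 4) ∣ 2 * (r + 1) := ⟨k, h12⟩
      have h15 : (r + 4) ∣ 2 * (r + 4) := dvd_mul_left _ _
      have h16 := Nat.dvd_sub h15 h14
      rwa [show 2 * (r + 4) - 2 * (r + 1) = 6 by omega] at h16
    have h14 := Nat.le_of_dvd (by norm_num) h13
    have h15 : r = 0 ∨ r = 1 ∨ r = 2 := by omega
    rcases h15 with rfl | rfl | rfl <;> omega
  · have h7 := H25.SL2Card.card_SL2 (K := F)
    rw [← Nat.card_congr f.toEquiv, h3] at h7
    obtain ⟨r, hr⟩ : ∃ r, p = r + 3 := ⟨p - 3, by omega⟩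
    have h8 : p - 1 = r + 2 := by omega
    have h9 : p - 2 = r + 1 := by omega
    have h10 : 2 ^ a = r + 2 := by omega
    rw [h10] at h7
    rw [h8, h9] at hcard
    have h11 : (r + 2) ^ 2 - 1 = (r + 1) * (r + 3) := by
      have : (r + 2) ^ 2 = (r + 1) * (r + 3) + 1 := by ring
      omega
    rw [h11] at h7
    have hk1 : k = 1 := by
      rw [h7, hr] at hcard
      have h12 : (Nat.card (Subgroup.center G) * ((r + 3) * (r + 2) * (r + 1))) * 1 =
          (Nat.card (Subgroup.center G) * ((r + 3) * (r + 2) * (r + 1))) * k := by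
        rw [mul_one]; refine hcard.trans ?_; ring
      exact (Nat.eq_of_mul_eq_mul_left (by positivity) h12).symm
    have hKZ : Subgroup.center G = K := by
      apply Subgroup.eq_of_le_of_card_ge hZK
      rw [hk, hk1, mul_one]
    have hcen : Subgroup.center G = ⊥ := by
      refine central_ext_sl h.hperf (F := F) ?_ (f.toMonoidHom.comp (QuotientGroup.mk' K))
        (f.surjective.comp (QuotientGroup.mk'_surjective K)) ?_ ?_
      · rw [h3]
        have ha : a ≠ 0 := by rintro rfl; omega
        exact (Nat.even_pow' ha).2 even_two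
      · rw [hKZ]
        ext x
        rw [MonoidHom.mem_ker]
        simp only [MonoidHom.comp_apply, MulEquiv.coe_toMonoidHom, MulEquiv.map_eq_one_iff,
          QuotientGroup.mk'_apply, QuotientGroup.eq_one_iff]
      · intro z hz
        have h12 := h.pow hz
        rwa [h3, h10, show r + 2 - 1 = p - 2 by omega]
    refine ⟨hcen, a, F, i1, i2, h4, h3, ⟨?_⟩⟩
    have hKb : K = ⊥ := by rw [← hKZ, hcen]
    exact ((QuotientGroup.quotientMulEquivOfEq hKb).trans QuotientGroup.quotientBot).symm.trans f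

end perf

end H21.FD
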