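import Cfsg.Agent.Lib.H21.NE8
import Cfsg.Agent.Lib.H21.SylowInter
import Cfsg.Agent.Lib.H21.CountPrime

/-!
Groups of order dividing 175560: simple of this order, or normal Sylow 19-subgroups.
-/

set_option autoImplicit false
set_option linter.unusedSectionVars false

namespace H21.NE.O175560

open Cfsg Subgroup H21.SylowTools H21.HallTools

universe u

/-- an element of order `p` centralises the subgroups of order less than `p` it normalises -/
theorem comm_of_small {H : Type u} [Group H] [Finite H] {p : ℕ} [hp : Fact p.Prime] (Q : Subgroup H)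
    (hQ : Nat.card Q < p) {y : H} (hy : orderOf y = p) (hyN : y ∈ normalizer (Q : Set H)) {z : H}
    (hz : z ∈ Q) : y * z = z * y := by
  classical
  let _ : Fintype Q := Fintype.ofFinite Q
  have key : ∀ w : Q, y * (w : H) * y⁻¹ ∈ Q := fun w => (Subgroup.mem_normalizer_iff.1 hyN _).1 w.2
  have key2 : ∀ w : Q, y⁻¹ * (w : H) * y ∈ Q := fun w => by
    have := (Subgroup.mem_normalizer_iff.1 (inv_mem hyN) _).1 w.2
    rwa [inv_inv] at this
  let σ : Equiv.Perm Q :=
    { toFun := fun w => ⟨_, key w⟩
      invFun := fun w => ⟨_, key2 w⟩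
      left_inv := fun w => Subtype.ext (by
        change y⁻¹ * (y * (w : H) * y⁻¹) * y = w
        group)
      right_inv := fun w => Subtype.ext (by
        change y * (y⁻¹ * (w : H) * y) * y⁻¹ = w
        group) }
  have hσ : ∀ (k : ℕ) (w : Q), (((σ ^ k) w : Q) : H) = y ^ k * (w : H) * (y ^ k)⁻¹ := by
    intro k
    induction k with
    | zero => intro w; simp
    | succ k ih =>
      intro w
      rw [pow_succ, Equiv.Perm.mul_apply, ih]
      change y ^ k * (y * (w : H) * y⁻¹) * (y ^ k)⁻¹ = y ^ (k + 1) * (w : H) * (y ^ (k + 1))⁻¹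
      rw [pow_succ]
      group
  have h1 : σ ^ p = 1 := by
    ext w
    rw [hσ, ← hy, pow_orderOf_eq_one]
    simp
  have h2 : σ = 1 := by
    by_contra hne
    have h3 : orderOf σ = p := orderOf_eq_prime h1 hne
    have h4 : p ∣ (Nat.card Q).factorial := by
      have := orderOf_dvd_card (x := σ)
      rw [h3, Fintype.card_perm, ← Nat.card_eq_fintype_card] at this
      exact this
    have h5 := (hp.out.dvd_factorial).1 h4
    omega
  have h3 := hσ 1 ⟨z, hz⟩
  rw [h2] at h3
  simp only [Equiv.Perm.coe_one, id_eq, pow_one] at h3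
  exact (eq_mul_inv_iff_mul_eq.1 h3).symm

/-- a normal `p`-complement with small Sylow subgroups -/
theorem normal_of_small {H : Type u} [Group H] [Finite H] {p : ℕ} [hp : Fact p.Prime]
    (K : Subgroup H) [hKn : K.Normal] (hK : K.index = p) (hpK : ¬ p ∣ Nat.card K)
    (hsmall : ∀ q : ℕ, q.Prime → q ^ ((Nat.card K).factorization q) < p) (P : Sylow p H) :
    (P : Subgroup H).Normal := by
  have hcard := K.card_mul_index
  rw [hK] at hcard
  have hsyl : ∀ R : Sylow p H, Nat.card (R : Subgroup H) = p := by
    intro R
    have := card_sylow_eq_pow (p := p) (a := 1) (m := Nat.card K) (by rw [← hcard]; ring) hpK R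
    rwa [pow_one] at this
  have hNP : ∀ R : Sylow p H, Nat.card (normalizer ((R : Subgroup H) : Set H)) =
      Nat.card (normalizer ((P : Subgroup H) : Set H)) := by
    intro R
    have h1 := card_normalizer_mul_card_sylow R
    have h2 := card_normalizer_mul_card_sylow P
    rw [← h2] at h1
    exact Nat.eq_of_mul_eq_mul_right Nat.card_pos h1
  have hidx : (normalizer ((P : Subgroup H) : Set H)).index = 1 := by
    by_contra hne
    obtain ⟨r, hr, hrd⟩ := Nat.exists_prime_and_dvd hne
    have : Fact r.Prime := ⟨hr⟩
    have hmul := (normalizer ((P : Subgroup H) : Set H)).card_mul_index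
    have hrp : r ≠ p := by
      rintro rfl
      have h1 : r ∣ Nat.card (Sylow r H) := by rw [P.card_eq_index_normalizer]; exact hrd
      exact not_dvd_card_sylow r H h1
    -- a Sylow `r`-subgroup of `K`
    obtain ⟨Q⟩ : Nonempty (Sylow r K) := inferInstance
    set Q' : Subgroup H := (Q : Subgroup K).map K.subtype with hQ'
    have hQc : Nat.card Q' = r ^ ((Nat.card K).factorization r) := by
      rw [hQ', Subgroup.card_map_of_injective (Subgroup.subtype_injective K)]
      exact Q.card_eq_multiplicity
    have hfr := Sylow.normalizer_sup_eq_top Q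
    set N := normalizer (Q' : Set H) with hN
    have h1 : K.relIndex N = p := by
      rw [← hK, ← Subgroup.relIndex_top_right, ← hfr, sup_comm, Subgroup.relIndex_sup_left]
    have h2 : p ∣ Nat.card N := by
      rw [← h1]; exact Subgroup.relIndex_dvd_card K N
    obtain ⟨⟨y, hyN⟩, hy⟩ := exists_prime_orderOf_dvd_card' p h2
    rw [Subgroup.orderOf_mk] at hy
    have h3 : IsPGroup p (zpowers y) := IsPGroup.of_card (n := 1) (by
      rw [Nat.card_zpowers, hy, pow_one])
    obtain ⟨R, hR⟩ := h3.exists_le_sylow
    have h4 : zpowers y = (R : Subgroup H) :=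
      Subgroup.eq_of_le_of_card_ge hR (by rw [Nat.card_zpowers, hy, hsyl R])
    have h5 : Q' ≤ normalizer ((R : Subgroup H) : Set H) := by
      intro z hz
      have h6 := comm_of_small Q' (by rw [hQc]; exact hsmall r hr) hy hyN hz
      apply Subgroup.centralizer_le_normalizer
      rw [← h4, Subgroup.mem_centralizer_iff]
      intro w hw
      obtain ⟨k, rfl⟩ := Subgroup.mem_zpowers_iff.1 hw
      exact ((show Commute y z from h6).zpow_left k).eq
    have h6 : r ^ ((Nat.card K).factorization r) ∣ Nat.card (normalizer ((P : Subgroup H) : Set H)) := by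
      rw [← hNP R, ← hQc]
      exact Subgroup.card_dvd_of_le h5
    obtain ⟨m, hm⟩ := h6
    obtain ⟨l, hl⟩ := hrd
    rw [hm, hl, ← hcard] at hmul
    have h7 : r ^ ((Nat.card K).factorization r + 1) ∣ Nat.card K * p := by
      rw [← hmul]
      exact ⟨m * l, by rw [pow_succ]; ring⟩
    have h8 : Nat.Coprime (r ^ ((Nat.card K).factorization r + 1)) p :=
      Nat.Coprime.pow_left _ ((Nat.coprime_primes hr hp.out).2 hrp)
    have h9 := h8.dvd_of_dvd_mul_right h7
    exact Nat.pow_succ_factorization_not_dvd Nat.card_pos.ne' hr h9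
  rw [Subgroup.index_eq_one, Subgroup.normalizer_eq_top_iff] at hidx
  exact hidx

/-- certificates -/
def cert : List (ℕ × ℕ × List (ℕ × ℕ)) :=
  [(1, 0, [(19, 1), (2, 0)]), (2, 1, []), (3, 0, [(3, 1), (19, 1)]), (4, 0, [(2, 2), (19, 1)]), (5,
  0, [(5, 1), (19, 1)]), (6, 1, []), (7, 0, [(7, 1), (19, 1)]), (8, 0, [(2, 3), (19, 1)]), (10,
  1, []), (11, 0, [(11, 1), (19, 1)]), (12, 19, [(2, 4), (3, 3)]), (14, 1, []), (15, 19, [(3,
  3), (5, 5)]), (20, 19, [(2, 4), (5, 5)]), (21, 19, [(3, 3), (7, 7)]), (22, 1, []), (24, 19,
  [(2, 8), (3, 3)]), (28, 19, [(2, 4), (7, 7)]), (30, 1, []), (33, 19, [(3, 3), (11, 11)]), (35,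
  19, [(5, 5), (7, 7)]), (40, 19, [(2, 8), (5, 5)]), (42, 1, []), (44, 19, [(2, 4), (11, 11)]),
  (55, 19, [(5, 5), (11, 11)]), (56, 19, [(2, 8), (7, 7)]), (60, 19, [(2, 4), (3, 3), (5, 5)]),
  (66, 1, []), (70, 1, []), (77, 19, [(7, 7), (11, 11)]), (84, 19, [(2, 4), (3, 3), (7, 7)]),
  (88, 19, [(2, 8), (11, 11)]), (105, 19, [(3, 3), (5, 5), (7, 7)]), (110, 1, []), (120, 19,
  [(2, 8), (3, 3), (5, 5)]), (132, 19, [(2, 4), (3, 3), (11, 11)]), (140, 19, [(2, 4), (5, 5),
  (7, 7)]), (154, 1, []), (165, 19, [(3, 3), (5, 5), (11, 11)]), (168, 19, [(2, 8), (3, 3), (7,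
  7)]), (210, 1, []), (220, 19, [(2, 4), (5, 5), (11, 11)]), (231, 19, [(3, 3), (7, 7), (11,
  11)]), (264, 19, [(2, 8), (3, 3), (11, 11)]), (280, 19, [(2, 8), (5, 5), (7, 7)]), (308, 19,
  [(2, 4), (7, 7), (11, 11)]), (330, 1, []), (385, 19, [(5, 5), (7, 7), (11, 11)]), (420, 5,
  [(2, 4), (3, 3), (7, 7), (19, 19)]), (440, 19, [(2, 8), (5, 5), (11, 11)]), (462, 1, []),
  (616, 19, [(2, 8), (7, 7), (11, 11)]), (660, 19, [(2, 4), (3, 3), (5, 5), (11, 11)]), (770, 1,
  []), (840, 19, [(2, 8), (3, 3), (5, 5), (7, 7)]), (924, 19, [(2, 4), (3, 3), (7, 7), (11,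
  11)]), (1155, 19, [(3, 3), (5, 5), (7, 7), (11, 11)]), (1320, 19, [(2, 8), (3, 3), (5, 5),
  (11, 11)]), (1540, 19, [(2, 4), (5, 5), (7, 7), (11, 11)]), (1848, 19, [(2, 8), (3, 3), (7,
  7), (11, 11)]), (2310, 1, []), (3080, 11, [(2, 8), (5, 5), (7, 7), (19, 19)]), (4620, 19, [(2,
  4), (3, 3), (5, 5), (7, 7), (11, 11)]), (9240, 1, [])]

theorem certOK : cert.all (fun x => checkC 420 [175560] (19 * x.1) x.2) = true := by decide +kernel

theorem cover : (List.range 9241).all (fun m => !(9240 % m == 0) || (cert.map Prod.fst).contains m)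
    = true := by decide +kernel

theorem card_eq {S : Type u} [Group S] [Finite S] [IsSimpleGroup S] (hG : ¬ IsMulCommutative S)
    (h19 : 19 ∣ Nat.card S) (hd : Nat.card S ∣ 175560) : Nat.card S = 175560 := by
  obtain ⟨m, hm⟩ := h19
  have h1 : m ∣ 9240 := by
    rw [hm] at hd
    exact Nat.dvd_of_mul_dvd_mul_left (by norm_num : 0 < 19) (hd.trans (by norm_num))
  have h2 := List.all_eq_true.1 cover m (List.mem_range.2 (by
    have := Nat.le_of_dvd (by norm_num) h1
    omega))
  rw [Nat.mod_eq_zero_of_dvd h1] at h2
  simp only [beq_self_eq_true, Bool.not_true, Bool.false_or, List.contains_iff_mem,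
    List.mem_map] at h2
  obtain ⟨x, hx, hx2⟩ := h2
  have h3 := List.all_eq_true.1 certOK x hx
  rw [hx2, ← hm] at h3
  have h4 := mem_of_checkC hG h3
  simpa using h4

theorem main {H : Type u} [Group H] [Finite H] (hd : Nat.card H ∣ 175560) (h19 : 19 ∣ Nat.card H)
    (hs : Nat.card H = 175560 → ¬ IsSimpleGroup H) [Fact (Nat.Prime 19)] (P : Sylow 19 H) :
    (P : Subgroup H).Normal := by
  obtain ⟨n, hn⟩ : ∃ n, Nat.card H = n := ⟨_, rfl⟩
  induction n using Nat.strong_induction_on generalizing H with
  | _ n ih =>
    have hnt : Nontrivial H := by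
      rw [← Finite.one_lt_card_iff_nontrivial]
      have := Nat.le_of_dvd Nat.card_pos h19
      omega
    have h19' : ¬ 19 ^ 2 ∣ Nat.card H := fun h => absurd (h.trans hd) (by norm_num)
    -- a maximal normal subgroup
    obtain ⟨K, hK⟩ : ∃ K : Subgroup H, Maximal (fun K : Subgroup H => K.Normal ∧ K ≠ ⊤) K :=
      (Set.toFinite {K : Subgroup H | K.Normal ∧ K ≠ ⊤}).exists_maximal
        ⟨⊥, inferInstance, bot_ne_top⟩
    have hKn : K.Normal := hK.prop.1
    have hKt : K ≠ ⊤ := hK.prop.2
    have hcard := K.card_mul_index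
    have hKlt : Nat.card K < Nat.card H := by
      by_contra hcon
      push Not at hcon
      exact hKt (Subgroup.eq_top_of_le_card K hcon)
    have hsimp : IsSimpleGroup (H ⧸ K) := by
      have hnt' : Nontrivial (H ⧸ K) := QuotientGroup.nontrivial_iff.2 hKt
      refine ⟨fun L hL => ?_⟩
      have h1 : (L.comap (QuotientGroup.mk' K)).Normal := hL.comap _
      have h2 : K ≤ L.comap (QuotientGroup.mk' K) := by
        intro k hk
        rw [Subgroup.mem_comap]
        have : (QuotientGroup.mk' K) k = 1 := (QuotientGroup.eq_one_iff k).2 hk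
        rw [this]
        exact one_mem L
      by_cases h3 : L.comap (QuotientGroup.mk' K) = ⊤
      · right
        rw [← Subgroup.map_comap_eq_self_of_surjective (QuotientGroup.mk'_surjective K) L, h3]
        exact Subgroup.map_top_of_surjective _ (QuotientGroup.mk'_surjective K)
      · left
        have h4 := hK.le_of_ge ⟨h1, h3⟩ h2
        rw [← Subgroup.map_comap_eq_self_of_surjective (QuotientGroup.mk'_surjective K) L,
          Subgroup.map_eq_bot_iff, QuotientGroup.ker_mk']
        exact h4
    by_cases hK19 : 19 ∣ Nat.card K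
    · have h1 : ¬ 19 ∣ K.index := by
        intro h2
        apply h19'
        rw [← hcard, pow_two]
        exact Nat.mul_dvd_mul hK19 h2
      have h2 := sylow_le_of_not_dvd_index P K h1
      have hKd : Nat.card K ∣ 175560 := (Subgroup.card_subgroup_dvd_card K).trans hd
      have h175 : Nat.card K ≠ 175560 := by
        have := Nat.le_of_dvd (by norm_num) hd
        omega
      have h3 := ih (Nat.card K) (by rw [← hn]; exact hKlt) hKd hK19 (fun h => absurd h h175)
        (P.subtype h2) rfl
      refine sylow_normal_of_normal_le P K h2 ?_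
      have h6 : Subsingleton (Sylow 19 K) := (Sylow.unique_of_normal _ h3).instSubsingleton
      exact Nat.card_eq_one_iff_unique.2 ⟨h6, ⟨P.subtype h2⟩⟩
    · have hi : Nat.card (H ⧸ K) = K.index := rfl
      have h19i : 19 ∣ K.index := by
        rw [← hcard] at h19
        exact ((Nat.Prime.dvd_mul (by norm_num)).1 h19).resolve_left hK19
      have hid : K.index ∣ 175560 := (Subgroup.index_dvd_card K).trans hd
      by_cases hc : IsMulCommutative (H ⧸ K)
      · have hprime : (Nat.card (H ⧸ K)).Prime := by
          let _ : CommGroup (H ⧸ K) :=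
            { (inferInstance : Group (H ⧸ K)) with mul_comm := hc.is_comm.comm }
          exact IsSimpleGroup.prime_card
        rw [hi] at hprime
        have h1 : K.index = 19 := ((Nat.prime_dvd_prime_iff_eq (by norm_num) hprime).1 h19i).symm
        refine normal_of_small K h1 hK19 ?_ P
        intro q hq
        have h2 : q ^ ((Nat.card K).factorization q) ∣ 9240 := by
          have h3 : Nat.card K * 19 ∣ 9240 * 19 := by
            have h5 := hd
            rw [← hcard, h1] at h5
            exact h5.trans (by norm_num)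
          exact (Nat.ordProj_dvd _ _).trans (Nat.dvd_of_mul_dvd_mul_right (by norm_num) h3)
        rcases Nat.eq_zero_or_pos ((Nat.card K).factorization q) with h3 | h3
        · rw [h3, pow_zero]; norm_num
        · have h4 : q ∣ 9240 := (dvd_pow_self q h3.ne').trans h2
          have h5 : q ∈ Nat.primeFactors 9240 := Nat.mem_primeFactors.2 ⟨hq, h4, by norm_num⟩
          generalize (Nat.card K).factorization q = t at h2
          have h6 : q = 2 ∨ q = 3 ∨ q = 5 ∨ q = 7 ∨ q = 11 := by
            have h7 : (9240 : ℕ) = 2 ^ 3 * (3 * (5 * (7 * 11))) := by norm_num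
            rw [h7] at h4
            rcases (Nat.Prime.dvd_mul hq).1 h4 with h8 | h8
            · left
              exact (Nat.prime_dvd_prime_iff_eq hq (by norm_num)).1 (hq.dvd_of_dvd_pow h8)
            · rcases (Nat.Prime.dvd_mul hq).1 h8 with h8 | h8
              · right; left
                exact (Nat.prime_dvd_prime_iff_eq hq (by norm_num)).1 h8
              · rcases (Nat.Prime.dvd_mul hq).1 h8 with h8 | h8
                · right; right; left
                  exact (Nat.prime_dvd_prime_iff_eq hq (by norm_num)).1 h8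
                · rcases (Nat.Prime.dvd_mul hq).1 h8 with h8 | h8
                  · right; right; right; left
                    exact (Nat.prime_dvd_prime_iff_eq hq (by norm_num)).1 h8
                  · right; right; right; right
                    exact (Nat.prime_dvd_prime_iff_eq hq (by norm_num)).1 h8
          have h8 : ∀ a b : ℕ, b ≤ t → q ^ b ∣ 9240 := fun a b hb => (pow_dvd_pow q hb).trans h2
          by_contra hcon
          push Not at hcon
          rcases h6 with rfl | rfl | rfl | rfl | rfl
          · have : 4 ≤ t := by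
              by_contra h9
              have : t ≤ 3 := by omega
              interval_cases t <;> norm_num at hcon
            exact absurd (h8 0 4 this) (by norm_num)
          · have : 2 ≤ t := by
              by_contra h9
              have : t ≤ 1 := by omega
              interval_cases t <;> norm_num at hcon
            exact absurd (h8 0 2 this) (by norm_num)
          · have : 2 ≤ t := by
              by_contra h9
              have : t ≤ 1 := by omega
              interval_cases t <;> norm_num at hcon
            exact absurd (h8 0 2 this) (by norm_num)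
          · have : 2 ≤ t := by
              by_contra h9
              have : t ≤ 1 := by omega
              interval_cases t <;> norm_num at hcon
            exact absurd (h8 0 2 this) (by norm_num)
          · have : 2 ≤ t := by
              by_contra h9
              have : t ≤ 1 := by omega
              interval_cases t <;> norm_num at hcon
            exact absurd (h8 0 2 this) (by norm_num)
      · exfalso
        have h1 := card_eq hc (by rw [hi]; exact h19i) (by rw [hi]; exact hid)
        rw [hi] at h1
        have h2 : Nat.card K = 1 := by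
          have h3 := Nat.le_of_dvd (by norm_num) hd
          rw [h1] at hcard
          have : 0 < Nat.card K := Nat.card_pos
          omega
        have h3 : Nat.card H = 175560 := by rw [← hcard, h1, h2]
        apply hs h3
        have h4 : K = ⊥ := Subgroup.card_eq_one.1 h2
        subst h4
        exact IsSimpleGroup.isSimpleGroup_of_surjective (G := H ⧸ (⊥ : Subgroup H))
          (QuotientGroup.quotientBot (G := H)).toMonoidHom (QuotientGroup.quotientBot (G := H)).surjective

end H21.NE.O175560
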