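import Cfsg.Agent.Lib.H21.BrauerNum

set_option autoImplicit false
set_option synthInstance.maxSize 2000

/-! No simple group of order 1004913. -/

namespace H21.Order1004913

open H21.BrauerSimple H21.SimpleBasic H21.SylowTools H21.PrimeStruct H21.BrauerNum

universe u

variable {G : Type u} [Group G] [Fintype G] [IsSimpleGroup G]

theorem div1 {n : ℕ} (h : n ∣ 2457) : n ∈ Nat.divisors 2457 := Nat.mem_divisors.2 ⟨h, by norm_num⟩

theorem divs : Nat.divisors 2457 = {1, 3, 7, 9, 13, 21, 27, 39, 63, 91, 117, 189, 273, 351, 819, 2457} := by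
  decide +kernel

theorem not_1004913 : Nat.card G ≠ 1004913 := by
  intro h
  have hG : ¬ IsMulCommutative G := not_comm_of_card_not_prime (by rw [h]; norm_num)
  have h409 : Fact (Nat.Prime 409) := ⟨by norm_num⟩
  have hP : ∀ P : Sylow 409 G, Nat.card (P : Subgroup G) = 409 :=
    card_sylow_eq_prime (p := 409) (m := 2457) h (by norm_num)
  have h1 : Nat.card (Sylow 409 G) ∣ 2457 := card_sylow_dvd_of_card (a := 1) (m := 2457) (by rw [h]; norm_num)
  have h2 : Nat.card (Sylow 409 G) ≡ 1 [MOD 409] := card_sylow_modEq_one 409 G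
  have h3 : Nat.card (Sylow 409 G) ≠ 1 := card_sylow_ne_one hG (by rw [h]; norm_num)
  have hr : Nat.card (Sylow 409 G) = 1 + 2 * 409 := by
    have key : ∀ n ∈ ({1, 3, 7, 9, 13, 21, 27, 39, 63, 91, 117, 189, 273, 351, 819, 2457} : Finset ℕ),
        n % 409 = 1 % 409 → n ≠ 1 → n = 1 + 2 * 409 := by decide +kernel
    exact key _ (by rw [← divs]; exact div1 h1) h2 h3
  obtain ⟨P⟩ := (inferInstance : Nonempty (Sylow 409 G))
  obtain ⟨c, e, hc, hN, he1, he2, hcr, hcard⟩ := structure_prime hG hP hr P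
  rw [h] at hcard
  have hce : c * e = 3 := by
    have : 409 * 819 * (c * e) = 409 * 819 * 3 := by rw [← mul_assoc]; linarith
    exact Nat.eq_of_mul_eq_mul_left (by norm_num) this
  have he : e = 3 := by
    have hd : e ∣ 3 := ⟨c, by rw [← hce]; ring⟩
    rcases (Nat.dvd_prime Nat.prime_three).1 hd with h5 | h5
    · exact absurd h5 he2
    · exact h5
  have hc1 : c = 1 := by rw [he] at hce; omega
  rw [hc1, mul_one] at hc
  rw [hc1, he, mul_one] at hN
  obtain ⟨d, d', f, hd1, hd1', hf1, hd2, hd2', hf2, hd3, -⟩ :=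
    e_three' (s := 136) (m := 2457) P (hP P) hc hN (by norm_num) (by norm_num) hG h
  have k1 : ∀ n ∈ ({1, 3, 7, 9, 13, 21, 27, 39, 63, 91, 117, 189, 273, 351, 819, 2457} : Finset ℕ),
        n % 409 = 1 → 1 < n → n = 819 := by decide +kernel
  have k2 : ∀ n ∈ ({1, 3, 7, 9, 13, 21, 27, 39, 63, 91, 117, 189, 273, 351, 819, 2457} : Finset ℕ),
        ¬ n % 409 = 409 - 1 := by decide +kernel
  have m1 := div1 hd2
  have m2 := div1 hd2'
  rw [divs] at m1 m2
  rcases hd3 with ⟨h5, h6, h7⟩ | ⟨h5, h6, h7⟩ | ⟨h5, h6, h7⟩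
  · rw [k1 d m1 h5 hd1, k1 d' m2 h6 hd1'] at h7
    rw [h7, h] at hf2
    norm_num at hf2
  · exact k2 d' m2 h6
  · exact k2 d' m2 h6

end H21.Order1004913
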