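import Cfsg.Agent.Lib.H21.Order168d

set_option autoImplicit false
set_option linter.unusedSectionVars false

/-! Local structure of simple groups of order 168, part 5: normalizers of four-groups. -/

namespace H21.Order168

open Subgroup MulAction H21.SimpleBasic H21.SylowTools H21.CountPrime H21.PrimeAct H21.PrimeCent
  H21.PrimeStruct H21.CountElts H21.SylowInter H21.SylowSub

attribute [local instance] fact7 fact3

variable {G : Type*} [Group G] [Finite G] [IsSimpleGroup G]

theorem isKleinFour_map {G' : Type*} [Group G'] {U : Subgroup G'} (hU : IsKleinFour U) (g : G') :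
    IsKleinFour (U.map (MulAut.conj g).toMonoidHom) := by
  have e : U ≃* U.map (MulAut.conj g).toMonoidHom :=
    Subgroup.equivMapOfInjective U _ (MulAut.conj g).injective
  refine ⟨by rw [← Nat.card_congr e.toEquiv, hU.card_four], ?_⟩
  rw [← Monoid.exponent_eq_of_mulEquiv e, hU.exponent_two]

theorem normalizer_map_conj {G' : Type*} [Group G'] (U : Subgroup G') (g : G') :
    normalizer ((U.map (MulAut.conj g).toMonoidHom : Subgroup G') : Set G') =
      (normalizer (U : Set G')).map (MulAut.conj g).toMonoidHom := by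
  have := Subgroup.map_equiv_normalizer_eq U (MulAut.conj g)
  exact this.symm

theorem not_conj_klein (h : Nat.card G = 168) (T : Sylow 2 G) {U W : Subgroup G}
    (hUT : U ≤ (T : Subgroup G)) (hWT : W ≤ (T : Subgroup G)) (hU : IsKleinFour U)
    (hW : IsKleinFour W) (hne : U ≠ W) (g : G) : U.map (MulAut.conj g).toMonoidHom ≠ W := by
  intro hg
  -- both `T` and `g T g⁻¹` are Sylow subgroups of `N(W)`
  have h1 := le_normalizer_klein h T hUT hU
  have h2 := le_normalizer_klein h T hWT hW
  have h3 : ((g • T : Sylow 2 G) : Subgroup G) ≤ normalizer (W : Set G) := by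
    rw [← hg, normalizer_map_conj]
    exact Subgroup.map_mono h1
  set T1 : Sylow 2 (normalizer (W : Set G)) := T.subtype h2 with hT1
  set T2 : Sylow 2 (normalizer (W : Set G)) := (g • T).subtype h3 with hT2
  obtain ⟨n, hn⟩ := MulAction.exists_smul_eq (normalizer (W : Set G)) T2 T1
  have h4 : (n : G) • (g • T) = T := by
    have h5 := Sylow.smul_subtype h3 n
    exact Sylow.subtype_injective (h5.symm.trans hn)
  rw [← mul_smul] at h4
  have h5 : (n : G) * g ∈ (T : Subgroup G) := by
    rw [← normalizer_two h T]
    exact Sylow.smul_eq_iff_mem_normalizer.1 h4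
  have h6 : (n : G) * g ∈ normalizer (U : Set G) := h1 h5
  have h7 : U.map (MulAut.conj ((n : G) * g)).toMonoidHom = U :=
    Subgroup.mem_normalizer_iff_map_conj_eq.1 h6
  have h8 : W.map (MulAut.conj (n : G)).toMonoidHom = W :=
    Subgroup.mem_normalizer_iff_map_conj_eq.1 n.2
  have h9 : U.map (MulAut.conj ((n : G) * g)).toMonoidHom =
      (U.map (MulAut.conj g).toMonoidHom).map (MulAut.conj (n : G)).toMonoidHom := by
    rw [Subgroup.map_map]
    congr 1
    ext x
    simp [mul_assoc]
  exact hne (h7.symm.trans (h9.trans ((congrArg (Subgroup.map _) hg).trans h8)))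

/-- a subgroup of order 24 acts faithfully on its four Sylow 3-subgroups -/
theorem iso_of_card_eq (h : Nat.card G = 168) {M : Subgroup G} (hM : Nat.card M = 24) :
    Nat.card (Sylow 3 M) = 4 ∧ Nonempty (M ≃* Equiv.Perm (Fin 4)) := by
  have hc3 : Nat.card M = 3 ^ 1 * 8 := by rw [hM]; norm_num
  have hP3 : ∀ P : Sylow 3 M, Nat.card (P : Subgroup M) = 3 := fun P => by
    rw [card_sylow_eq_pow hc3 (by norm_num) P, pow_one]
  have hsyl : ∀ P : Sylow 3 M, ∃ Q : Sylow 3 G, (Q : Subgroup G) = (P : Subgroup M).map M.subtype := by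
    intro P
    have h1 : Nat.card ((P : Subgroup M).map M.subtype) = 3 := by
      rw [← Nat.card_congr (Subgroup.equivMapOfInjective (P : Subgroup M) _
        M.subtype_injective).toEquiv, hP3 P]
    have h2 : IsPGroup 3 ((P : Subgroup M).map M.subtype) := by
      rw [IsPGroup.iff_card]
      exact ⟨1, by rw [h1, pow_one]⟩
    obtain ⟨Q, hQ⟩ := h2.exists_le_sylow
    exact ⟨Q, (Subgroup.eq_of_le_of_card_ge hQ (by rw [h1, ((three h).2 Q).1])).symm⟩
  have hNle : ∀ P : Sylow 3 M, Nat.card (normalizer ((P : Subgroup M) : Set M)) ≤ 6 := by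
    intro P
    obtain ⟨Q, hQ⟩ := hsyl P
    rw [← ((three h).2 Q).2.2, hQ]
    have h1 : (normalizer ((P : Subgroup M) : Set M)).map M.subtype ≤
        normalizer (((P : Subgroup M).map M.subtype : Subgroup G) : Set G) :=
      Subgroup.le_normalizer_map M.subtype
    calc Nat.card (normalizer ((P : Subgroup M) : Set M))
        = Nat.card ((normalizer ((P : Subgroup M) : Set M)).map M.subtype) :=
          Nat.card_congr (Subgroup.equivMapOfInjective _ _ M.subtype_injective).toEquiv
      _ ≤ _ := Nat.card_le_card_of_injective _ (Subgroup.inclusion_injective h1)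
  have hn4 : Nat.card (Sylow 3 M) = 4 := by
    have h1 := card_sylow_modEq_one 3 M
    have h2 := card_sylow_dvd_of_card (G := M) hc3
    have h3 : Nat.card (Sylow 3 M) ≤ 8 := Nat.le_of_dvd (by norm_num) h2
    obtain ⟨P⟩ : Nonempty (Sylow 3 M) := inferInstance
    have h4 := card_normalizer_mul_card_sylow P
    have h5 := hNle P
    rw [hM] at h4
    have h6 : Nat.card (Sylow 3 M) ≠ 1 := by
      intro hh
      rw [hh] at h4
      omega
    unfold Nat.ModEq at h1
    interval_cases (Nat.card (Sylow 3 M)) <;> omega
  refine ⟨hn4, ?_⟩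
  -- the kernel of the action
  have hinj : Function.Injective (MulAction.toPermHom M (Sylow 3 M)) := by
    rw [← MonoidHom.ker_eq_bot_iff]
    by_contra hK
    set K := (MulAction.toPermHom M (Sylow 3 M)).ker with hKdef
    have hKN : ∀ x ∈ K, ∀ P : Sylow 3 M, x ∈ normalizer ((P : Subgroup M) : Set M) := by
      intro x hx P
      rw [hKdef, MonoidHom.mem_ker] at hx
      have h1 : x • P = P := by
        have := congrArg (fun f : Equiv.Perm (Sylow 3 M) => f P) hx
        simpa using this
      exact Sylow.smul_eq_iff_mem_normalizer.1 h1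
    obtain ⟨P⟩ : Nonempty (Sylow 3 M) := inferInstance
    have hKc : Nat.card K ∣ 6 := by
      have h1 : K ≤ normalizer ((P : Subgroup M) : Set M) := fun x hx => hKN x hx P
      have h2 := card_normalizer_mul_card_sylow P
      rw [hn4, hM] at h2
      have h3 : Nat.card (normalizer ((P : Subgroup M) : Set M)) = 6 := by omega
      rw [← h3]
      exact Subgroup.card_dvd_of_le h1
    have hK3 : ¬ 3 ∣ Nat.card K := by
      intro h3
      obtain ⟨x, hx⟩ := exists_prime_orderOf_dvd_card' 3 h3
      have hx' : orderOf (x : M) = 3 := by rw [Subgroup.orderOf_coe, hx]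
      have h4 : ∀ Q : Sylow 3 M, (Q : Subgroup M) = zpowers (x : M) := by
        intro Q
        have h5 : IsPGroup 3 (zpowers (x : M)) := by
          rw [IsPGroup.iff_card]
          exact ⟨1, by rw [Nat.card_zpowers, hx', pow_one]⟩
        have h6 : zpowers (x : M) ≤ (Q : Subgroup M) := by
          have h7 := h5.inf_normalizer_sylow Q
          have h8 : zpowers (x : M) ≤ normalizer ((Q : Subgroup M) : Set M) := by
            rw [zpowers_le]
            exact hKN x x.2 Q
          calc zpowers (x : M) = zpowers (x : M) ⊓ normalizer ((Q : Subgroup M) : Set M) :=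
                (inf_eq_left.2 h8).symm
            _ = zpowers (x : M) ⊓ (Q : Subgroup M) := h7
            _ ≤ (Q : Subgroup M) := inf_le_right
        exact (Subgroup.eq_of_le_of_card_ge h6 (by rw [hP3 Q, Nat.card_zpowers, hx'])).symm
      have h5 : Subsingleton (Sylow 3 M) :=
        ⟨fun Q R => Sylow.ext ((h4 Q).trans (h4 R).symm)⟩
      have h6 := Finite.card_le_one_iff_subsingleton.2 h5
      omega
    have hK2 : Nat.card K = 2 := by
      have h1 : Nat.card K ≠ 1 := fun hh => hK (Subgroup.card_eq_one.1 hh)
      have h2 := Nat.le_of_dvd (by norm_num) hKc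
      interval_cases (Nat.card K) <;> omega
    obtain ⟨x, hx⟩ := exists_prime_orderOf_dvd_card' (G := K) 2 (by rw [hK2])
    have hx2 : orderOf (x : M) = 2 := by rw [Subgroup.orderOf_coe, hx]
    have hKx : ∀ y ∈ K, y = 1 ∨ y = x := by
      intro y hy
      have h1 : K = zpowers (x : M) := by
        symm
        refine Subgroup.eq_of_le_of_card_ge ?_ (by rw [Nat.card_zpowers, hx2, hK2])
        rw [zpowers_le]
        exact x.2
      rw [h1, mem_zpowers_iff] at hy
      obtain ⟨k, rfl⟩ := hy
      have h5 : (x : M) ^ k = (x : M) ^ (k % 2).toNat := by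
        rw [← zpow_natCast, Int.toNat_of_nonneg (Int.emod_nonneg _ (by norm_num))]
        have : (2 : ℤ) = (orderOf (x : M) : ℤ) := by rw [hx2]; rfl
        rw [this, zpow_mod_orderOf]
      rw [h5]
      have h6 : (k % 2).toNat < 2 := by omega
      interval_cases (k % 2).toNat
      · left; exact pow_zero _
      · right; exact pow_one _
    have hcen : ∀ y : M, y * x = x * y := by
      intro y
      have h1 : y * x * y⁻¹ ∈ K := (MonoidHom.normal_ker _).conj_mem _ x.2 y
      rcases hKx _ h1 with h2 | h2
      · exfalso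
        have : (x : M) = 1 := by
          have := congrArg (fun w => y⁻¹ * w * y) h2
          simpa [mul_assoc] using this
        rw [this, orderOf_one] at hx2
        norm_num at hx2
      · calc y * x = (y * x * y⁻¹) * y := by group
          _ = x * y := by rw [h2]
    have hxG : orderOf ((x : M) : G) = 2 := by rw [Subgroup.orderOf_coe, hx2]
    have h3 : 3 ∣ Nat.card (centralizer ({((x : M) : G)} : Set G)) := by
      have h1 : M ≤ centralizer ({((x : M) : G)} : Set G) := by
        intro y hy
        rw [mem_centralizer_singleton_iff]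
        exact congrArg (fun w : M => w.1) (hcen ⟨y, hy⟩)
      exact (by rw [hM]; norm_num : 3 ∣ Nat.card M).trans (Subgroup.card_dvd_of_le h1)
    have h4 := isPGroup_centralizer h hxG
    obtain ⟨n, hn⟩ := (IsPGroup.iff_card.1 h4)
    rw [hn] at h3
    have := (Nat.Prime.dvd_of_dvd_pow Nat.prime_three h3)
    norm_num at this
  have hbij : Function.Bijective (MulAction.toPermHom M (Sylow 3 M)) := by
    refine hinj.bijective_of_nat_card_le ?_
    rw [Nat.card_perm, hn4, hM]
    norm_num [Nat.factorial]
  exact ⟨(MulEquiv.ofBijective _ hbij).trans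
    (Finite.equivFinOfCardEq hn4).permCongrHom⟩

theorem exists_le_sylow_klein {U : Subgroup G} (hU : IsKleinFour U) :
    ∃ T : Sylow 2 G, U ≤ (T : Subgroup G) := by
  have h2 : IsPGroup 2 U := by
    rw [IsPGroup.iff_card]
    exact ⟨2, by rw [hU.card_four]; norm_num⟩
  exact h2.exists_le_sylow

theorem card_le_24 (h : Nat.card G = 168) {M : Subgroup G} (hM : M ≠ ⊤) : Nat.card M ≤ 24 := by
  have h1 := Subgroup.card_mul_index M
  rw [h] at h1
  have h2 := dvd_factorial_of_card (noncomm h) M hM (k := M.index) (by rw [h1, h])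
  rw [h] at h2
  by_contra hcon
  have h3 : M.index < 7 := by
    by_contra h4
    have : 25 * 7 ≤ Nat.card M * M.index := Nat.mul_le_mul (by omega) (by omega)
    omega
  interval_cases M.index <;> norm_num [Nat.factorial] at h2

theorem normalizer_ne_top {U : Subgroup G} (hU : IsKleinFour U) (h : Nat.card G = 168) :
    normalizer (U : Set G) ≠ ⊤ := by
  intro hh
  have h1 : U.Normal := Subgroup.normalizer_eq_top_iff.1 hh
  rcases h1.eq_bot_or_eq_top with h2 | h2
  · have := hU.card_four
    rw [h2, Subgroup.card_bot] at this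
    omega
  · have := hU.card_four
    rw [h2, Subgroup.card_top, h] at this
    omega

theorem card_normalizer_klein (h : Nat.card G = 168) {U : Subgroup G} (hU : IsKleinFour U) :
    Nat.card (normalizer (U : Set G)) = 24 := by
  obtain ⟨T, hUT⟩ := exists_le_sylow_klein hU
  have h1 := le_normalizer_klein h T hUT hU
  have hT8 := card_sylow_two h T
  have h2 : 8 ∣ Nat.card (normalizer (U : Set G)) := by
    rw [← hT8]
    exact Subgroup.card_dvd_of_le h1
  have h3 := card_le_24 h (normalizer_ne_top hU h)
  have h4 : Nat.card (normalizer (U : Set G)) ∣ 168 := by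
    rw [← h]
    exact Subgroup.card_subgroup_dvd_card _
  have h5 : Nat.card (normalizer (U : Set G)) ≠ 8 := by
    intro h6
    obtain ⟨z, b, c, ⟨hzT, hbT, hcT⟩, ⟨hz, hb, hc, hbz, hcz⟩, ⟨hz1, hb1, hc1, hzb, hzc⟩,
      ⟨hcb, hczb, hncomm⟩, hC, hK⟩ := klein_structure h T
    obtain ⟨hzU, hbc⟩ := hK U hUT hU
    have key : ∀ t ∈ U, t * t = 1 → t ≠ 1 → ∀ y ∈ (T : Subgroup G), t * y = y * t := by
      intro t htU htt ht1 y hy
      have ht2 : orderOf t = 2 := orderOf_eq_prime (by rw [sq, htt]) ht1
      obtain ⟨T', hT'⟩ := centralizer_involution h ht2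
      have h7 : U ≤ (T' : Subgroup G) := by
        rw [← hT']
        intro x hx
        rw [mem_centralizer_singleton_iff]
        have := IsKleinFour.isMulCommutative (G := U)
        exact congrArg (fun z : U => z.1) (mul_comm' (⟨x, hx⟩ : U) ⟨t, htU⟩)
      have h8 := le_normalizer_klein h T' h7 hU
      have h9 : (T' : Subgroup G) = normalizer (U : Set G) :=
        Subgroup.eq_of_le_of_card_ge h8 (by rw [h6, card_sylow_two h T'])
      have h10 : y ∈ centralizer ({t} : Set G) := by
        rw [hT', h9]
        exact h1 hy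
      exact (mem_centralizer_singleton_iff.1 h10).symm
    rcases hbc with hh | hh
    · exact hncomm (key b hh hb hb1 c hcT).symm
    · exact hncomm (key c hh hc hc1 b hbT)
  interval_cases (Nat.card (normalizer (U : Set G))) <;> omega

theorem normalizer_klein (h : Nat.card G = 168) {U : Subgroup G} (hU : IsKleinFour U) :
    Nonempty (normalizer (U : Set G) ≃* Equiv.Perm (Fin 4)) :=
  (iso_of_card_eq h (card_normalizer_klein h hU)).2

end H21.Order168
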