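import Cfsg.Agent.Lib.H21.Order168e

set_option autoImplicit false
set_option linter.unusedSectionVars false
set_option linter.unusedVariables false

/-! Local structure of simple groups of order 168, part 6: maximal subgroups. -/

namespace H21.Order168

open Subgroup MulAction H21.SimpleBasic H21.SylowTools H21.CountPrime H21.PrimeAct H21.PrimeCent
  H21.PrimeStruct H21.CountElts H21.SylowInter H21.SylowSub

attribute [local instance] fact7 fact3

/-- Sylow subgroups of a subgroup `M` are Sylow in `G` when they have the same order. -/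
theorem exists_sylow_map {G : Type*} [Group G] [Finite G] {p k : ℕ} [hp : Fact p.Prime]
    {M : Subgroup G} (hG : ∀ Q : Sylow p G, Nat.card (Q : Subgroup G) = k)
    (P : Sylow p M) (hP : Nat.card (P : Subgroup M) = k) :
    ∃ Q : Sylow p G, (Q : Subgroup G) = (P : Subgroup M).map M.subtype := by
  have h1 : Nat.card ((P : Subgroup M).map M.subtype) = k := by
    rw [← Nat.card_congr (Subgroup.equivMapOfInjective (P : Subgroup M) _
      M.subtype_injective).toEquiv, hP]
  have h2 : IsPGroup p ((P : Subgroup M).map M.subtype) := P.2.map _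
  obtain ⟨Q, hQ⟩ := h2.exists_le_sylow
  exact ⟨Q, (Subgroup.eq_of_le_of_card_ge hQ (by rw [h1, hG Q])).symm⟩

theorem le_normalizer_of_card_sylow_eq_one {G : Type*} [Group G] [Finite G] {p : ℕ}
    [hp : Fact p.Prime] {M : Subgroup G} (P : Sylow p M) (h1 : Nat.card (Sylow p M) = 1) :
    M ≤ normalizer (((P : Subgroup M).map M.subtype : Subgroup G) : Set G) := by
  have h2 : Subsingleton (Sylow p M) := Finite.card_le_one_iff_subsingleton.1 h1.le
  have h3 : (P : Subgroup M).Normal := by
    have := P.normal_of_subsingleton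
    exact this
  have h4 := Subgroup.le_normalizer_map (H := (P : Subgroup M)) M.subtype
  have h5 : normalizer ((P : Subgroup M) : Set M) = ⊤ := Subgroup.normalizer_eq_top_iff.2 h3
  rw [h5] at h4
  intro x hx
  exact h4 ⟨⟨x, hx⟩, Subgroup.mem_top _, rfl⟩

variable {G : Type*} [Group G] [Finite G] [IsSimpleGroup G]

theorem isCoatom_of_card (h : Nat.card G = 168) {M : Subgroup G} (hM : Nat.card M = 24) :
    IsCoatom M := by
  refine ⟨?_, ?_⟩
  · rintro rfl
    rw [Subgroup.card_top, h] at hM
    omega
  · intro K hK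
    by_contra hne
    have h1 := card_le_24 h hne
    exact hK.ne (Subgroup.eq_of_le_of_card_ge hK.le (by rw [hM]; exact h1))

theorem exists_klein_sylow (h : Nat.card G = 168) (T : Sylow 2 G) :
    ∃ U : Subgroup G, U ≤ (T : Subgroup G) ∧ IsKleinFour U := by
  have h1 := card_klein h T
  have h2 : Nonempty {U : Subgroup G // U ≤ (T : Subgroup G) ∧ IsKleinFour U} := by
    rw [← Finite.card_pos_iff, h1]
    norm_num
  obtain ⟨⟨U, hU⟩⟩ := h2
  exact ⟨U, hU⟩

theorem normalizer_three_le (h : Nat.card G = 168) (P : Sylow 3 G) :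
    ∃ U : Subgroup G, IsKleinFour U ∧
      normalizer ((P : Subgroup G) : Set G) ≤ normalizer (U : Set G) := by
  obtain ⟨T⟩ : Nonempty (Sylow 2 G) := inferInstance
  obtain ⟨U, hUT, hU⟩ := exists_klein_sylow h T
  have hN := card_normalizer_klein h hU
  set M := normalizer (U : Set G) with hMdef
  have hc3 : Nat.card M = 3 ^ 1 * 8 := by rw [hN]; norm_num
  obtain ⟨P'⟩ : Nonempty (Sylow 3 M) := inferInstance
  have hP' : Nat.card (P' : Subgroup M) = 3 := by
    rw [card_sylow_eq_pow hc3 (by norm_num) P', pow_one]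
  obtain ⟨Q, hQ⟩ := exists_sylow_map (fun Q => ((three h).2 Q).1) P' hP'
  have h1 := card_normalizer_mul_card_sylow P'
  rw [(iso_of_card_eq h hN).1, hN] at h1
  have h2 : Nat.card (normalizer ((P' : Subgroup M) : Set M)) = 6 := by omega
  have h3 : (normalizer ((P' : Subgroup M) : Set M)).map M.subtype ≤
      normalizer ((Q : Subgroup G) : Set G) := by
    rw [hQ]
    exact Subgroup.le_normalizer_map M.subtype
  have h4 : (normalizer ((P' : Subgroup M) : Set M)).map M.subtype =
      normalizer ((Q : Subgroup G) : Set G) := by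
    refine Subgroup.eq_of_le_of_card_ge h3 ?_
    rw [((three h).2 Q).2.2, ← Nat.card_congr (Subgroup.equivMapOfInjective _ _
      M.subtype_injective).toEquiv, h2]
  have h5 : normalizer ((Q : Subgroup G) : Set G) ≤ M := by
    rw [← h4]
    exact Subgroup.map_subtype_le _
  obtain ⟨g, hg⟩ := MulAction.exists_smul_eq G Q P
  refine ⟨U.map (MulAut.conj g).toMonoidHom, isKleinFour_map hU g, ?_⟩
  rw [normalizer_map_conj, ← hg]
  have h6 : (((g • Q : Sylow 3 G) : Subgroup G) : Set G) =
      (((Q : Subgroup G).map (MulAut.conj g).toMonoidHom : Subgroup G) : Set G) := rfl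
  rw [h6, normalizer_map_conj]
  exact Subgroup.map_mono h5

/-- the maximal subgroups -/
theorem maximal_cases (h : Nat.card G = 168) {M : Subgroup G} (hM : IsCoatom M) :
    Nat.card M = 24 ∨ ∃ P : Sylow 7 G, M = normalizer ((P : Subgroup G) : Set G) := by
  have hle := card_le_24 h hM.1
  have hdvd : Nat.card M ∣ 168 := by
    rw [← h]
    exact Subgroup.card_subgroup_dvd_card _
  have heq : ∀ K : Subgroup G, K ≠ ⊤ → M ≤ K → M = K := by
    intro K hK hMK
    rcases eq_or_lt_of_le hMK with h1 | h1
    · exact h1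
    · exact absurd (hM.2 K h1) hK
  by_cases h7 : 7 ∣ Nat.card M
  · right
    obtain ⟨m, hm⟩ := h7
    have hm3 : m ≤ 3 := by omega
    have hm0 : m ≠ 0 := by
      rintro rfl
      rw [mul_zero] at hm
      exact absurd hm Nat.card_pos.ne'
    have hc7 : Nat.card M = 7 ^ 1 * m := by rw [hm, pow_one]
    have hm7 : ¬ 7 ∣ m := by
      intro hh
      have := Nat.le_of_dvd (Nat.pos_of_ne_zero hm0) hh
      omega
    obtain ⟨P'⟩ : Nonempty (Sylow 7 M) := inferInstance
    have hP' : Nat.card (P' : Subgroup M) = 7 := by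
      rw [card_sylow_eq_pow hc7 hm7 P', pow_one]
    obtain ⟨Q, hQ⟩ := exists_sylow_map (fun Q => ((seven h).2 Q).1) P' hP'
    have h1 := card_sylow_modEq_one 7 M
    have h2 := card_sylow_dvd_of_card (G := M) hc7
    have h3 : Nat.card (Sylow 7 M) ≤ m := Nat.le_of_dvd (Nat.pos_of_ne_zero hm0) h2
    have h4 : Nat.card (Sylow 7 M) = 1 := by
      unfold Nat.ModEq at h1
      omega
    have h5 := le_normalizer_of_card_sylow_eq_one P' h4
    rw [← hQ] at h5
    exact ⟨Q, heq _ (normalizer_sylow_ne_top (noncomm h) (by rw [h]; norm_num) Q) h5⟩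
  · left
    by_contra h24
    have h3 : 3 ∣ Nat.card M := by
      by_contra h3
      -- `M` is a 2-group
      have h8 : Nat.card M ∣ 2 ^ 3 := by
        have e : 168 = 7 * 3 * 8 := by norm_num
        rw [e] at hdvd
        have c7 : Nat.Coprime (Nat.card M) 7 :=
          ((Nat.Prime.coprime_iff_not_dvd (by norm_num)).2 h7).symm
        have c3 : Nat.Coprime (Nat.card M) 3 :=
          ((Nat.Prime.coprime_iff_not_dvd (by norm_num)).2 h3).symm
        exact (Nat.Coprime.mul_right c7 c3).dvd_of_dvd_mul_left hdvd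
      obtain ⟨k, -, hk⟩ := (Nat.dvd_prime_pow Nat.prime_two).1 h8
      have hp : IsPGroup 2 M := IsPGroup.iff_card.2 ⟨k, hk⟩
      obtain ⟨T, hT⟩ := hp.exists_le_sylow
      obtain ⟨U, hUT, hU⟩ := exists_klein_sylow h T
      have h1 := heq _ (normalizer_ne_top hU h) (hT.trans (le_normalizer_klein h T hUT hU))
      exact h24 (by rw [h1, card_normalizer_klein h hU])
    obtain ⟨m, hm⟩ := h3
    have hm3 : ¬ 3 ∣ m := by
      rintro ⟨k, hk⟩
      rw [hk] at hm
      have h9 : 9 ∣ Nat.card M := ⟨k, hm.trans (by ring)⟩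
      have h10 : 9 ∣ 168 := h9.trans hdvd
      norm_num at h10
    have hc3 : Nat.card M = 3 ^ 1 * m := by rw [hm, pow_one]
    obtain ⟨P'⟩ : Nonempty (Sylow 3 M) := inferInstance
    have hP' : ∀ P' : Sylow 3 M, Nat.card (P' : Subgroup M) = 3 := fun P' => by
      rw [card_sylow_eq_pow hc3 hm3 P', pow_one]
    obtain ⟨Q, hQ⟩ := exists_sylow_map (fun Q => ((three h).2 Q).1) P' (hP' P')
    have hn1 : Nat.card (Sylow 3 M) ≠ 1 := by
      intro hn
      have h5 := le_normalizer_of_card_sylow_eq_one P' hn
      rw [← hQ] at h5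
      have h6 := heq _ (normalizer_sylow_ne_top (noncomm h) (by rw [h]; norm_num) Q) h5
      obtain ⟨U, hU, hQU⟩ := normalizer_three_le h Q
      have h7 := heq _ (normalizer_ne_top hU h) (h5.trans hQU)
      exact h24 (by rw [h7, card_normalizer_klein h hU])
    have h1 := card_sylow_modEq_one 3 M
    have h2 := card_sylow_dvd_of_card (G := M) hc3
    have hm8 : m ≤ 8 := by omega
    have hm0 : 0 < m := by
      rcases Nat.eq_zero_or_pos m with hh | hh
      · rw [hh, mul_zero] at hm
        exact absurd hm Nat.card_pos.ne'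
      · exact hh
    have h3' : Nat.card (Sylow 3 M) ≤ m := Nat.le_of_dvd hm0 h2
    have hm4 : m = 4 ∧ Nat.card (Sylow 3 M) = 4 := by
      have hmd : 3 * m ∣ 168 := by rw [← hm]; exact hdvd
      have hm7 : ¬ 7 ∣ 3 * m := by rw [← hm]; exact h7
      have hm24 : 3 * m ≠ 24 := by rw [← hm]; exact h24
      unfold Nat.ModEq at h1
      generalize Nat.card (Sylow 3 M) = n at h1 h2 h3' hn1
      have hn8 : n ≤ 8 := by omega
      interval_cases m <;> interval_cases n <;> omega
    obtain ⟨rfl, hn4⟩ := hm4
    -- |M| = 12 : the Sylow 2-subgroup is normal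
    have hM12 : Nat.card M = 12 := by omega
    obtain ⟨R⟩ : Nonempty (Sylow 2 M) := inferInstance
    have hR4 : ∀ R : Sylow 2 M, Nat.card (R : Subgroup M) = 4 := fun R => by
      rw [card_sylow_eq_pow (a := 2) (m := 3) (by rw [hM12]; norm_num) (by norm_num) R]
      norm_num
    have hcen : ∀ P : Sylow 3 M, Nat.card (centralizer ((P : Subgroup M) : Set M)) = 3 * 1 := by
      intro P
      have h4 := card_normalizer_mul_card_sylow P
      rw [hn4, hM12] at h4
      have h5 : Nat.card (centralizer ((P : Subgroup M) : Set M)) ≤ 3 := by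
        refine le_trans (Nat.card_le_card_of_injective _
          (Subgroup.inclusion_injective (Subgroup.centralizer_le_normalizer _))) ?_
        omega
      have h6 : Nat.card (P : Subgroup M) ≤ Nat.card (centralizer ((P : Subgroup M) : Set M)) :=
        Nat.card_le_card_of_injective _ (Subgroup.inclusion_injective
          (sylow_le_centralizer P (hP' P)))
      rw [hP' P] at h6
      omega
    have hcount := card_dvd_orderOf hP' hcen
    rw [hn4] at hcount
    have hnot : Nat.card {g : M // ¬ 3 ∣ orderOf g} ≤ 4 := by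
      have h4 := card_or (fun g : M => 3 ∣ orderOf g) (fun g : M => ¬ 3 ∣ orderOf g)
        (fun g h5 h6 => h6 h5)
      have h5 := card_sub_le (fun g : M => 3 ∣ orderOf g ∨ ¬ 3 ∣ orderOf g)
      rw [hM12] at h5
      omega
    have hRset : ∀ R : Sylow 2 M, ((R : Subgroup M) : Set M) = {g : M | ¬ 3 ∣ orderOf g} := by
      intro R
      refine Set.eq_of_subset_of_ncard_le ?_ ?_
      · intro g hg h3
        obtain ⟨k, hk⟩ := (IsPGroup.iff_orderOf.1 R.2) ⟨g, hg⟩
        rw [Subgroup.orderOf_mk] at hk
        rw [hk] at h3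
        have := Nat.Prime.dvd_of_dvd_pow Nat.prime_three h3
        norm_num at this
      · have : ((R : Subgroup M) : Set M).ncard = 4 := hR4 R
        rw [this]
        exact hnot
    have hRone : Nat.card (Sylow 2 M) = 1 := by
      rw [Nat.card_eq_one_iff_unique]
      refine ⟨⟨fun R R' => Sylow.ext (SetLike.coe_injective ((hRset R).trans (hRset R').symm))⟩,
        ⟨R⟩⟩
    have h4 := le_normalizer_of_card_sylow_eq_one R hRone
    set V := (R : Subgroup M).map M.subtype with hV
    have hV4 : Nat.card V = 4 := by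
      rw [hV, ← Nat.card_congr (Subgroup.equivMapOfInjective (R : Subgroup M) _
        M.subtype_injective).toEquiv, hR4 R]
    have hVn : normalizer (V : Set G) ≠ ⊤ := by
      intro hh
      have h1 : V.Normal := Subgroup.normalizer_eq_top_iff.1 hh
      rcases h1.eq_bot_or_eq_top with h2 | h2
      · rw [h2, Subgroup.card_bot] at hV4
        omega
      · rw [h2, Subgroup.card_top, h] at hV4
        omega
    have h5 := heq _ hVn h4
    have h6 : IsPGroup 2 V := IsPGroup.iff_card.2 ⟨2, by rw [hV4]; norm_num⟩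
    obtain ⟨T, hT⟩ := h6.exists_le_sylow
    have hi : (V.subgroupOf (T : Subgroup G)).index = 2 := by
      have h5 := Subgroup.card_mul_index (V.subgroupOf (T : Subgroup G))
      have h6 : Nat.card (V.subgroupOf (T : Subgroup G)) = 4 := by
        rw [Nat.card_congr (Subgroup.subgroupOfEquivOfLe hT).toEquiv, hV4]
      rw [h6, card_sylow_two h T] at h5
      omega
    have hn : (V.subgroupOf (T : Subgroup G)).Normal := Subgroup.normal_of_index_eq_two hi
    have h7 := (Subgroup.normal_subgroupOf_iff_le_normalizer hT).1 hn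
    rw [← h5] at h7
    have h8 := Subgroup.card_dvd_of_le h7
    rw [card_sylow_two h T, hM12] at h8
    omega

theorem exists_klein_perm : ∃ V : Subgroup (Equiv.Perm (Fin 4)), V.Normal ∧ IsKleinFour V := by
  have h4 : Nat.card (Fin 4) = 4 := by simp
  have h1 := alternatingGroup.kleinFour_isKleinFour (α := Fin 4) h4
  have h2 := alternatingGroup.characteristic_kleinFour (α := Fin 4) h4
  refine ⟨(alternatingGroup.kleinFour (Fin 4)).map (alternatingGroup (Fin 4)).subtype, ?_, ?_⟩
  · infer_instance
  · have e := Subgroup.equivMapOfInjective (alternatingGroup.kleinFour (Fin 4)) _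
      (alternatingGroup (Fin 4)).subtype_injective
    refine ⟨by rw [← Nat.card_congr e.toEquiv, h1.card_four], ?_⟩
    rw [← Monoid.exponent_eq_of_mulEquiv e, h1.exponent_two]

/-- a subgroup isomorphic to the symmetric group is the normalizer of a four-group -/
theorem eq_normalizer_klein (h : Nat.card G = 168) {M : Subgroup G}
    (hM : Nonempty (M ≃* Equiv.Perm (Fin 4))) :
    ∃ V : Subgroup G, IsKleinFour V ∧ M = normalizer (V : Set G) := by
  obtain ⟨e⟩ := hM
  obtain ⟨V, hVn, hVk⟩ := exists_klein_perm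
  have hM24 : Nat.card M = 24 := by
    rw [Nat.card_congr e.toEquiv, Nat.card_perm]
    simp [Nat.factorial]
  set W : Subgroup M := V.map e.symm.toMonoidHom with hW
  have hWn : W.Normal := hVn.map _ e.symm.surjective
  have e1 : V ≃* W := Subgroup.equivMapOfInjective V _ e.symm.injective
  have e2 : W ≃* W.map M.subtype := Subgroup.equivMapOfInjective W _ M.subtype_injective
  have hk : IsKleinFour (W.map M.subtype) := by
    refine ⟨by rw [← Nat.card_congr (e1.trans e2).toEquiv, hVk.card_four], ?_⟩
    rw [← Monoid.exponent_eq_of_mulEquiv (e1.trans e2), hVk.exponent_two]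
  refine ⟨W.map M.subtype, hk, ?_⟩
  have h4 := Subgroup.le_normalizer_map (H := W) M.subtype
  rw [Subgroup.normalizer_eq_top_iff.2 hWn] at h4
  refine Subgroup.eq_of_le_of_card_ge (fun x hx => h4 ⟨⟨x, hx⟩, Subgroup.mem_top _, rfl⟩) ?_
  rw [card_normalizer_klein h hk, hM24]

theorem exists_two_klein (h : Nat.card G = 168) (T : Sylow 2 G) :
    ∃ U₁ U₂ : Subgroup G, U₁ ≤ (T : Subgroup G) ∧ U₂ ≤ (T : Subgroup G) ∧ IsKleinFour U₁ ∧
      IsKleinFour U₂ ∧ U₁ ≠ U₂ ∧
      ∀ U : Subgroup G, U ≤ (T : Subgroup G) → IsKleinFour U → U = U₁ ∨ U = U₂ := by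
  have h1 := card_klein h T
  change ({U : Subgroup G | U ≤ (T : Subgroup G) ∧ IsKleinFour U} : Set (Subgroup G)).ncard = 2
    at h1
  obtain ⟨U₁, U₂, hne, heq⟩ := Set.ncard_eq_two.1 h1
  have h2 : U₁ ∈ ({U₁, U₂} : Set (Subgroup G)) := by simp
  have h3 : U₂ ∈ ({U₁, U₂} : Set (Subgroup G)) := by simp
  rw [← heq] at h2 h3
  refine ⟨U₁, U₂, h2.1, h3.1, h2.2, h3.2, hne, ?_⟩
  intro U hUT hU
  have h4 : U ∈ {U : Subgroup G | U ≤ (T : Subgroup G) ∧ IsKleinFour U} := ⟨hUT, hU⟩
  rw [heq] at h4
  simpa using h4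

theorem normalizer_sup_le {G' : Type*} [Group G'] (U W : Subgroup G') {x : G'}
    (h1 : x ∈ normalizer (U : Set G')) (h2 : x ∈ normalizer (W : Set G')) :
    x ∈ normalizer ((U ⊔ W : Subgroup G') : Set G') := by
  rw [Subgroup.mem_normalizer_iff_map_conj_eq] at h1 h2 ⊢
  rw [Subgroup.map_sup, h1, h2]

theorem normalizer_ne_of_ne (h : Nat.card G = 168) (T : Sylow 2 G) {U W : Subgroup G}
    (hUT : U ≤ (T : Subgroup G)) (hWT : W ≤ (T : Subgroup G)) (hU : IsKleinFour U)
    (hW : IsKleinFour W) (hne : U ≠ W) : normalizer (U : Set G) ≠ normalizer (W : Set G) := by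
  intro heq
  have h1 : U ⊔ W = T := by
    refine Subgroup.eq_of_le_of_card_ge (sup_le hUT hWT) ?_
    rw [card_sylow_two h T]
    have h2 : Nat.card (U ⊔ W : Subgroup G) ∣ 8 := by
      rw [← card_sylow_two h T]
      exact Subgroup.card_dvd_of_le (sup_le hUT hWT)
    have h3 : 4 ∣ Nat.card (U ⊔ W : Subgroup G) := by
      rw [← hU.card_four]
      exact Subgroup.card_dvd_of_le le_sup_left
    have h4 : Nat.card (U ⊔ W : Subgroup G) ≠ 4 := by
      intro h5
      have h6 : U = U ⊔ W := Subgroup.eq_of_le_of_card_ge le_sup_left (by rw [hU.card_four, h5])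
      have h7 : W ≤ U := by
        rw [h6]
        exact le_sup_right
      exact hne (Subgroup.eq_of_le_of_card_ge h7 (by rw [hU.card_four, hW.card_four])).symm
    have h5 := Nat.le_of_dvd (by norm_num) h2
    interval_cases (Nat.card (U ⊔ W : Subgroup G)) <;> omega
  have h2 : normalizer (U : Set G) ≤ normalizer ((T : Subgroup G) : Set G) := by
    intro x hx
    rw [← h1]
    exact normalizer_sup_le U W hx (heq ▸ hx)
  rw [normalizer_two h T] at h2
  have h3 := Subgroup.card_dvd_of_le h2
  rw [card_normalizer_klein h hU, card_sylow_two h T] at h3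
  omega

theorem result_1008 (h : Nat.card G = 168) :
    (∀ M : Subgroup G, IsCoatom M → Nonempty (M ≃* Equiv.Perm (Fin 4)) ∨
      (Nat.card M = 21 ∧ ¬ IsMulCommutative M)) ∧
    (∀ M M' : Subgroup G, IsCoatom M → IsCoatom M' → Nat.card M = 21 → Nat.card M' = 21 →
      ∃ g : G, M' = M.map (MulAut.conj g).toMonoidHom) ∧
    ∃ M₁ M₂ : Subgroup G, IsCoatom M₁ ∧ IsCoatom M₂ ∧ Nonempty (M₁ ≃* Equiv.Perm (Fin 4)) ∧
      Nonempty (M₂ ≃* Equiv.Perm (Fin 4)) ∧ (∀ g : G, M₂ ≠ M₁.map (MulAut.conj g).toMonoidHom) ∧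
      ∀ M : Subgroup G, IsCoatom M → Nonempty (M ≃* Equiv.Perm (Fin 4)) →
        ∃ g : G, M = M₁.map (MulAut.conj g).toMonoidHom ∨
          M = M₂.map (MulAut.conj g).toMonoidHom := by
  refine ⟨?_, ?_, ?_⟩
  · intro M hM
    rcases maximal_cases h hM with h1 | ⟨P, rfl⟩
    · exact Or.inl (iso_of_card_eq h h1).2
    · right
      refine ⟨((seven h).2 P).2.2, ?_⟩
      intro hc
      have h1 : normalizer ((P : Subgroup G) : Set G) ≤ centralizer ((P : Subgroup G) : Set G) := by
        intro x hx
        rw [mem_centralizer_iff]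
        intro y hy
        exact congrArg (fun z : normalizer ((P : Subgroup G) : Set G) => z.1)
          (mul_comm' (⟨y, Subgroup.le_normalizer hy⟩ : normalizer ((P : Subgroup G) : Set G))
            ⟨x, hx⟩)
      have h2 := Subgroup.card_dvd_of_le h1
      rw [((seven h).2 P).2.1, ((seven h).2 P).2.2] at h2
      omega
  · intro M M' hM hM' h21 h21'
    rcases maximal_cases h hM with h1 | ⟨P, rfl⟩
    · omega
    rcases maximal_cases h hM' with h1 | ⟨P', rfl⟩
    · omega
    obtain ⟨g, hg⟩ := MulAction.exists_smul_eq G P P'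
    refine ⟨g, ?_⟩
    rw [← normalizer_map_conj, ← hg]
    rfl
  · obtain ⟨T⟩ : Nonempty (Sylow 2 G) := inferInstance
    obtain ⟨U₁, U₂, h1T, h2T, hU1, hU2, hne, hall⟩ := exists_two_klein h T
    refine ⟨normalizer (U₁ : Set G), normalizer (U₂ : Set G),
      isCoatom_of_card h (card_normalizer_klein h hU1),
      isCoatom_of_card h (card_normalizer_klein h hU2), normalizer_klein h hU1,
      normalizer_klein h hU2, ?_, ?_⟩
    · intro g hg
      rw [← normalizer_map_conj] at hg
      have hk := isKleinFour_map hU1 g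
      have h3 : (T : Subgroup G) ≤
          normalizer ((U₁.map (MulAut.conj g).toMonoidHom : Subgroup G) : Set G) := by
        rw [← hg]
        exact le_normalizer_klein h T h2T hU2
      have h4 : U₁.map (MulAut.conj g).toMonoidHom ≤ (T : Subgroup G) := by
        have h5 : IsPGroup 2 (U₁.map (MulAut.conj g).toMonoidHom) :=
          IsPGroup.iff_card.2 ⟨2, by rw [hk.card_four]; norm_num⟩
        have h6 := T.2.to_sup_of_normal_right' h5 h3
        have h7 := T.3 h6 le_sup_left
        rw [← h7]
        exact le_sup_right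
      rcases hall _ h4 hk with h5 | h5
      · rw [h5] at hg
        exact normalizer_ne_of_ne h T h1T h2T hU1 hU2 hne hg.symm
      · exact not_conj_klein h T h1T h2T hU1 hU2 hne g h5
    · intro M _ hM
      obtain ⟨V, hV, rfl⟩ := eq_normalizer_klein h hM
      obtain ⟨T', hT'⟩ := exists_le_sylow_klein hV
      obtain ⟨g, hg⟩ := MulAction.exists_smul_eq G T T'
      have h3 : V.map (MulAut.conj g⁻¹).toMonoidHom ≤ (T : Subgroup G) := by
        rw [Subgroup.map_le_iff_le_comap]
        intro x hx
        rw [Subgroup.mem_comap]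
        have h4 := hT' hx
        rw [← hg] at h4
        have h5 : x ∈ (T : Subgroup G).map (MulAut.conj g).toMonoidHom := h4
        obtain ⟨y, hy, rfl⟩ := h5
        have h6 : (MulAut.conj g⁻¹).toMonoidHom ((MulAut.conj g).toMonoidHom y) = y := by
          simp [mul_assoc]
        rw [h6]
        exact hy
      have h4 : V = (V.map (MulAut.conj g⁻¹).toMonoidHom).map (MulAut.conj g).toMonoidHom := by
        rw [Subgroup.map_map]
        have : (MulAut.conj g).toMonoidHom.comp (MulAut.conj g⁻¹).toMonoidHom = MonoidHom.id G := by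
          ext x
          simp [mul_assoc]
        rw [this, Subgroup.map_id]
      refine ⟨g, ?_⟩
      rcases hall _ h3 (isKleinFour_map hV _) with h5 | h5
      · left
        rw [← h5, ← normalizer_map_conj, ← h4]
      · right
        rw [← h5, ← normalizer_map_conj, ← h4]

end H21.Order168
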